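import Mathlib
import Cfsg.Prelude.Def_Sporadic_a
import Cfsg.Agent.H7.SteinerInter

/-!
The graphs of the Steiner system S(3,6,22).
-/
set_option autoImplicit false

namespace Cfsg.Agent.H7
open Cfsg Cfsg.Agent.H29

section
variable {α : Type*} [Fintype α] [DecidableEq α] {B : Set (Finset α)}

theorem inter_card_sum (d b : Finset α) : ((d ∩ b).card : ℤ) = ∑ x ∈ b, if x ∈ d then 1 else 0 := by
  rw [Finset.sum_boole, Finset.filter_mem_eq_inter, Finset.inter_comm]

theorem nb_sum (S : Finset α) : (nb B S : ℤ) = ∑ d ∈ blk B, if S ⊆ d then 1 else 0 := by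
  unfold nb
  rw [Finset.sum_boole]

theorem sum_inter_one (b : Finset α) :
    ∑ d ∈ blk B, ((d ∩ b).card : ℤ) = ∑ x ∈ b, (nb B {x} : ℤ) := by
  rw [Finset.sum_congr rfl (fun d _ => inter_card_sum d b), Finset.sum_comm]
  apply Finset.sum_congr rfl
  intro x _
  rw [nb_sum]
  apply Finset.sum_congr rfl
  intro d _
  simp only [Finset.singleton_subset_iff]

theorem sum_inter_two (b c : Finset α) :
    ∑ d ∈ blk B, ((d ∩ b).card : ℤ) * (d ∩ c).card =
      ∑ x ∈ b, ∑ y ∈ c, (nb B {x, y} : ℤ) := by
  have h1 : ∀ d ∈ blk B, ((d ∩ b).card : ℤ) * (d ∩ c).card =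
      ∑ x ∈ b, ∑ y ∈ c, if x ∈ d ∧ y ∈ d then 1 else 0 := by
    intro d _
    rw [inter_card_sum, inter_card_sum, Finset.sum_mul_sum]
    apply Finset.sum_congr rfl
    intro x _
    apply Finset.sum_congr rfl
    intro y _
    by_cases h1 : x ∈ d <;> by_cases h2 : y ∈ d <;> simp [h1, h2]
  rw [Finset.sum_congr rfl h1, Finset.sum_comm]
  apply Finset.sum_congr rfl
  intro x _
  rw [Finset.sum_comm]
  apply Finset.sum_congr rfl
  intro y _
  rw [nb_sum]
  apply Finset.sum_congr rfl
  intro d _
  simp only [Finset.insert_subset_iff, Finset.singleton_subset_iff]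

theorem inter3622' (hα : Fintype.card α = 22) (hB : IsSteinerSystem 3 6 B) {b c : Finset α}
    (hb : b ∈ B) (hc : c ∈ B) (hbc : c ≠ b) : (c ∩ b).card = 0 ∨ (c ∩ b).card = 2 := by
  obtain ⟨_, h1, _, h3, h4, h5, _⟩ := nj3622 hα hB hb
  have h1 := nj_zero h1 hc
  have h3 := nj_zero h3 hc
  have h4 := nj_zero h4 hc
  have h5 := nj_zero h5 hc
  have h6 : (c ∩ b).card ≤ 6 := by
    rw [← hB.1 b hb]; exact Finset.card_le_card Finset.inter_subset_right
  have h7 : (c ∩ b).card ≠ 6 := by
    intro h
    apply hbc
    have e1 : c ∩ b = b := Finset.eq_of_subset_of_card_le Finset.inter_subset_right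
      (by rw [h, hB.1 b hb])
    have e2 : b ⊆ c := by rw [← e1]; exact Finset.inter_subset_left
    exact (Finset.eq_of_subset_of_card_le e2 (by rw [hB.1 b hb, hB.1 c hc])).symm
  omega

/-- number of blocks disjoint from two blocks -/
theorem common3622 (hα : Fintype.card α = 22) (hB : IsSteinerSystem 3 6 B) {b c : Finset α}
    (hb : b ∈ B) (hc : c ∈ B) (hbc : b ≠ c) :
    (((blk B).filter fun d => (d ∩ b).card = 0 ∧ (d ∩ c).card = 0).card : ℤ) =
      2 * (b ∩ c).card := by
  have hb6 := hB.1 b hb
  have hc6 := hB.1 c hc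
  set t : ℤ := ((b ∩ c).card : ℤ) with ht
  have htt : t = 0 ∨ t = 2 := by
    rcases inter3622' hα hB hc hb hbc with h | h
    · left; rw [ht, h]; rfl
    · right; rw [ht, h]; rfl
  have hterm : ∀ d ∈ blk B, ((2 : ℤ) - (d ∩ b).card) * (2 - (d ∩ c).card) =
      4 * (if (d ∩ b).card = 0 ∧ (d ∩ c).card = 0 then 1 else 0) +
      ((if d = b then -4 * (2 - t) else 0) + (if d = c then -4 * (2 - t) else 0)) := by
    intro d hd
    rw [mem_blk] at hd
    by_cases h1 : d = b
    · subst h1
      rw [if_neg, if_pos rfl, if_neg hbc, Finset.inter_self, hb6]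
      · push_cast; ring
      · rw [Finset.inter_self, hb6]; norm_num
    · by_cases h2 : d = c
      · subst h2
        rw [if_neg, if_neg h1, if_pos rfl, Finset.inter_self, hc6, Finset.inter_comm d b]
        · push_cast; ring
        · rw [Finset.inter_self, hc6]; norm_num
      · rw [if_neg h1, if_neg h2]
        rcases inter3622' hα hB hb hd h1 with h3 | h3 <;>
          rcases inter3622' hα hB hc hd h2 with h4 | h4 <;> rw [h3, h4] <;> norm_num
  have hsum := Finset.sum_congr rfl hterm
  rw [Finset.sum_add_distrib, ← Finset.mul_sum, Finset.sum_boole, Finset.sum_add_distrib,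
    Finset.sum_ite_eq', Finset.sum_ite_eq', if_pos (mem_blk.mpr hb), if_pos (mem_blk.mpr hc)] at hsum
  have hexp : ∀ d ∈ blk B, ((2 : ℤ) - (d ∩ b).card) * (2 - (d ∩ c).card) =
      4 - 2 * ((d ∩ b).card : ℤ) - 2 * ((d ∩ c).card : ℤ) +
        ((d ∩ b).card : ℤ) * (d ∩ c).card := by
    intro d _; ring
  rw [Finset.sum_congr rfl hexp, Finset.sum_add_distrib, Finset.sum_sub_distrib,
    Finset.sum_sub_distrib, ← Finset.mul_sum, ← Finset.mul_sum, sum_inter_one, sum_inter_one,
    sum_inter_two, Finset.sum_const] at hsum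
  have h77 : (blk B).card = 77 := by
    have := nb3622_0 hα hB (S := ∅) Finset.card_empty
    unfold nb at this
    rw [← this]
    congr 1
    ext d; simp
  have e1 : ∀ s : Finset α, s.card = 6 → ∑ x ∈ s, (nb B {x} : ℤ) = 126 := by
    intro s hs
    rw [Finset.sum_congr rfl (fun x _ => by
      rw [nb3622_1 hα hB (Finset.card_singleton x)]), Finset.sum_const, hs]
    norm_num
  have e2 : ∑ x ∈ b, ∑ y ∈ c, (nb B {x, y} : ℤ) = 180 + 16 * t := by
    have h1 : ∀ x ∈ b, ∑ y ∈ c, (nb B {x, y} : ℤ) = 30 + 16 * (if x ∈ c then 1 else 0) := by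
      intro x _
      have h2 : ∀ y ∈ c, (nb B {x, y} : ℤ) = 5 + 16 * (if x = y then 1 else 0) := by
        intro y _
        by_cases hxy : x = y
        · subst hxy
          rw [Finset.pair_eq_singleton, nb3622_1 hα hB (Finset.card_singleton x), if_pos rfl]
          norm_num
        · rw [nb3622_2 hα hB (Finset.card_pair hxy), if_neg hxy]; norm_num
      rw [Finset.sum_congr rfl h2, Finset.sum_add_distrib, ← Finset.mul_sum, Finset.sum_const, hc6,
        Finset.sum_ite_eq]
      norm_num
    rw [Finset.sum_congr rfl h1, Finset.sum_add_distrib, ← Finset.mul_sum, Finset.sum_const, hb6,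
      Finset.sum_boole, Finset.filter_mem_eq_inter, ← ht]
    norm_num
  rw [e1 b hb6, e1 c hc6, e2, h77] at hsum
  generalize (((blk B).filter fun d => (d ∩ b).card = 0 ∧ (d ∩ c).card = 0).card : ℤ) = M
    at hsum ⊢
  norm_num at hsum
  rcases htt with h | h <;> rw [h] at hsum ⊢ <;> linarith

/-- number of blocks through a point disjoint from a block -/
theorem through3622 (hα : Fintype.card α = 22) (hB : IsSteinerSystem 3 6 B) {b : Finset α}
    (hb : b ∈ B) {a : α} (ha : a ∉ b) :
    ((blk B).filter fun d => a ∈ d ∧ (d ∩ b).card = 0).card = 6 := by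
  have hb6 := hB.1 b hb
  -- ∑ over blocks through a of (2 - |d ∩ b|)
  have hterm : ∀ d ∈ blk B, ((2 : ℤ) - (d ∩ b).card) * (if a ∈ d then 1 else 0) =
      2 * (if a ∈ d ∧ (d ∩ b).card = 0 then 1 else 0) := by
    intro d hd
    rw [mem_blk] at hd
    by_cases h1 : a ∈ d
    · have h2 : d ≠ b := by rintro rfl; exact ha h1
      rcases inter3622' hα hB hb hd h2 with h3 | h3 <;> rw [h3] <;> simp [h1]
    · simp [h1]
  have hsum := Finset.sum_congr rfl hterm
  rw [← Finset.mul_sum, Finset.sum_boole] at hsum
  have hexp : ∀ d ∈ blk B, ((2 : ℤ) - (d ∩ b).card) * (if a ∈ d then 1 else 0) =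
      2 * (if a ∈ d then 1 else 0) - ((d ∩ b).card : ℤ) * ((d ∩ {a}).card : ℤ) := by
    intro d _
    by_cases h1 : a ∈ d
    · rw [if_pos h1, Finset.inter_singleton_of_mem h1, Finset.card_singleton]; push_cast; ring
    · rw [if_neg h1, Finset.inter_singleton_of_notMem h1, Finset.card_empty]; push_cast; ring
  rw [Finset.sum_congr rfl hexp, Finset.sum_sub_distrib, ← Finset.mul_sum, sum_inter_two] at hsum
  have e1 : ∑ d ∈ blk B, (if a ∈ d then (1 : ℤ) else 0) = 21 := by
    have h1 := nb_sum (B := B) {a}
    rw [nb3622_1 hα hB (Finset.card_singleton a)] at h1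
    simp only [Finset.singleton_subset_iff] at h1
    rw [← h1]; rfl
  have e2 : ∑ x ∈ b, ∑ y ∈ ({a} : Finset α), (nb B {x, y} : ℤ) = 30 := by
    have h1 : ∀ x ∈ b, ∑ y ∈ ({a} : Finset α), (nb B {x, y} : ℤ) = 5 := by
      intro x hx
      rw [Finset.sum_singleton, nb3622_2 hα hB (Finset.card_pair (by rintro rfl; exact ha hx))]
      rfl
    rw [Finset.sum_congr rfl h1, Finset.sum_const, hb6]; norm_num
  rw [e1, e2] at hsum
  have : (((blk B).filter fun d => a ∈ d ∧ (d ∩ b).card = 0).card : ℤ) = 6 := by linarith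
  exact_mod_cast this

end

/-! ### cardinalities of sets of vertices -/

theorem fcard_eq_ncard {V : Type*} (S : Set V) [Fintype S] : Fintype.card S = S.ncard := by
  rw [← Nat.card_eq_fintype_card]; rfl

theorem ncard_sub {α : Type*} [Fintype α] [DecidableEq α] (B : Set (Finset α))
    (P : Finset α → Prop) [DecidablePred P] :
    {v : B | P v}.ncard = ((blk B).filter P).card := by
  rw [← Set.ncard_coe_finset, ← Set.InjOn.ncard_image (f := Subtype.val)
    (Subtype.val_injective.injOn (s := {v : B | P v}))]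
  congr 1
  ext b
  simp only [Set.mem_image, Set.mem_ofPred_eq, Finset.coe_filter, mem_blk]
  constructor
  · rintro ⟨x, hx, rfl⟩; exact ⟨x.2, hx⟩
  · rintro ⟨h1, h2⟩; exact ⟨⟨b, h1⟩, h2, rfl⟩

theorem disj_iff {α : Type*} [DecidableEq α] {b c : Finset α} : Disjoint b c ↔ (c ∩ b).card = 0 := by
  rw [Finset.card_eq_zero, Finset.disjoint_iff_inter_eq_empty, Finset.inter_comm]

theorem degree_eq_ncard {V : Type*} (G : SimpleGraph V) (v : V) [Fintype (G.neighborSet v)] :
    G.degree v = (G.neighborSet v).ncard := by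
  rw [← SimpleGraph.card_neighborSet_eq_degree, fcard_eq_ncard]

section
variable {α : Type*} [Fintype α] [DecidableEq α] {B : Set (Finset α)}

theorem blockGraph_adj (_hα : Fintype.card α = 22) (hB : IsSteinerSystem 3 6 B) (b c : B) :
    (blockGraph B).Adj b c ↔ ((c : Finset α) ∩ b).card = 0 := by
  unfold blockGraph
  rw [SimpleGraph.fromRel_adj]
  constructor
  · rintro ⟨_, h | h⟩
    · exact disj_iff.mp h
    · rw [Finset.inter_comm]; exact disj_iff.mp h
  · intro h
    refine ⟨?_, Or.inl (disj_iff.mpr h)⟩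
    rintro rfl
    rw [Finset.inter_self, hB.1 b b.2] at h
    norm_num at h

theorem blk_card (hα : Fintype.card α = 22) (hB : IsSteinerSystem 3 6 B) : (blk B).card = 77 := by
  have := nb3622_0 hα hB (S := ∅) Finset.card_empty
  unfold nb at this
  rw [← this]
  congr 1
  ext d; simp

theorem blockGraph_common (hα : Fintype.card α = 22) (hB : IsSteinerSystem 3 6 B) (b c : B)
    (hbc : b ≠ c) : (((blockGraph B).commonNeighbors b c).ncard : ℤ) =
      2 * ((b : Finset α) ∩ c).card := by
  rw [← common3622 hα hB b.2 c.2 (fun h => hbc (Subtype.ext h)), ← ncard_sub]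
  congr 2
  ext d
  rw [SimpleGraph.mem_commonNeighbors, blockGraph_adj hα hB, blockGraph_adj hα hB]
  rfl

theorem blockGraph_degree (hα : Fintype.card α = 22) (hB : IsSteinerSystem 3 6 B) (b : B) :
    ((blockGraph B).neighborSet b).ncard = 16 := by
  have h := (nj3622 hα hB b.2).1
  unfold nj at h
  rw [← h, ← ncard_sub]
  congr 1
  ext d
  rw [SimpleGraph.mem_neighborSet, blockGraph_adj hα hB]
  rfl

theorem card_B (hα : Fintype.card α = 22) (hB : IsSteinerSystem 3 6 B) : Nat.card B = 77 := by
  have h := ncard_sub B (fun _ => True)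
  rw [Finset.filter_true, blk_card hα hB] at h
  have h2 : {v : B | True} = Set.univ := by ext; simp
  rw [h2, Set.ncard_univ] at h
  exact h

end

theorem blockGraph_srg {α : Type*} [Fintype α] (hα : Fintype.card α = 22) {B : Set (Finset α)}
    (hB : IsSteinerSystem 3 6 B) [Fintype B] [DecidableRel (blockGraph B).Adj] :
    (blockGraph B).IsSRGWith 77 16 0 4 := by
  classical
  constructor
  · rw [← Nat.card_eq_fintype_card, card_B hα hB]
  · intro v
    rw [degree_eq_ncard, blockGraph_degree hα hB]
  · intro v w hvw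
    have hne : v ≠ w := hvw.ne
    have h := blockGraph_common hα hB v w hne
    rw [blockGraph_adj hα hB] at hvw
    rw [Finset.inter_comm, hvw] at h
    rw [fcard_eq_ncard]
    exact_mod_cast h
  · intro v w hne hvw
    have h := blockGraph_common hα hB v w hne
    rw [blockGraph_adj hα hB] at hvw
    have h2 := inter3622' hα hB v.2 w.2 (fun h => hne (Subtype.ext h.symm))
    have h3 : ((w : Finset α) ∩ v).card = 2 := by tauto
    rw [Finset.inter_comm, h3] at h
    rw [fcard_eq_ncard]
    exact_mod_cast h

/-! ### the graph on 100 vertices -/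

open Classical in
theorem ncard_eq_sum {V : Type*} [Fintype V] (T : Set V) :
    T.ncard = ∑ v, if v ∈ T then 1 else 0 := by
  rw [Finset.sum_boole, ← Set.ncard_coe_finset]
  simp

open Classical in
theorem ncard_opt {α β : Type*} [Fintype α] [Fintype β] (S : Set (Option (α ⊕ β))) :
    S.ncard = (if none ∈ S then 1 else 0) + {a : α | some (Sum.inl a) ∈ S}.ncard +
      {b : β | some (Sum.inr b) ∈ S}.ncard := by
  rw [ncard_eq_sum S, Fintype.sum_option, Fintype.sum_sum_type, ncard_eq_sum, ncard_eq_sum,
    add_assoc]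
  rfl

section
variable {α : Type*} {B : Set (Finset α)}

theorem pb_none_inl (a : α) : (pointBlockGraph B).Adj none (some (Sum.inl a)) := by
  unfold pointBlockGraph
  rw [SimpleGraph.fromRel_adj]
  exact ⟨by simp, Or.inl trivial⟩

theorem pb_none_inr (b : B) : ¬ (pointBlockGraph B).Adj none (some (Sum.inr b)) := by
  unfold pointBlockGraph
  rw [SimpleGraph.fromRel_adj]
  rintro ⟨_, h | h⟩ <;> exact h

theorem pb_inl_inl (a a' : α) :
    ¬ (pointBlockGraph B).Adj (some (Sum.inl a)) (some (Sum.inl a')) := by
  unfold pointBlockGraph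
  rw [SimpleGraph.fromRel_adj]
  rintro ⟨_, h | h⟩ <;> exact h

theorem pb_inl_inr (a : α) (b : B) :
    (pointBlockGraph B).Adj (some (Sum.inl a)) (some (Sum.inr b)) ↔ a ∈ (b : Finset α) := by
  unfold pointBlockGraph
  rw [SimpleGraph.fromRel_adj]
  constructor
  · rintro ⟨_, h | h⟩
    · exact h
    · exact h.elim
  · intro h
    exact ⟨by simp, Or.inl h⟩

theorem pb_inr_inr [DecidableEq α] (hB : ∀ b ∈ B, b.card = 6) (b c : B) :
    (pointBlockGraph B).Adj (some (Sum.inr b)) (some (Sum.inr c)) ↔
      ((c : Finset α) ∩ b).card = 0 := by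
  unfold pointBlockGraph
  rw [SimpleGraph.fromRel_adj]
  constructor
  · rintro ⟨_, h | h⟩
    · exact disj_iff.mp h
    · rw [Finset.inter_comm]; exact disj_iff.mp h
  · intro h
    refine ⟨?_, Or.inl (disj_iff.mpr h)⟩
    intro he
    have : b = c := by simpa using he
    subst this
    rw [Finset.inter_self, hB b b.2] at h
    norm_num at h

end

theorem pb_srg {α : Type*} [Fintype α] (hα : Fintype.card α = 22) {B : Set (Finset α)}
    (hB : IsSteinerSystem 3 6 B) [Fintype B] [DecidableRel (pointBlockGraph B).Adj] :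
    (pointBlockGraph B).IsSRGWith 100 22 0 6 := by
  classical
  have hadj := pb_inr_inr (B := B) hB.1
  have hn1 : ∀ a, (pointBlockGraph B).Adj none (some (Sum.inl a)) := pb_none_inl
  have hn2 : ∀ b, ¬ (pointBlockGraph B).Adj none (some (Sum.inr b)) := pb_none_inr
  have hn3 := pb_inl_inl (B := B)
  have hn4 := pb_inl_inr (B := B)
  have hn1' : ∀ a, (pointBlockGraph B).Adj (some (Sum.inl a)) none := fun a => (hn1 a).symm
  have hn2' : ∀ b, ¬ (pointBlockGraph B).Adj (some (Sum.inr b)) none := fun b h => hn2 b h.symm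
  have hn4' : ∀ (b : B) (a : α), (pointBlockGraph B).Adj (some (Sum.inr b)) (some (Sum.inl a)) ↔
      a ∈ (b : Finset α) := fun b a => by rw [SimpleGraph.adj_comm, hn4]
  have hnn : ¬ (pointBlockGraph B).Adj none none := fun h => h.ne rfl
  have cα : (Set.univ : Set α).ncard = 22 := by rw [Set.ncard_univ, Nat.card_eq_fintype_card, hα]
  have cmem : ∀ s : Finset α, {a : α | a ∈ s}.ncard = s.card := fun s => Set.ncard_coe_finset s
  have cB : ∀ S : Finset α, {b : B | S ⊆ (b : Finset α)}.ncard = nb B S := by
    intro S; rw [ncard_sub B (fun b => S ⊆ b)]; rfl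
  have ne0 : ∀ b : B, (b : Finset α).Nonempty := by
    intro b; rw [← Finset.card_pos, hB.1 b b.2]; norm_num
  constructor
  · rw [Fintype.card_option, Fintype.card_sum, hα, ← Nat.card_eq_fintype_card, card_B hα hB]
  · -- degree
    intro v
    rw [degree_eq_ncard, ncard_opt]
    simp only [SimpleGraph.mem_neighborSet]
    rcases v with _ | (a | b)
    · simp only [hnn, hn1, hn2, if_false, Set.ncard_empty]
      have e1 : {a : α | True} = Set.univ := by ext; simp
      have e2 : {b : B | False} = ∅ := by ext; simp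
      rw [e1, e2, cα, Set.ncard_empty]
    · simp only [hn1', hn3, hn4, if_true]
      have e2 : {b : α | False} = ∅ := by ext; simp
      have h := cB {a}
      rw [nb3622_1 hα hB (Finset.card_singleton a)] at h
      simp only [Finset.singleton_subset_iff] at h
      rw [e2, Set.ncard_empty, h]
    · simp only [hn2', hn4', hadj, if_false]
      rw [cmem, hB.1 b b.2, ncard_sub B (fun d => (d ∩ (b : Finset α)).card = 0)]
      have h := (nj3622 hα hB b.2).1
      unfold nj at h
      rw [h]
  · -- adjacent
    have key : ∀ v w, (pointBlockGraph B).Adj v w →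
        (pointBlockGraph B).commonNeighbors v w = ∅ := by
      intro v w hvw
      rw [Set.eq_empty_iff_forall_notMem]
      intro x hx
      rw [SimpleGraph.mem_commonNeighbors] at hx
      obtain ⟨h1, h2⟩ := hx
      have tri : ∀ a (b c : B), a ∈ (b : Finset α) → a ∈ (c : Finset α) →
          ((c : Finset α) ∩ b).card = 0 → False := by
        intro a b c hb hc h
        rw [Finset.card_eq_zero] at h
        have : a ∈ (c : Finset α) ∩ b := Finset.mem_inter.mpr ⟨hc, hb⟩
        rw [h] at this
        simp at this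
      rcases v with _ | (a | b) <;> rcases w with _ | (a' | b') <;> rcases x with _ | (a'' | b'') <;>
        simp only [hnn, hn1, hn2, hn1', hn2', hn3, hn4, hn4', hadj] at hvw h1 h2
      · exact tri a b' b'' hvw h1 h2
      · exact tri a' b b'' hvw h2 h1
      · exact tri a'' b b' h1 h2 hvw
      · -- three disjoint blocks
        have hne : (b : Finset α) ≠ b' := by
          intro h
          rw [h, Finset.inter_self, hB.1 b' b'.2] at hvw
          norm_num at hvw
        have h3 := common3622 hα hB b.2 b'.2 hne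
        have hvw' : ((b : Finset α) ∩ b').card = 0 := by rw [Finset.inter_comm]; exact hvw
        rw [hvw'] at h3
        have h4 : ((blk B).filter fun d => (d ∩ (b : Finset α)).card = 0 ∧
            (d ∩ (b' : Finset α)).card = 0).card = 0 := by exact_mod_cast h3
        rw [Finset.card_eq_zero] at h4
        have : (b'' : Finset α) ∈ ((blk B).filter fun d => (d ∩ (b : Finset α)).card = 0 ∧
            (d ∩ (b' : Finset α)).card = 0) := by
          rw [Finset.mem_filter]
          exact ⟨mem_blk.mpr b''.2, h1, h2⟩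
        rw [h4] at this
        simp at this
    intro v w hvw
    rw [fcard_eq_ncard, key v w hvw, Set.ncard_empty]
  · -- non-adjacent
    have key1 : ∀ b : B, ((pointBlockGraph B).commonNeighbors none (some (Sum.inr b))).ncard = 6 := by
      intro b
      rw [ncard_opt]
      simp only [SimpleGraph.mem_commonNeighbors, hnn, hn1, hn2, hn4', hn2', false_and, true_and,
        if_false]
      have e2 : {b : B | False} = ∅ := by ext; simp
      rw [cmem, e2, Set.ncard_empty, hB.1 b b.2]
    have key2 : ∀ a a' : α, a ≠ a' → ((pointBlockGraph B).commonNeighbors (some (Sum.inl a))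
        (some (Sum.inl a'))).ncard = 6 := by
      intro a a' hne
      rw [ncard_opt]
      simp only [SimpleGraph.mem_commonNeighbors, hn1', hn3, hn4, and_self, if_true]
      have e2 : {b : α | False} = ∅ := by ext; simp
      have h := cB {a, a'}
      rw [nb3622_2 hα hB (Finset.card_pair hne)] at h
      simp only [Finset.insert_subset_iff, Finset.singleton_subset_iff] at h
      rw [e2, Set.ncard_empty, h]
    have key3 : ∀ (a : α) (b : B), a ∉ (b : Finset α) →
        ((pointBlockGraph B).commonNeighbors (some (Sum.inl a)) (some (Sum.inr b))).ncard = 6 := by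
      intro a b hab
      rw [ncard_opt]
      simp only [SimpleGraph.mem_commonNeighbors, hn1', hn2', hn3, hn4, hn4', hadj, and_false,
        false_and, if_false]
      have e2 : {b : α | False} = ∅ := by ext; simp
      rw [e2, Set.ncard_empty, ncard_sub B (fun d => a ∈ d ∧ (d ∩ (b : Finset α)).card = 0),
        through3622 hα hB b.2 hab]
    have key4 : ∀ (b c : B), b ≠ c → ((c : Finset α) ∩ b).card ≠ 0 →
        ((pointBlockGraph B).commonNeighbors (some (Sum.inr b)) (some (Sum.inr c))).ncard = 6 := by
      intro b c hbc hne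
      rw [ncard_opt]
      simp only [SimpleGraph.mem_commonNeighbors, hn2', hn4', hadj, and_self, if_false]
      have h1 : {a : α | a ∈ (b : Finset α) ∧ a ∈ (c : Finset α)}.ncard =
          ((b : Finset α) ∩ c).card := by
        rw [← cmem]; congr 1; ext a; simp
      have hbc' : (b : Finset α) ≠ c := fun h => hbc (Subtype.ext h)
      have h2 := inter3622' hα hB b.2 c.2 hbc'.symm
      have h3 : ((c : Finset α) ∩ b).card = 2 := by tauto
      have h4 := common3622 hα hB b.2 c.2 hbc'
      rw [Finset.inter_comm, h3] at h4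
      rw [h1, Finset.inter_comm, h3,
        ncard_sub B (fun d => (d ∩ (b : Finset α)).card = 0 ∧ (d ∩ (c : Finset α)).card = 0)]
      have h5 : ((blk B).filter fun d => (d ∩ (b : Finset α)).card = 0 ∧
            (d ∩ (c : Finset α)).card = 0).card = 4 := by exact_mod_cast h4
      rw [h5]
    have hsymm : ∀ v w, (pointBlockGraph B).commonNeighbors v w =
        (pointBlockGraph B).commonNeighbors w v := fun v w =>
      SimpleGraph.commonNeighbors_symm _ v w
    intro v w hne hvw
    rw [fcard_eq_ncard]
    rcases v with _ | (a | b) <;> rcases w with _ | (a' | b')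
    · exact absurd rfl hne
    · exact absurd (hn1 a') hvw
    · exact key1 b'
    · exact absurd (hn1' a) hvw
    · exact key2 a a' (fun h => hne (by rw [h]))
    · exact key3 a b' (fun h => hvw ((hn4 a b').mpr h))
    · rw [hsymm]; exact key1 b
    · rw [hsymm]; exact key3 a' b (fun h => hvw ((hn4' b a').mpr h))
    · exact key4 b b' (fun h => hne (by rw [h])) (fun h => hvw ((hadj b b').mpr h))

end Cfsg.Agent.H7
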