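import Mathlib
import Cfsg.Prelude.Def_Sporadic_a
import Cfsg.Prelude.Def_Sporadic
import Cfsg.Agent.H7.Conway10
import Cfsg.Agent.H7.SteinerAut
import Cfsg.Agent.H7.SteinerGraph

/-!
The Higman-Sims group acts on the point-block graph of `S(3,6,22)`.
-/
set_option autoImplicit false

namespace Cfsg.Agent.H7
open Cfsg
open scoped Pointwise

theorem bL_odd (x : leechLattice) (j : GolayPt) :
    8 * bL x (oddV ∅ GC_empty j) = ∑ i, (x : GolayPt → ℤ) i - 4 * (x : GolayPt → ℤ) j := by
  rw [bL_mul]
  have h : ((oddV ∅ GC_empty j : leechLattice) : GolayPt → ℤ) =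
      ind Finset.univ - (4 : ℤ) • ind {j} := by
    funext i
    show oddv ∅ j i = _
    rw [oddv_apply']
    simp only [Finset.notMem_empty, if_false, Pi.sub_apply, Pi.smul_apply, smul_eq_mul, ind_single]
    unfold ind
    split_ifs <;> simp_all
  rw [h, dot_sub_right, dot_smul_right, dot_ind_single, dot_ind]

theorem bL_twoV {o o' : Finset GolayPt} (ho : o ∈ octads) (ho' : o' ∈ octads) :
    2 * bL (twoV o ho) (twoV o' ho') = ((o ∩ o').card : ℤ) := by
  have h := bL_mul (twoV o ho) (twoV o' ho')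
  have h1 : dotInt ((twoV o ho : leechLattice) : GolayPt → ℤ)
      ((twoV o' ho' : leechLattice) : GolayPt → ℤ) = 4 * ((o ∩ o').card : ℤ) := by
    show dotInt ((2 : ℤ) • ind o) ((2 : ℤ) • ind o') = _
    rw [dot_smul_left, dot_smul_right, dot_ind]
    have : ∑ i ∈ o', ind o i = ((o ∩ o').card : ℤ) := by
      unfold ind
      rw [Finset.sum_ite_mem, Finset.sum_const, Finset.inter_comm]
      simp
    rw [this]; ring
  omega

theorem twoV_apply {o : Finset GolayPt} (ho : o ∈ octads) (k : GolayPt) :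
    ((twoV o ho : leechLattice) : GolayPt → ℤ) k = if k ∈ o then 2 else 0 := by
  show (2 : ℤ) * ind o k = _
  unfold ind; split_ifs <;> norm_num

theorem bL_t2_odd {j : GolayPt} (h1 : j ≠ gpt 23) (h0 : j ≠ gpt 0) :
    bL t2 (oddV ∅ GC_empty j) = 1 := by
  have h := bL_e8_t2 (oddV ∅ GC_empty j)
  have e1 : ((oddV ∅ GC_empty j : leechLattice) : GolayPt → ℤ) (gpt 23) = 1 := by
    show oddv ∅ j (gpt 23) = 1
    rw [oddv_apply']; simp [h1.symm]
  have e2 : ((oddV ∅ GC_empty j : leechLattice) : GolayPt → ℤ) (gpt 0) = 1 := by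
    show oddv ∅ j (gpt 0) = 1
    rw [oddv_apply']; simp [h0.symm]
  rw [bL_comm]; omega

theorem bL_t2_two {o : Finset GolayPt} (ho : o ∈ octads) (h1 : gpt 23 ∈ o) (h0 : gpt 0 ∈ o) :
    bL t2 (twoV o ho) = 2 := by
  have h := bL_e8_t2 (twoV o ho)
  rw [twoV_apply, twoV_apply, if_pos h1, if_pos h0] at h
  rw [bL_comm]; omega

theorem bL_odd_odd {j j' : GolayPt} (h : j ≠ j') :
    bL (oddV ∅ GC_empty j) (oddV ∅ GC_empty j') = 2 := by
  have h1 := bL_odd (oddV ∅ GC_empty j) j'
  have h2 : ∑ i, ((oddV ∅ GC_empty j : leechLattice) : GolayPt → ℤ) i = 20 := by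
    show ∑ i, oddv ∅ j i = 20
    rw [oddv_sum]; unfold ind; simp
  have h3 : ((oddV ∅ GC_empty j : leechLattice) : GolayPt → ℤ) j' = 1 := by
    show oddv ∅ j j' = 1
    rw [oddv_apply']; simp [h.symm]
  omega

theorem bL_odd_two (j : GolayPt) {o : Finset GolayPt} (ho : o ∈ octads) :
    bL (oddV ∅ GC_empty j) (twoV o ho) = 2 - (if j ∈ o then 1 else 0) := by
  have h1 := bL_odd (twoV o ho) j
  have h2 : ∑ i, ((twoV o ho : leechLattice) : GolayPt → ℤ) i = 16 := by
    show ∑ i, (2 : ℤ) * ind o i = 16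
    rw [← Finset.mul_sum, ind_sum, ho.2]; norm_num
  rw [twoV_apply] at h1
  rw [bL_comm]
  split_ifs at h1 ⊢ <;> omega

section
variable {α : Type*} [Fintype α] [DecidableEq α] {B : Set (Finset α)} (e : GolayPt ≃ α ⊕ Fin 2)

/-- the octad of a block -/
def bOct (b : Finset α) : Finset GolayPt := (b.disjSum (Finset.univ : Finset (Fin 2))).image e.symm

omit [Fintype α] in
theorem bOct_image (b : Finset α) : (bOct e b).image e = b.disjSum Finset.univ := by
  unfold bOct
  rw [Finset.image_image]
  simp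

omit [Fintype α] in
theorem mem_bOct (b : Finset α) (x : α ⊕ Fin 2) :
    e.symm x ∈ bOct e b ↔ x ∈ b.disjSum (Finset.univ : Finset (Fin 2)) := by
  unfold bOct
  rw [Finset.mem_image]
  constructor
  · rintro ⟨y, hy, hxy⟩
    rwa [e.symm.injective hxy] at hy
  · intro h
    exact ⟨x, h, rfl⟩

omit [Fintype α] in
theorem bOct_inter (b c : Finset α) : (bOct e b ∩ bOct e c).card = (b ∩ c).card + 2 := by
  unfold bOct
  rw [← Finset.image_inter _ _ e.symm.injective, Finset.card_image_of_injective _ e.symm.injective,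
    disjSum_inter, Finset.card_disjSum, Finset.card_univ, Fintype.card_fin]

variable (he : pull e (extB (Fin 2) B) = {o | o ∈ octads ∧ gpt 23 ∈ o ∧ gpt 0 ∈ o})

include he in
omit [Fintype α] in
theorem bOct_mem {b : Finset α} (hb : b ∈ B) :
    bOct e b ∈ octads ∧ gpt 23 ∈ bOct e b ∧ gpt 0 ∈ bOct e b := by
  have : bOct e b ∈ pull e (extB (Fin 2) B) := by
    show (bOct e b).image e ∈ extB (Fin 2) B
    rw [bOct_image]; exact ⟨b, hb, rfl⟩
  rw [he] at this
  exact this

include he in
omit [Fintype α] in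
theorem bOct_surj {o : Finset GolayPt} (ho : o ∈ octads) (h1 : gpt 23 ∈ o) (h0 : gpt 0 ∈ o) :
    ∃ b ∈ B, o = bOct e b := by
  have : o ∈ pull e (extB (Fin 2) B) := by
    rw [he]; exact ⟨ho, h1, h0⟩
  obtain ⟨b, hb, hob⟩ := this
  refine ⟨b, hb, ?_⟩
  unfold bOct
  rw [← hob, Finset.image_image]
  simp

/-- the vector of a vertex -/
def hsF (x : Option (α ⊕ B)) : leechLattice :=
  match x with
  | none => t2
  | some (Sum.inl a) => oddV ∅ GC_empty (e.symm (Sum.inl a))
  | some (Sum.inr b) => twoV (bOct e b) (bOct_mem e he b.2).1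

variable (hq0 : e (gpt 23) = Sum.inr 0) (hq1 : e (gpt 0) = Sum.inr 1)

include hq0 in
omit [Fintype α] [DecidableEq α] in
theorem inl_ne23 (a : α) : e.symm (Sum.inl a) ≠ gpt 23 := by
  intro h
  rw [Equiv.symm_apply_eq, hq0] at h
  exact absurd h (by simp)

include hq1 in
omit [Fintype α] [DecidableEq α] in
theorem inl_ne0 (a : α) : e.symm (Sum.inl a) ≠ gpt 0 := by
  intro h
  rw [Equiv.symm_apply_eq, hq1] at h
  exact absurd h (by simp)

include hq0 hq1 in
omit [Fintype α] in
theorem hsF_mem (x : Option (α ⊕ B)) : hsF e he x ∈ V100 := by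
  rw [mem_V100]
  rcases x with _ | a | b
  · left
    exact ⟨gpt 0, g23_ne_g0.symm, rfl, rfl⟩
  · right; right; right
    exact ⟨_, inl_ne23 e hq0 a, inl_ne0 e hq1 a, rfl⟩
  · right; left
    have h := bOct_mem e he b.2
    exact ⟨_, h.1, h.2.1, h.2.2, rfl⟩

include hq0 hq1 in
omit [Fintype α] in
theorem hsF_surj {v : leechLattice} (hv : v ∈ V100) : ∃ x, hsF e he x = v := by
  rw [mem_V100] at hv
  rcases hv with ⟨i, -, rfl, h⟩ | ⟨o, ho, h1, h0, h⟩ | ⟨_, _, _, hf, _⟩ | ⟨j, h1, h0, h⟩
  · exact ⟨none, Subtype.ext h.symm⟩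
  · obtain ⟨b, hb, rfl⟩ := bOct_surj e he ho h1 h0
    exact ⟨some (Sum.inr ⟨b, hb⟩), Subtype.ext h.symm⟩
  · exact hf.elim
  · rcases hx : e j with a | t
    · refine ⟨some (Sum.inl a), ?_⟩
      show oddV ∅ GC_empty (e.symm (Sum.inl a)) = v
      rw [← hx, Equiv.symm_apply_apply]
      exact Subtype.ext h.symm
    · exfalso
      fin_cases t
      · exact h1 (e.injective (hx.trans hq0.symm))
      · exact h0 (e.injective (hx.trans hq1.symm))

include hq0 hq1 in
omit [Fintype α] in
theorem hsF_adj (h6 : ∀ b ∈ B, b.card = 6)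
    (h2 : ∀ b ∈ B, ∀ c ∈ B, b ≠ c → (b ∩ c).card = 0 ∨ (b ∩ c).card = 2) (x y : Option (α ⊕ B)) :
    (pointBlockGraph B).Adj x y ↔ bL (hsF e he x) (hsF e he y) = 1 := by
  rcases x with _ | a | b <;> rcases y with _ | a' | c
  · have h1 : bL (hsF e he none) (hsF e he none) = 4 := (mem_V552.mpr (Or.inl ⟨gpt 0, g23_ne_g0.symm, trivial, rfl⟩) : t2 ∈ V552).1
    rw [h1]
    constructor
    · intro h; exact absurd rfl h.ne
    · intro h; norm_num at h
  · have h1 : bL (hsF e he none) (hsF e he (some (Sum.inl a'))) = 1 :=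
      bL_t2_odd (inl_ne23 e hq0 a') (inl_ne0 e hq1 a')
    rw [h1]
    exact ⟨fun _ => rfl, fun _ => pb_none_inl a'⟩
  · have h := bOct_mem e he c.2
    have h1 : bL (hsF e he none) (hsF e he (some (Sum.inr c))) = 2 := bL_t2_two h.1 h.2.1 h.2.2
    rw [h1]
    constructor
    · intro h; exact absurd h (pb_none_inr c)
    · intro h; norm_num at h
  · have h1 : bL (hsF e he (some (Sum.inl a))) (hsF e he none) = 1 := by
      rw [bL_comm]; exact bL_t2_odd (inl_ne23 e hq0 a) (inl_ne0 e hq1 a)
    rw [h1]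
    exact ⟨fun _ => rfl, fun _ => (pb_none_inl a).symm⟩
  · constructor
    · intro h; exact absurd h (pb_inl_inl a a')
    · intro h
      exfalso
      by_cases haa : a = a'
      · subst haa
        have h1 : bL (hsF e he (some (Sum.inl a))) (hsF e he (some (Sum.inl a))) = 4 :=
          oddV_norm GC_empty _
        omega
      · have h1 : bL (hsF e he (some (Sum.inl a))) (hsF e he (some (Sum.inl a'))) = 2 := by
          apply bL_odd_odd
          intro h
          exact haa (Sum.inl_injective (e.symm.injective h))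
        omega
  · rw [pb_inl_inr]
    have h1 : bL (hsF e he (some (Sum.inl a))) (hsF e he (some (Sum.inr c))) =
      2 - (if e.symm (Sum.inl a) ∈ bOct e c then 1 else 0) :=
      bL_odd_two _ (bOct_mem e he c.2).1
    rw [h1]
    have h3 := mem_bOct e (c : Finset α) (Sum.inl a)
    rw [Finset.inl_mem_disjSum] at h3
    split_ifs with h
    · exact ⟨fun _ => rfl, fun _ => h3.mp h⟩
    · constructor
      · intro h'; exact absurd (h3.mpr h') h
      · intro h'; norm_num at h'
  · have h := bOct_mem e he b.2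
    have h1 : bL (hsF e he (some (Sum.inr b))) (hsF e he none) = 2 := by
      rw [bL_comm]; exact bL_t2_two h.1 h.2.1 h.2.2
    rw [h1]
    constructor
    · intro h; exact absurd h.symm (pb_none_inr b)
    · intro h; norm_num at h
  · rw [SimpleGraph.adj_comm, pb_inl_inr]
    have h1 : bL (hsF e he (some (Sum.inr b))) (hsF e he (some (Sum.inl a'))) =
      2 - (if e.symm (Sum.inl a') ∈ bOct e b then 1 else 0) := by
      rw [bL_comm]; exact bL_odd_two _ (bOct_mem e he b.2).1
    rw [h1]
    have h3 := mem_bOct e (b : Finset α) (Sum.inl a')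
    rw [Finset.inl_mem_disjSum] at h3
    split_ifs with h
    · exact ⟨fun _ => rfl, fun _ => h3.mp h⟩
    · constructor
      · intro h'; exact absurd (h3.mpr h') h
      · intro h'; norm_num at h'
  · rw [pb_inr_inr h6]
    have h1 : 2 * bL (hsF e he (some (Sum.inr b))) (hsF e he (some (Sum.inr c))) =
      ((bOct e b ∩ bOct e c).card : ℤ) := bL_twoV (bOct_mem e he b.2).1 (bOct_mem e he c.2).1
    rw [bOct_inter] at h1
    rw [Finset.inter_comm]
    by_cases hbc : b = c
    · subst hbc
      rw [Finset.inter_self, h6 b b.2] at h1 ⊢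
      push_cast at h1
      constructor <;> intro h <;> omega
    · have h3 := h2 b b.2 c c.2 (fun h => hbc (Subtype.ext h))
      push_cast at h1
      constructor <;> intro h <;> omega

omit [Fintype α] in
theorem hsF_inj : Function.Injective (hsF e he) := by
  intro x y h
  have hv : ∀ k, ((hsF e he x : leechLattice) : GolayPt → ℤ) k =
      ((hsF e he y : leechLattice) : GolayPt → ℤ) k := by
    intro k; rw [h]
  have ht : ∀ k, ((hsF e he none : leechLattice) : GolayPt → ℤ) k =
      if k = gpt 23 then 4 else if k = gpt 0 then 4 else 0 := t2_apply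
  have ho : ∀ a k, ((hsF e he (some (Sum.inl a)) : leechLattice) : GolayPt → ℤ) k =
      if k = e.symm (Sum.inl a) then -3 else 1 := by
    intro a k
    show oddv ∅ _ k = _
    rw [oddv_apply']; simp
  have hw : ∀ b : B, ∀ k, ((hsF e he (some (Sum.inr b)) : leechLattice) : GolayPt → ℤ) k =
      if k ∈ bOct e b then 2 else 0 := fun b k => twoV_apply (bOct_mem e he b.2).1 k
  rcases x with _ | a | b <;> rcases y with _ | a' | c
  · rfl
  · have := hv (gpt 23)
    rw [ht, ho, if_pos rfl] at this
    split_ifs at this <;> omega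
  · have := hv (gpt 23)
    rw [ht, hw, if_pos rfl] at this
    split_ifs at this <;> omega
  · have := hv (gpt 23)
    rw [ht, ho, if_pos rfl] at this
    split_ifs at this <;> omega
  · have := hv (e.symm (Sum.inl a))
    rw [ho, ho, if_pos rfl] at this
    split_ifs at this with h1
    rw [Sum.inl_injective (e.symm.injective h1)]
  · have := hv (gpt 23)
    rw [ho, hw] at this
    split_ifs at this <;> omega
  · have := hv (gpt 23)
    rw [ht, hw, if_pos rfl] at this
    split_ifs at this <;> omega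
  · have := hv (gpt 23)
    rw [ho, hw] at this
    split_ifs at this <;> omega
  · have h1 : (b : Finset α) = c := by
      ext a
      have h3 := mem_bOct e (b : Finset α) (Sum.inl a)
      have h4 := mem_bOct e (c : Finset α) (Sum.inl a)
      rw [Finset.inl_mem_disjSum] at h3 h4
      rw [← h3, ← h4]
      have := hv (e.symm (Sum.inl a))
      rw [hw, hw] at this
      split_ifs at this with h5 h6 h6
      · exact ⟨fun _ => h6, fun _ => h5⟩
      · exact ⟨fun _ => absurd this (by norm_num), fun h => absurd h h6⟩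
      · exact ⟨fun h => absurd h h5, fun _ => absurd this (by norm_num)⟩
      · exact ⟨fun h => absurd h h5, fun h => absurd h h6⟩
    rw [Subtype.ext h1]

end

theorem HSS_V100 (g : HSS) {v : leechLattice} (hv : v ∈ V100) : (g : Co0) • v ∈ V100 := by
  obtain ⟨h1, h2⟩ := mem_HSS.mp g.2
  obtain ⟨h3, h4, h5⟩ := hv
  refine ⟨?_, ?_, ?_⟩
  · rw [co0_bL]; exact h3
  · nth_rewrite 1 [← h2]
    rw [co0_bL]; exact h4
  · nth_rewrite 1 [← h1]
    rw [co0_bL]; exact h5

theorem hs_aut {α : Type*} [Fintype α] (hα : Fintype.card α = 22) {B : Set (Finset α)}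
    (hB : IsSteinerSystem 3 6 B) :
    ∃ H : Subgroup (pointBlockGraph B ≃g pointBlockGraph B), IsHS H := by
  classical
  obtain ⟨e, hq0, hq1, he⟩ := ext22_eq hα hB
  have hbij : Function.Bijective (fun x : Option (α ⊕ B) =>
      (⟨hsF e he x, hsF_mem e he hq0 hq1 x⟩ : V100)) := by
    constructor
    · intro x y h
      exact hsF_inj e he (Subtype.ext_iff.mp h)
    · rintro ⟨v, hv⟩
      obtain ⟨x, hx⟩ := hsF_surj e he hq0 hq1 hv
      exact ⟨x, Subtype.ext hx⟩
  let E : Option (α ⊕ B) ≃ V100 := Equiv.ofBijective _ hbij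
  have hE : ∀ x, (E x : leechLattice) = hsF e he x := fun x => rfl
  have hadj := hsF_adj e he hq0 hq1 hB.1 (fun b hb c hc h => inter3622' hα hB hc hb h)
  let A : HSS → V100 ≃ V100 := fun g =>
    { toFun := fun v => ⟨(g : Co0) • (v : leechLattice), HSS_V100 g v.2⟩
      invFun := fun v => ⟨(g⁻¹ : HSS).1 • (v : leechLattice), HSS_V100 g⁻¹ v.2⟩
      left_inv := fun v => Subtype.ext (inv_smul_smul (g : Co0) (v : leechLattice))
      right_inv := fun v => Subtype.ext (smul_inv_smul (g : Co0) (v : leechLattice)) }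
  have hA : ∀ g v, ((A g v : V100) : leechLattice) = (g : Co0) • (v : leechLattice) := fun g v => rfl
  have hEs : ∀ v : V100, hsF e he (E.symm v) = v := by
    intro v; rw [← hE, Equiv.apply_symm_apply]
  let φ : HSS →* (pointBlockGraph B ≃g pointBlockGraph B) :=
    { toFun := fun g =>
        { toEquiv := (E.trans (A g)).trans E.symm
          map_rel_iff' := by
            intro x y
            show (pointBlockGraph B).Adj (E.symm (A g (E x))) (E.symm (A g (E y))) ↔ _
            rw [hadj, hadj, hEs, hEs, hA, hA, co0_bL, hE, hE] }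
      map_one' := by
        ext1 x
        show E.symm (A 1 (E x)) = x
        rw [Equiv.symm_apply_eq]
        exact Subtype.ext (one_smul Co0 _)
      map_mul' := by
        intro g h
        ext1 x
        show E.symm (A (g * h) (E x)) = E.symm (A g (E (E.symm (A h (E x)))))
        rw [Equiv.apply_symm_apply]
        exact congrArg E.symm (Subtype.ext (mul_smul (g : Co0) (h : Co0) _)) }
  have hinj : Function.Injective φ := by
    rw [← MonoidHom.ker_eq_bot_iff]
    have := hs_simple
    rcases IsSimpleGroup.eq_bot_or_eq_top_of_normal φ.ker inferInstance with h | h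
    · exact h
    · exfalso
      have h1 : HSS ≤ MulAction.stabilizer Co0 t2 := by
        intro g hg
        have h2 : (⟨g, hg⟩ : HSS) ∈ φ.ker := by rw [h]; trivial
        have h3 : φ ⟨g, hg⟩ none = none := by
          rw [MonoidHom.mem_ker.mp h2]; rfl
        have h4 : E.symm (A ⟨g, hg⟩ (E none)) = none := h3
        rw [Equiv.symm_apply_eq] at h4
        exact MulAction.mem_stabilizer_iff.mpr (Subtype.ext_iff.mp h4)
      have h2 := card_HSS_t2
      rw [inf_eq_left.mpr h1, card_HSS] at h2
      norm_num at h2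
  let H := φ.range
  have e' : HSS ≃* H := MonoidHom.ofInjective hinj
  refine ⟨H, ?_, ?_⟩
  · exact (MulEquiv.isSimpleGroup_congr e').mp hs_simple
  · rw [← Nat.card_congr e'.toEquiv, card_HSS]

end Cfsg.Agent.H7
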