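import Cfsg.Agent.H27.PAct
import Cfsg.Agent.H27.PMod
import Cfsg.Agent.H3.BrauerD
import Cfsg.Agent.H2.Basic

set_option autoImplicit false

/-!
Detection of an invariant character of a normal subgroup of `p`-power index on an elementary subgroup.
-/

namespace Cfsg.Agent.H7.Dade

open Cfsg Cfsg.Agent.H3 Cfsg.Agent.H11 Cfsg.Agent.H27
open scoped ComplexConjugate

section fix

variable {A : Type*} [Group A] [Fintype A] {p : ℕ}

/-- Invariant characters with inner product prime to `p` have an invariant constituent in common. -/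
theorem exists_fixed (hp : p.Prime) {D : Subgroup A} (hD : D.Normal) [Fintype D] {S : Subgroup A} (hS : IsPGroup p S)
    (hDS : D ⊔ S = ⊤) {α β : D → ℂ} (hα : IsCharacter D α) (hβ : IsCharacter D β)
    (hαi : ∀ x, cj hD x α = α) (hβi : ∀ x, cj hD x β = β) {m : ℕ} (hm : classInner α β = m)
    (hpm : ¬ p ∣ m) :
    ∃ φ : D → ℂ, IsIrrCharacter D φ ∧ (∀ x, cj hD x φ = φ) ∧
      ∃ n : ℕ, classInner β φ = n ∧ ¬ p ∣ n := by
  classical
  obtain ⟨M, hM⟩ := exists_isPModular hp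
  have hpr := hM.2.1.isPrime
  haveI := Fintype.ofFinite (IrrCharacter D)
  obtain ⟨a, ha, -⟩ := char_expand hα
  obtain ⟨b, hb, -⟩ := char_expand hβ
  have hsum : (m : ℂ) = ∑ φ : IrrCharacter D, ((a φ * b φ : ℕ) : ℂ) := by
    rw [← hm, classInner_eq_sum (char_classFun hα)]
    apply Finset.sum_congr rfl
    intro φ _
    rw [ha, hb]
    simp
  let act : MulAction S (IrrCharacter D) :=
    { smul := fun s θ => cjIrr hD (s : A)⁻¹ θ
      one_smul := fun θ => by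
        show cjIrr hD ((1 : S) : A)⁻¹ θ = θ
        rw [OneMemClass.coe_one, inv_one, cjIrr_one]
      mul_smul := fun s t θ => by
        show cjIrr hD ((s * t : S) : A)⁻¹ θ = cjIrr hD (s : A)⁻¹ (cjIrr hD (t : A)⁻¹ θ)
        rw [Subgroup.coe_mul, mul_inv_rev, cjIrr_mul] }
  have hinvc : ∀ (γ : D → ℂ) (_ : ∀ x, cj hD x γ = γ) (x : A) (φ : IrrCharacter D),
      classInner γ (cjIrr hD x φ : IrrCharacter D) = classInner γ φ := by
    intro γ hγ x φ
    have h1 := classInner_cj_cj hD x γ (φ : D → ℂ)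
    rw [hγ x] at h1
    exact h1
  have hex : ∃ φ : IrrCharacter D, (∀ s : S, s • φ = φ) ∧ ¬ MemLocalIdeal M ((a φ * b φ : ℕ) : ℂ) := by
    by_contra hcon
    push Not at hcon
    apply hpm
    rw [← li_natCast_iff hM, hsum]
    apply li_sum_of_fixed (A := S) hM hS
    · intro φ
      exact lr_natCast M _
    · intro s φ
      have h1 : (s • φ : IrrCharacter D) = cjIrr hD (s : A)⁻¹ φ := rfl
      have h2 : ((a (s • φ) * b (s • φ) : ℕ) : ℂ) = ((a φ * b φ : ℕ) : ℂ) := by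
        rw [Nat.cast_mul, Nat.cast_mul, ← ha, ← ha, ← hb, ← hb, h1, hinvc α hαi, hinvc β hβi]
      rw [h2, sub_self]
      exact li_zero M
    · intro φ hφ
      exact hcon φ hφ
  obtain ⟨φ, hfix, hne⟩ := hex
  refine ⟨φ, φ.2, ?_, b φ, hb φ, ?_⟩
  · have h1 : D ⊔ S ≤ inertia hD (φ : D → ℂ) := by
      apply sup_le (le_inertia hD (irr_classFun φ.2))
      intro s hs
      rw [mem_inertia]
      have h2 := hfix ⟨s⁻¹, S.inv_mem hs⟩
      have h3 := congrArg (fun z : IrrCharacter D => (z : D → ℂ)) h2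
      have h4 : cj hD (s⁻¹)⁻¹ (φ : D → ℂ) = φ := h3
      rwa [inv_inv] at h4
    intro x
    rw [hDS] at h1
    exact (mem_inertia hD _ x).mp (h1 (Subgroup.mem_top x))
  · intro hdvd
    apply hne
    rw [li_natCast_iff hM]
    exact hdvd.mul_left _

end fix

section ind

variable {G : Type*} [Group G] [Fintype G] {p : ℕ}

open Classical in
/-- The sum over a normal subgroup of an induced function times an invariant function. -/
theorem sum_ind_mul (N : Subgroup G) (hN : N.Normal) (E : Subgroup G) (ψ : E → ℂ) (f : N → ℂ)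
    (hf : ∀ x, cj hN x f = f) :
    ∑ n : N, indFun E ψ n * f n = (Nat.card G : ℂ) * (Nat.card E : ℂ)⁻¹ *
      ∑ d : ↥(E ⊓ N), ψ ⟨(d : G), d.2.1⟩ * f ⟨(d : G), d.2.2⟩ := by
  have h1 : ∀ x : G, ∑ n : N, extendByZero E ψ (x⁻¹ * n * x) * f n
      = ∑ d : ↥(E ⊓ N), ψ ⟨(d : G), d.2.1⟩ * f ⟨(d : G), d.2.2⟩ := by
    intro x
    have h2 : ∑ n : N, extendByZero E ψ (x⁻¹ * n * x) * f n
        = ∑ n : N, extendByZero E ψ n * f n := by
      refine Fintype.sum_equiv (cjEquiv hN x⁻¹).toEquiv _ _ (fun n => ?_)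
      have h3 : f (cjEquiv hN x⁻¹ n) = f n := congrFun (hf x⁻¹) n
      show extendByZero E ψ (x⁻¹ * n * x) * f n
        = extendByZero E ψ (x⁻¹ * n * x⁻¹⁻¹) * f (cjEquiv hN x⁻¹ n)
      rw [h3, inv_inv]
    rw [h2]
    let e : ↥(E ⊓ N) → N := fun d => ⟨(d : G), d.2.2⟩
    have hinj : Function.Injective e := fun a b h => Subtype.ext (congrArg (fun z : N => (z : G)) h)
    rw [← Finset.sum_subset (Finset.subset_univ (Finset.univ.image e))]
    · rw [Finset.sum_image (fun a _ b _ h => hinj h)]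
      apply Finset.sum_congr rfl
      intro d _
      have h5 : extendByZero E ψ ((e d : N) : G) = ψ ⟨(d : G), d.2.1⟩ :=
        extendByZero_coe E ψ ⟨(d : G), d.2.1⟩
      rw [h5]
    · intro n _ hn
      rw [extendByZero_not_mem, zero_mul]
      intro hE
      apply hn
      rw [Finset.mem_image]
      exact ⟨⟨(n : G), hE, n.2⟩, Finset.mem_univ _, rfl⟩
  have h2 : ∑ n : N, indFun E ψ n * f n = (Nat.card E : ℂ)⁻¹ *
      ∑ x : G, ∑ n : N, extendByZero E ψ (x⁻¹ * n * x) * f n := by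
    unfold indFun
    simp only [mul_assoc, Finset.sum_mul, Finset.mul_sum]
    rw [Finset.sum_comm]
  rw [h2, Finset.sum_congr rfl (fun x _ => h1 x), Finset.sum_const, nsmul_eq_mul, Finset.card_univ,
    Nat.card_eq_fintype_card (α := G)]
  ring

/-- Some elementary subgroup supplements the normal subgroup and detects the invariant character. -/
theorem exists_elem (hp : p.Prime) (N : Subgroup G) (hN : N.Normal) (hind : ∃ k : ℕ, N.index = p ^ k)
    (ϑ : N → ℂ) (hϑ : IsIrrCharacter N ϑ) (hinv : ∀ x, cj hN x ϑ = ϑ) :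
    ∃ (E : Subgroup G) (ψ : E → ℂ), IsElementary p E ∧ E ⊔ N = ⊤ ∧ IsCharacter E ψ ∧
      ∃ m : ℕ, ¬ p ∣ m ∧ (Nat.card ↥(E ⊓ N) : ℂ)⁻¹ * ∑ᶠ d : ↥(E ⊓ N), ψ ⟨(d : G), d.2.1⟩ *
        (ϑ ⟨(d : G), d.2.2⟩ * conj (ϑ ⟨(d : G), d.2.2⟩)) = m := by
  classical
  obtain ⟨m, hm, hmem⟩ := brauer_const_mem (G := G) hp
  obtain ⟨l, hl, hE⟩ := mem_indSpan_list hmem
  let f : N → ℂ := fun n => ϑ n * conj (ϑ n)
  have hf : ∀ x, cj hN x f = f := by
    intro x
    funext n
    have h1 : ϑ (cjEquiv hN x n) = ϑ n := congrFun (hinv x) n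
    show ϑ (cjEquiv hN x n) * conj (ϑ (cjEquiv hN x n)) = _
    rw [h1]
  -- each subgroup contributes the index times an inner product
  have hY : ∀ (E : Subgroup G) (ψ : E → ℂ), IsCharacter E ψ → ∃ y : ℕ,
      (Nat.card ↥(E ⊓ N) : ℂ)⁻¹ * ∑ d : ↥(E ⊓ N), ψ ⟨(d : G), d.2.1⟩ *
        (ϑ ⟨(d : G), d.2.2⟩ * conj (ϑ ⟨(d : G), d.2.2⟩)) = y ∧
      (Nat.card N : ℂ)⁻¹ * ∑ n : N, indFun E ψ n * f n = ((E ⊔ N).index * y : ℕ) := by
    intro E ψ hψ
    have h1 : IsCharacter ↥(E ⊓ N) (fun d => ψ ⟨(d : G), d.2.1⟩) :=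
      isChar_comp hψ (Subgroup.inclusion (inf_le_left : E ⊓ N ≤ E))
    have h2 : IsCharacter ↥(E ⊓ N) (fun d => ϑ ⟨(d : G), d.2.2⟩) :=
      isChar_comp (irr_isChar hϑ) (Subgroup.inclusion (inf_le_right : E ⊓ N ≤ N))
    obtain ⟨y, hy⟩ := classInner_char_nat (isChar_mul h1 h2) h2
    have h3 : (Nat.card ↥(E ⊓ N) : ℂ)⁻¹ * ∑ d : ↥(E ⊓ N), ψ ⟨(d : G), d.2.1⟩ *
        (ϑ ⟨(d : G), d.2.2⟩ * conj (ϑ ⟨(d : G), d.2.2⟩)) = y := by
      rw [← hy]
      unfold classInner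
      congr 1
      apply Finset.sum_congr rfl
      intro d _
      simp only [Pi.mul_apply]
      ring
    refine ⟨y, h3, ?_⟩
    rw [sum_ind_mul N hN E ψ f hf]
    have h4 : ∑ d : ↥(E ⊓ N), ψ ⟨(d : G), d.2.1⟩ * f ⟨(d : G), d.2.2⟩
        = (Nat.card ↥(E ⊓ N) : ℂ) * y := by
      rw [← h3]
      have : (Nat.card ↥(E ⊓ N) : ℂ) ≠ 0 := by exact_mod_cast Nat.card_pos.ne'
      rw [← mul_assoc, mul_inv_cancel₀ this, one_mul]
    rw [h4]
    have h5 : Nat.card G * Nat.card ↥(E ⊓ N) = (E ⊔ N).index * (Nat.card E * Nat.card N) := by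
      have h6 := Subgroup.card_mul_index (E ⊔ N)
      have h7 : Nat.card ↥(E ⊔ N) * Nat.card ↥(E ⊓ N) = Nat.card E * Nat.card N :=
        H2.card_sup_mul_card_inf E N
      rw [← h7, ← h6]
      ring
    have h6 : (Nat.card E : ℂ) ≠ 0 := by exact_mod_cast Nat.card_pos.ne'
    have h7 : (Nat.card N : ℂ) ≠ 0 := by exact_mod_cast Nat.card_pos.ne'
    field_simp
    have h8 : (Nat.card G : ℂ) * Nat.card ↥(E ⊓ N) = (E ⊔ N).index * (Nat.card E * Nat.card N) := by
      exact_mod_cast h5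
    push_cast
    linear_combination (y : ℂ) * h8
  choose! y hy1 hy2 using hY
  have hnorm : (Nat.card N : ℂ)⁻¹ * ∑ n : N, f n = 1 := classInner_self_of_irr hϑ
  have hkey : (m : ℤ) = (l.map fun t => t.2.2 * (((t.1 ⊔ N).index * y t.1 t.2.1 : ℕ) : ℤ)).sum := by
    have h1 : (m : ℂ) = (Nat.card N : ℂ)⁻¹ * ∑ n : N, (m : ℂ) * f n := by
      rw [← Finset.mul_sum, mul_left_comm, hnorm, mul_one]
    have h2 : ∀ n : N, (m : ℂ) * f n
        = (l.map fun t => (t.2.2 : ℂ) * (indFun t.1 t.2.1 (n : G) * f n)).sum := by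
      intro n
      have h3 := congrArg (Pi.evalAddMonoidHom (fun _ : G => ℂ) (n : G)) hE
      rw [map_list_sum, List.map_map] at h3
      have h4 : (m : ℂ) = (l.map fun t => (t.2.2 : ℂ) * indFun t.1 t.2.1 (n : G)).sum := h3
      rw [h4, ← List.sum_map_mul_right]
      congr 1
      apply List.map_congr_left
      intro t _
      rw [mul_assoc]
    have h3 : (m : ℂ) = (l.map fun t => (t.2.2 : ℂ) *
        ((Nat.card N : ℂ)⁻¹ * ∑ n : N, indFun t.1 t.2.1 (n : G) * f n)).sum := by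
      rw [h1, Finset.sum_congr rfl (fun n _ => h2 n)]
      clear h1 h2 hE hmem
      induction l with
      | nil => simp
      | cons t l ih =>
        simp only [List.map_cons, List.sum_cons, Finset.sum_add_distrib, mul_add]
        rw [ih (fun s hs => hl s (List.mem_cons_of_mem _ hs)), ← Finset.mul_sum]
        ring
    have h4 : (m : ℂ) = ((l.map fun t => t.2.2 * (((t.1 ⊔ N).index * y t.1 t.2.1 : ℕ) : ℤ)).sum : ℤ) := by
      rw [h3]
      push_cast [List.map_map]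
      congr 1
      apply List.map_congr_left
      intro t ht
      rw [hy2 t.1 t.2.1 (hl t ht).2]
      simp
    exact_mod_cast h4
  have hex : ∃ t ∈ l, ¬ (p : ℤ) ∣ t.2.2 * (((t.1 ⊔ N).index * y t.1 t.2.1 : ℕ) : ℤ) := by
    by_contra hcon
    push Not at hcon
    apply hm
    rw [hkey]
    apply List.dvd_sum
    intro z hz
    obtain ⟨t, ht, rfl⟩ := List.mem_map.mp hz
    exact hcon t ht
  obtain ⟨t, ht, hne⟩ := hex
  have h1 : ¬ p ∣ (t.1 ⊔ N).index * y t.1 t.2.1 := fun h => hne ((Int.natCast_dvd_natCast.mpr h).mul_left _)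
  refine ⟨t.1, t.2.1, (hl t ht).1, ?_, (hl t ht).2, y t.1 t.2.1, fun h => h1 (h.mul_left _), ?_⟩
  · rw [← Subgroup.index_eq_one]
    obtain ⟨k, hk⟩ := hind
    have h2 : (t.1 ⊔ N).index ∣ p ^ k := hk ▸ Subgroup.index_dvd_of_le le_sup_right
    obtain ⟨j, -, hj⟩ := (Nat.dvd_prime_pow hp).mp h2
    rcases Nat.eq_zero_or_pos j with h0 | h0
    · rw [hj, h0, pow_zero]
    · exact absurd (Dvd.dvd.mul_right (hj ▸ dvd_pow_self p h0.ne') _) h1
  · rw [finsum_eq_sum_of_fintype]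
    exact hy1 t.1 t.2.1 (hl t ht).2

/-- The intersection as a subgroup of `G` and as a subgroup of `E`. -/
def infEquiv (E N : Subgroup G) : ↥(E ⊓ N) ≃* ↥(N.subgroupOf E) where
  toFun d := ⟨⟨(d : G), d.2.1⟩, d.2.2⟩
  invFun d := ⟨((d : E) : G), (d : E).2, d.2⟩
  left_inv _ := rfl
  right_inv _ := rfl
  map_mul' _ _ := rfl

theorem isIrr_comp_infEquiv {E N : Subgroup G} {φ : ↥(N.subgroupOf E) → ℂ}
    (hφ : IsIrrCharacter _ φ) : IsIrrCharacter ↥(E ⊓ N) (fun d => φ (infEquiv E N d)) :=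
  (isIrr_comp_equiv_iff (infEquiv E N)).mpr hφ

theorem detection (hp : p.Prime) (N : Subgroup G) (hN : N.Normal) (hind : ∃ k : ℕ, N.index = p ^ k)
    (ϑ : N → ℂ) (hϑ : IsIrrCharacter N ϑ) (hinv : ∀ x, cj hN x ϑ = ϑ) :
    ∃ (E : Subgroup G) (φ : ↥(E ⊓ N) → ℂ), IsElementary p E ∧ E ⊔ N = ⊤ ∧
      IsIrrCharacter ↥(E ⊓ N) φ ∧ (∀ (g : G) (hg : g ∈ E) (x : ↥(E ⊓ N)),
        φ ⟨g * x * g⁻¹, ⟨(E.mul_mem (E.mul_mem hg x.2.1) (E.inv_mem hg)), hN.conj_mem (x : G) x.2.2 g⟩⟩ = φ x) ∧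
      ∃ m : ℕ, ¬ p ∣ m ∧ (Nat.card ↥(E ⊓ N) : ℂ)⁻¹ *
        ∑ᶠ x : ↥(E ⊓ N), ϑ ⟨(x : G), x.2.2⟩ * conj (φ x) = (m : ℂ) := by
  classical
  have := Fact.mk hp
  obtain ⟨E, ψ, hE, hEN, hψ, m, hpm, hm⟩ := exists_elem hp N hN hind ϑ hϑ hinv
  have hD : (N.subgroupOf E).Normal := hN.subgroupOf E
  let S : Sylow p E := default
  have hidx : (N.subgroupOf E).index = N.index := by
    have h1 : N.relIndex (E ⊔ N) = N.relIndex E := Subgroup.relIndex_sup_right E N
    rw [hEN, Subgroup.relIndex_top_right] at h1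
    exact h1.symm
  have hDS : N.subgroupOf E ⊔ (S : Subgroup E) = ⊤ := by
    rw [← Subgroup.index_eq_one]
    obtain ⟨k, hk⟩ := hind
    have h1 : (N.subgroupOf E ⊔ (S : Subgroup E)).index ∣ p ^ k := by
      rw [← hk, ← hidx]
      exact Subgroup.index_dvd_of_le le_sup_left
    have h2 : (N.subgroupOf E ⊔ (S : Subgroup E)).index ∣ (S : Subgroup E).index :=
      Subgroup.index_dvd_of_le le_sup_right
    have h3 : Nat.Coprime (p ^ k) (S : Subgroup E).index :=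
      (Nat.Prime.coprime_iff_not_dvd hp).mpr S.not_dvd_index |>.pow_left k
    exact Nat.eq_one_of_dvd_coprimes h3 h1 h2
  let r : ↥(N.subgroupOf E) →* N :=
    { toFun := fun d => ⟨((d : E) : G), d.2⟩
      map_one' := rfl
      map_mul' := fun _ _ => rfl }
  have hβ : IsCharacter ↥(N.subgroupOf E) (fun d => ϑ (r d)) := isChar_comp (irr_isChar hϑ) r
  have hψ' : IsCharacter ↥(N.subgroupOf E) (fun d => ψ (d : E)) :=
    isChar_comp hψ (N.subgroupOf E).subtype
  have hβi : ∀ x, cj hD x (fun d => ϑ (r d)) = fun d => ϑ (r d) := by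
    intro x
    funext d
    exact congrFun (hinv (x : G)) (r d)
  have hψi : ∀ x, cj hD x (fun d : ↥(N.subgroupOf E) => ψ (d : E))
      = fun d : ↥(N.subgroupOf E) => ψ (d : E) := by
    intro x
    exact cj_restrict hD (char_classFun hψ) x
  have hαi : ∀ x, cj hD x ((fun d : ↥(N.subgroupOf E) => ψ (d : E)) * (fun d => ϑ (r d)))
      = (fun d : ↥(N.subgroupOf E) => ψ (d : E)) * (fun d => ϑ (r d)) := by
    intro x
    funext d
    have h1 := congrFun (hβi x) d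
    have h2 := congrFun (hψi x) d
    rw [cj_apply] at h1 h2 ⊢
    simp only [Pi.mul_apply]
    rw [h1, h2]
  have hin : classInner ((fun d : ↥(N.subgroupOf E) => ψ (d : E)) * (fun d => ϑ (r d)))
      (fun d => ϑ (r d)) = m := by
    rw [← hm, finsum_eq_sum_of_fintype]
    unfold classInner
    rw [Nat.card_congr (infEquiv E N).toEquiv.symm]
    congr 1
    refine (Fintype.sum_equiv (infEquiv E N).toEquiv _ _ (fun d => ?_)).symm
    simp only [Pi.mul_apply]
    rw [mul_assoc]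
    rfl
  obtain ⟨φ, hφ, hφi, n, hn, hpn⟩ := exists_fixed hp hD S.isPGroup' hDS (isChar_mul hψ' hβ) hβ hαi hβi hin hpm
  refine ⟨E, fun d => φ (infEquiv E N d), hE, hEN, isIrr_comp_infEquiv hφ, ?_, n, hpn, ?_⟩
  · intro g hg x
    exact congrFun (hφi ⟨g, hg⟩) (infEquiv E N x)
  · rw [← hn, finsum_eq_sum_of_fintype]
    unfold classInner
    rw [Nat.card_congr (infEquiv E N).toEquiv]
    congr 1
    exact Fintype.sum_equiv (infEquiv E N).toEquiv _ _ (fun d => rfl)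

end ind

end Cfsg.Agent.H7.Dade
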