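import Cfsg.Agent.H7.Dade1
import Cfsg.Agent.H3.DegRatio
import Cfsg.Agent.H3.DetExt
import Mathlib.GroupTheory.FiniteAbelian.Duality

set_option autoImplicit false

/-!
Extension of invariant characters from a normal subgroup of `p`-power index when the Sylow
subgroup meets it centrally.
-/

namespace Cfsg.Agent.H7.Dade

open Cfsg Cfsg.Agent.H3 Cfsg.Agent.H11 Cfsg.Agent.H27
open scoped ComplexConjugate commutatorElement

/-- A linear character of a subgroup disjoint from the derived group extends. -/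
theorem extend_hom {E : Type*} [Group E] [Finite E] (D : Subgroup E) (h : D ⊓ commutator E = ⊥)
    (φ : D →* ℂˣ) : ∃ ψ : E →* ℂˣ, ∀ d : D, ψ d = φ d := by
  let f : D →* Abelianization E := Abelianization.of.comp D.subtype
  have hf : Function.Injective f := by
    rw [injective_iff_map_eq_one]
    intro d hd
    have h1 : (d : E) ∈ commutator E := by
      rw [← Abelianization.ker_of E, MonoidHom.mem_ker]
      exact hd
    have h2 : (d : E) ∈ D ⊓ commutator E := ⟨d.2, h1⟩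
    rw [h, Subgroup.mem_bot] at h2
    exact Subtype.ext h2
  let e : D ≃* f.range := MonoidHom.ofInjective hf
  obtain ⟨L, hL⟩ := MonoidHom.domRestrict_surjective (M := ℂ) f.range (φ.comp e.symm.toMonoidHom)
  refine ⟨L.comp Abelianization.of, fun d => ?_⟩
  have h1 := DFunLike.congr_fun hL (e d)
  have h2 : (φ.comp e.symm.toMonoidHom) (e d) = φ d := by
    show φ (e.symm (e d)) = φ d
    rw [MulEquiv.symm_apply_apply]
  rw [h2] at h1
  exact h1

section

variable {G : Type*} [Group G] {p : ℕ}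

theorem inf_commutator [Finite G] (P N : Subgroup G)
    (hcent : ∀ x ∈ P ⊓ N, ∀ y ∈ P, x * y = y * x)
    (hlin : ∀ lam : ↥(P ⊓ N) → ℂ, IsCharacter ↥(P ⊓ N) lam → lam 1 = 1 →
      ∃ μ : ↥P → ℂ, IsCharacter ↥P μ ∧ μ 1 = 1 ∧
        ∀ x : ↥(P ⊓ N), μ ⟨(x : G), x.2.1⟩ = lam x) :
    N ⊓ ⁅P, P⁆ = ⊥ := by
  rw [eq_bot_iff]
  rintro x ⟨hxN, hxP⟩
  have hPP : ⁅P, P⁆ ≤ P := Subgroup.commutator_le_self P
  rw [Subgroup.mem_bot]
  by_contra hne
  let X : ↥(P ⊓ N) := ⟨x, hPP hxP, hxN⟩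
  letI : CommGroup ↥(P ⊓ N) :=
    { (inferInstance : Group ↥(P ⊓ N)) with
      mul_comm := fun a b => Subtype.ext (hcent a a.2 b b.2.1) }
  have hX : X ≠ 1 := fun h => hne (congrArg Subtype.val h)
  obtain ⟨lam, hlam⟩ := CommGroup.exists_apply_ne_one_of_hasEnoughRootsOfUnity ↥(P ⊓ N) ℂ hX
  obtain ⟨μ, hμ, hμ1, hμN⟩ := hlin (hf lam) (irr_isChar (isIrr_hf lam)) (hf_at_one lam)
  obtain ⟨ν, rfl⟩ := exists_hf hμ hμ1
  have h1 : (⟨x, hPP hxP⟩ : P) ∈ commutator P := by
    have h2 : x ∈ (commutator P).map P.subtype := by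
      rw [Subgroup.map_subtype_commutator]
      exact hxP
    obtain ⟨y, hy, hyx⟩ := Subgroup.mem_map.mp h2
    have : y = ⟨x, hPP hxP⟩ := Subtype.ext hyx
    rwa [← this]
  have h2 : ν ⟨x, hPP hxP⟩ = 1 := Abelianization.commutator_subset_ker ν h1
  have h3 := hμN X
  rw [hf_apply, hf_apply] at h3
  apply hlam
  apply Units.ext
  rw [← h3]
  show ((ν ⟨x, hPP hxP⟩ : ℂˣ) : ℂ) = _
  rw [h2]

theorem elem_commutator [Finite G] [Fact p.Prime] (P : Sylow p G) (N : Subgroup G) (hN : N.Normal)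
    (h : N ⊓ ⁅(P : Subgroup G), (P : Subgroup G)⁆ = ⊥) (E : Subgroup G) (hE : IsElementary p E) :
    N.subgroupOf E ⊓ commutator E = ⊥ := by
  obtain ⟨z, hz, hcop, k, hk⟩ := hE
  let S : Sylow p E := default
  have hZS : Subgroup.zpowers z ⊔ (S : Subgroup E) = ⊤ := by
    rw [← Subgroup.index_eq_one]
    have h1 : (Subgroup.zpowers z ⊔ (S : Subgroup E)).index ∣ p ^ k := by
      rw [← hk]
      exact Subgroup.index_dvd_of_le le_sup_left
    have h2 : (Subgroup.zpowers z ⊔ (S : Subgroup E)).index ∣ (S : Subgroup E).index :=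
      Subgroup.index_dvd_of_le le_sup_right
    have h3 : Nat.Coprime (p ^ k) (S : Subgroup E).index :=
      (Nat.Prime.coprime_iff_not_dvd (Fact.out : p.Prime)).mpr S.not_dvd_index |>.pow_left k
    exact Nat.eq_one_of_dvd_coprimes h3 h1 h2
  have hZc : Subgroup.zpowers z ≤ Subgroup.center E := (Subgroup.zpowers_le).mpr hz
  have hnZ : (Subgroup.zpowers z).Normal := normal_of_le_center hZc
  have hdec : ∀ x : E, ∃ a ∈ Subgroup.center E, ∃ s ∈ (S : Subgroup E), x = a * s := by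
    intro x
    have hx : x ∈ Subgroup.zpowers z ⊔ (S : Subgroup E) := hZS ▸ Subgroup.mem_top x
    obtain ⟨a, ha, s, hs, rfl⟩ := Subgroup.mem_sup_of_normal_left.mp hx
    exact ⟨a, hZc ha, s, hs, rfl⟩
  have hcomm : commutator E ≤ ⁅(S : Subgroup E), (S : Subgroup E)⁆ := by
    rw [commutator_def, Subgroup.commutator_le]
    rintro x - y -
    obtain ⟨a, ha, s, hs, rfl⟩ := hdec x
    obtain ⟨b, hb, t, ht, rfl⟩ := hdec y
    have h1 : ⁅a * s, b * t⁆ = ⁅s, t⁆ := by
      have ha' : ∀ w, a * w = w * a := fun w => (Subgroup.mem_center_iff.mp ha w).symm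
      have hb' : ∀ w, b * w = w * b := fun w => (Subgroup.mem_center_iff.mp hb w).symm
      have ha'' : ∀ w, a⁻¹ * w = w * a⁻¹ := fun w =>
        (Subgroup.mem_center_iff.mp ((Subgroup.center E).inv_mem ha) w).symm
      have hb'' : ∀ w, b⁻¹ * w = w * b⁻¹ := fun w =>
        (Subgroup.mem_center_iff.mp ((Subgroup.center E).inv_mem hb) w).symm
      rw [commutatorElement_def, commutatorElement_def, mul_inv_rev, mul_inv_rev]
      calc a * s * (b * t) * (s⁻¹ * a⁻¹) * (t⁻¹ * b⁻¹)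
          = a * (s * (b * (t * s⁻¹))) * (a⁻¹ * (t⁻¹ * b⁻¹)) := by group
        _ = a * ((s * (b * (t * s⁻¹))) * (t⁻¹ * b⁻¹)) * a⁻¹ := by rw [ha'']; group
        _ = (s * (b * (t * s⁻¹))) * (t⁻¹ * b⁻¹) := by
          rw [ha', mul_assoc, mul_inv_cancel, mul_one]
        _ = s * (b * (t * s⁻¹ * t⁻¹)) * b⁻¹ := by group
        _ = s * t * s⁻¹ * t⁻¹ := by rw [hb']; group
    rw [h1]
    exact Subgroup.commutator_mem_commutator hs ht
  -- the Sylow subgroup of `E` lies in a conjugate of `P`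
  have hSp : IsPGroup p ((S : Subgroup E).map E.subtype) := S.isPGroup'.map _
  obtain ⟨Q, hQ⟩ := hSp.exists_le_sylow
  obtain ⟨g, hg⟩ := MulAction.exists_smul_eq G P Q
  rw [eq_bot_iff]
  rintro x ⟨hxN, hxE⟩
  have h1 : (x : G) ∈ ⁅(Q : Subgroup G), (Q : Subgroup G)⁆ := by
    have h2 : (x : G) ∈ (⁅(S : Subgroup E), (S : Subgroup E)⁆).map E.subtype :=
      Subgroup.mem_map_of_mem _ (hcomm hxE)
    rw [Subgroup.map_commutator] at h2
    exact Subgroup.commutator_mono hQ hQ h2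
  have h2 : (Q : Subgroup G) = (P : Subgroup G).map (MulAut.conj g).toMonoidHom := by
    rw [← hg]
    rfl
  rw [h2, ← Subgroup.map_commutator] at h1
  obtain ⟨y, hy, hyx⟩ := Subgroup.mem_map.mp h1
  have h3 : g * y * g⁻¹ = x := hyx
  have h4 : y ∈ N := by
    have h5 : y = g⁻¹ * (x : G) * g⁻¹⁻¹ := by rw [← h3]; group
    rw [h5]
    exact hN.conj_mem _ hxN _
  have h5 : y ∈ N ⊓ ⁅(P : Subgroup G), (P : Subgroup G)⁆ := ⟨h4, hy⟩
  rw [h, Subgroup.mem_bot] at h5
  rw [Subgroup.mem_bot]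
  apply Subtype.ext
  rw [← h3, h5]
  simp

theorem extends_of_central [Fintype G] [Fact p.Prime] (N : Subgroup G) (hN : N.Normal)
    (hind : ∃ k : ℕ, N.index = p ^ k) (P : Sylow p G)
    (hcent : ∀ x ∈ (P : Subgroup G) ⊓ N, ∀ y ∈ (P : Subgroup G), x * y = y * x)
    (hlin : ∀ lam : ↥((P : Subgroup G) ⊓ N) → ℂ, IsCharacter ↥((P : Subgroup G) ⊓ N) lam → lam 1 = 1 →
      ∃ μ : ↥(P : Subgroup G) → ℂ, IsCharacter ↥(P : Subgroup G) μ ∧ μ 1 = 1 ∧
        ∀ x : ↥((P : Subgroup G) ⊓ N), μ ⟨(x : G), x.2.1⟩ = lam x)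
    (ϑ : N → ℂ) (hϑ : IsIrrCharacter N ϑ) (hinv : ∀ x, cj hN x ϑ = ϑ) :
    ∃ χ : G → ℂ, IsIrrCharacter G χ ∧ ∀ n : N, χ n = ϑ n := by
  classical
  have hpp : p.Prime := Fact.out
  obtain ⟨E, φ, hE, hEN, hφ, hφi, m, hpm, hm⟩ := detection hpp N hN hind ϑ hϑ hinv
  have hD := elem_commutator P N hN (inf_commutator (P : Subgroup G) N hcent hlin) E hE
  have hDn : (N.subgroupOf E).Normal := hN.subgroupOf E
  -- the intersection is central in `E`
  have hDc : ∀ d ∈ N.subgroupOf E, ∀ x : E, d * x = x * d := by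
    intro d hd x
    have h1 : ⁅d, x⁆ ∈ N.subgroupOf E ⊓ commutator E := by
      refine ⟨?_, ?_⟩
      · have h2 : ⁅d, x⁆ ∈ ⁅N.subgroupOf E, (⊤ : Subgroup E)⁆ :=
          Subgroup.commutator_mem_commutator hd (Subgroup.mem_top x)
        exact Subgroup.commutator_le_left _ _ h2
      · rw [commutator_def]
        exact Subgroup.commutator_mem_commutator (Subgroup.mem_top d) (Subgroup.mem_top x)
    rw [hD, Subgroup.mem_bot] at h1
    exact commutatorElement_eq_one_iff_mul_comm.mp h1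
  have hcm : IsMulCommutative ↥(E ⊓ N) := by
    refine ⟨⟨fun a b => ?_⟩⟩
    have h1 := hDc ⟨(a : G), a.2.1⟩ a.2.2 ⟨(b : G), b.2.1⟩
    have h2 := congrArg (fun z : E => (z : G)) h1
    exact Subtype.ext h2
  have hφ1 : φ 1 = 1 := irr_degree_one_of_comm hφ
  obtain ⟨l, rfl⟩ := exists_hf (irr_isChar hφ) hφ1
  obtain ⟨ψ, hψ⟩ := extend_hom (N.subgroupOf E) hD (l.comp (infEquiv E N).symm.toMonoidHom)
  have hψ' : ∀ d : ↥(E ⊓ N), hf ψ ⟨(d : G), d.2.1⟩ = hf l d := by
    intro d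
    have h1 := hψ (infEquiv E N d)
    have h2 : (l.comp (infEquiv E N).symm.toMonoidHom) (infEquiv E N d) = l d := by
      show l ((infEquiv E N).symm (infEquiv E N d)) = l d
      rw [MulEquiv.symm_apply_apply]
    rw [h2] at h1
    exact congrArg (fun u : ℂˣ => (u : ℂ)) h1
  -- the multiplicity of `ϑ` in the restriction of the induced character
  have hmult : classInner (fun n : N => indFun E (hf ψ) n) ϑ = m := by
    unfold classInner
    have hf' : ∀ x, cj hN x (fun n => conj (ϑ n)) = fun n => conj (ϑ n) := by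
      intro x
      funext n
      exact congrArg conj (congrFun (hinv x) n)
    rw [sum_ind_mul N hN E (hf ψ) (fun n => conj (ϑ n)) hf']
    have h1 : ∑ d : ↥(E ⊓ N), hf ψ ⟨(d : G), d.2.1⟩ * conj (ϑ ⟨(d : G), d.2.2⟩)
        = (Nat.card ↥(E ⊓ N) : ℂ) * m := by
      rw [finsum_eq_sum_of_fintype] at hm
      have h2 := congrArg conj hm
      rw [map_mul, map_inv₀, Complex.conj_natCast, Complex.conj_natCast, map_sum] at h2
      have h3 : (Nat.card ↥(E ⊓ N) : ℂ) ≠ 0 := by exact_mod_cast Nat.card_pos.ne'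
      rw [← h2, ← mul_assoc, mul_inv_cancel₀ h3, one_mul]
      apply Finset.sum_congr rfl
      intro d _
      rw [hψ' d, map_mul, Complex.conj_conj, mul_comm]
    rw [h1]
    have h5 : Nat.card G * Nat.card ↥(E ⊓ N) = Nat.card E * Nat.card N := by
      have h7 := H2.card_sup_mul_card_inf E N
      rw [hEN, Subgroup.card_top] at h7
      exact h7
    have h6 : (Nat.card E : ℂ) ≠ 0 := by exact_mod_cast Nat.card_pos.ne'
    have h7 : (Nat.card N : ℂ) ≠ 0 := by exact_mod_cast Nat.card_pos.ne'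
    have h8 : (Nat.card G : ℂ) * Nat.card ↥(E ⊓ N) = Nat.card E * Nat.card N := by
      exact_mod_cast h5
    field_simp
    linear_combination (m : ℂ) * h8
  haveI := Fintype.ofFinite (IrrCharacter G)
  obtain ⟨a, -, ha⟩ := char_expand (isChar_ind E (irr_isChar (isIrr_hf ψ)))
  have hnat : ∀ χ : IrrCharacter G, ∃ e : ℕ, classInner (fun n : N => (χ : G → ℂ) n) ϑ = e := fun χ =>
    classInner_char_nat (isChar_comp (irr_isChar χ.2) N.subtype) (irr_isChar hϑ)
  choose e he using hnat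
  have hsum : m = ∑ χ : IrrCharacter G, a χ * e χ := by
    have h1 : (m : ℂ) = ∑ χ : IrrCharacter G, (a χ : ℂ) * (e χ : ℂ) := by
      rw [← hmult]
      have h2 : (fun n : N => indFun E (hf ψ) n)
          = ∑ χ : IrrCharacter G, (a χ : ℂ) • (fun n : N => (χ : G → ℂ) n) := by
        funext n
        have h3 := congrFun ha (n : G)
        rw [h3, Finset.sum_apply, Finset.sum_apply]
        rfl
      rw [h2, classInner_sum_left]
      apply Finset.sum_congr rfl
      intro χ _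
      rw [classInner_smul_left, he]
    exact_mod_cast h1
  have hex : ∃ χ : IrrCharacter G, ¬ p ∣ e χ := by
    by_contra hcon
    push Not at hcon
    apply hpm
    rw [hsum]
    exact Finset.dvd_sum fun χ _ => (hcon χ).mul_left _
  obtain ⟨χ, hχ⟩ := hex
  have hne : classInner (fun n : N => (χ : G → ℂ) n) ϑ ≠ 0 := by
    rw [he]
    intro h0
    apply hχ
    have : e χ = 0 := by exact_mod_cast h0
    rw [this]
    exact dvd_zero p
  obtain ⟨e', he', hdvd⟩ := ratio_dvd_index_invariant hN χ.2 hϑ hinv hne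
  have hee : e' = e χ := by
    rw [he] at he'
    exact_mod_cast he'.symm
  have he1 : e χ = 1 := by
    obtain ⟨k, hk⟩ := hind
    rw [hk, hee] at hdvd
    obtain ⟨j, -, hj⟩ := (Nat.dvd_prime_pow hpp).mp hdvd
    rcases Nat.eq_zero_or_pos j with h0 | h0
    · rw [hj, h0, pow_zero]
    · exact absurd (hj ▸ dvd_pow_self p h0.ne') hχ
  refine ⟨χ, χ.2, fun n => ?_⟩
  have h1 := clifford_invariant hN χ.2 hϑ hinv hne
  rw [he, he1, Nat.cast_one, one_smul] at h1
  exact congrFun h1 n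

end

end Cfsg.Agent.H7.Dade
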