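import Cfsg.Agent.H7.FR3
import Cfsg.Agent.H3.ExtCyc
import Cfsg.Agent.H3.Gallagher2
import Cfsg.Agent.H27.Kernel

set_option autoImplicit false

/-!
Fully ramified characters and Frobenius groups with cyclic complement.
-/

namespace Cfsg.Agent.H7.FrobRam

open Cfsg Cfsg.Agent.H3 Cfsg.Agent.H27
open scoped ComplexConjugate

/-- The arithmetic at the end: almost all the multiplicities are equal. -/
theorem arith {L : Type*} [Fintype L] (a : L → ℤ) (m : ℕ) (hL : Fintype.card L = m) (hm : 1 < m)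
    (h : (m : ℤ) * ∑ i, a i ^ 2 = (∑ i, a i) ^ 2 + (m - 1)) :
    (m : ℤ) ∣ (∑ i, a i) - 1 ∨ (m : ℤ) ∣ (∑ i, a i) + 1 := by
  classical
  have hcL : ∀ c : ℤ, ∑ _i : L, c = m * c := by
    intro c
    rw [Finset.sum_const, Finset.card_univ, hL, nsmul_eq_mul]
  have hS : ∑ i, ∑ j, (a j - a i) ^ 2 = 2 * ((m : ℤ) - 1) := by
    have h1 : ∀ i, ∑ j, (a j - a i) ^ 2 = ∑ j, a j ^ 2 - 2 * a i * ∑ j, a j + m * a i ^ 2 := by
      intro i
      have h2 : ∀ j, (a j - a i) ^ 2 = a j ^ 2 - 2 * a i * a j + a i ^ 2 := fun j => by ring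
      rw [Finset.sum_congr rfl (fun j _ => h2 j), Finset.sum_add_distrib, Finset.sum_sub_distrib, hcL,
        Finset.mul_sum]
    rw [Finset.sum_congr rfl (fun i _ => h1 i), Finset.sum_add_distrib, Finset.sum_sub_distrib, hcL,
      ← Finset.mul_sum, ← Finset.sum_mul, ← Finset.mul_sum]
    linear_combination 2 * h
  have hex : ∃ i, ∑ j, (a j - a i) ^ 2 < 2 := by
    by_contra hcon
    push Not at hcon
    have h1 : ∑ _i : L, (2 : ℤ) ≤ ∑ i, ∑ j, (a j - a i) ^ 2 := Finset.sum_le_sum fun i _ => hcon i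
    rw [hcL, hS] at h1
    linarith
  obtain ⟨i, hi⟩ := hex
  have h0 : 0 ≤ ∑ j, (a j - a i) ^ 2 := Finset.sum_nonneg fun j _ => sq_nonneg _
  have hsum : ∑ j, a j = m * a i + ∑ j, (a j - a i) := by
    rw [Finset.sum_sub_distrib, hcL]
    ring
  have hle : ∀ d : ℤ, |d| ≤ d ^ 2 := by
    intro d
    have h1 : |d| ≤ |d| * |d| := by
      rcases eq_or_ne d 0 with rfl | hd
      · simp
      · exact le_mul_of_one_le_left (abs_nonneg d) (Int.one_le_abs hd)
    calc |d| ≤ |d| * |d| := h1
      _ = d ^ 2 := by rw [← sq, sq_abs]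
  have habs : |∑ j, (a j - a i)| ≤ ∑ j, (a j - a i) ^ 2 :=
    (Finset.abs_sum_le_sum_abs _ _).trans (Finset.sum_le_sum fun j _ => hle _)
  have hpar : (2 : ℤ) ∣ ∑ j, (a j - a i) ^ 2 - ∑ j, (a j - a i) := by
    rw [← Finset.sum_sub_distrib]
    apply Finset.dvd_sum
    intro j _
    have h1 : (a j - a i) ^ 2 - (a j - a i) = (a j - a i - 1) * (a j - a i - 1 + 1) := by ring
    rw [h1]
    exact (Int.even_mul_succ_self _).two_dvd
  have hne : ∑ j, (a j - a i) ^ 2 ≠ 0 := by
    intro h1
    have h2 : ∀ j, a j = a i := by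
      intro j
      have h3 := (Finset.sum_eq_zero_iff_of_nonneg (fun j _ => sq_nonneg (a j - a i))).mp h1 j
        (Finset.mem_univ j)
      have h4 := pow_eq_zero_iff (two_ne_zero) |>.mp h3
      linarith
    have h3 : ∑ i, ∑ j, (a j - a i) ^ 2 = 0 := by
      apply Finset.sum_eq_zero
      intro k _
      apply Finset.sum_eq_zero
      intro j _
      rw [h2 j, h2 k, sub_self]
      rfl
    rw [hS] at h3
    have : (1 : ℤ) < m := by exact_mod_cast hm
    linarith
  have h1 : ∑ j, (a j - a i) ^ 2 = 1 := by omega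
  rw [h1] at habs hpar
  have h2 := abs_le.mp habs
  have h3 : ∑ j, (a j - a i) = 1 ∨ ∑ j, (a j - a i) = -1 := by omega
  rcases h3 with h3 | h3
  · left
    rw [hsum, h3]
    exact ⟨a i, by ring⟩
  · right
    rw [hsum, h3]
    exact ⟨a i, by ring⟩

section ovr

variable {H : Type*} [Group H] [Fintype H] {N : Subgroup H} [Fintype N] {θ : N → ℂ}

/-- Over an invariant character of a normal subgroup with cyclic quotient there are only extensions. -/
theorem over_eq (hN : N.Normal) (hθ : IsIrrCharacter N θ) (hinv : ∀ g : H, cj hN g θ = θ)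
    (hcyc : IsCyclic (H ⧸ N)) {η : H → ℂ} (hη : IsIrrCharacter H η)
    (hne : classInner (fun n : N => η n) θ ≠ 0) : (fun n : N => η n) = θ := by
  obtain ⟨χ, hχ, hχN⟩ := extends_of_cyclic hN hθ hinv hcyc
  have h1 : (fun n : N => χ n) = θ := funext hχN
  have h2 : IsIrrCharacter N (fun n : N => χ n) := h1 ▸ hθ
  obtain ⟨β, hβ, hβN, rfl⟩ := (gallagher_one hN hχ h2).2.2.1 η hη (by rw [h1]; exact hne)
  obtain ⟨γ, hγ, h3⟩ := exists_quotient_irr (N := N) hβ (fun n hn => hβN ⟨n, hn⟩)
  have h4 : IsMulCommutative (H ⧸ N) := by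
    exact IsCyclic.isMulCommutative
  have h5 : γ 1 = 1 := irr_degree_one_of_comm hγ
  have h6 : β 1 = 1 := by
    rw [h3 1]
    exact h5
  funext n
  show β n * χ n = θ n
  rw [hβN n, h6, one_mul, hχN]

/-- The number of extensions is the index. -/
theorem card_over (hN : N.Normal) (hθ : IsIrrCharacter N θ) (hinv : ∀ g : H, cj hN g θ = θ)
    (hcyc : IsCyclic (H ⧸ N)) [Fintype {η : IrrCharacter H // (fun n : N => (η : H → ℂ) n) = θ}] :
    Fintype.card {η : IrrCharacter H // (fun n : N => (η : H → ℂ) n) = θ} = N.index := by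
  classical
  haveI := Fintype.ofFinite (IrrCharacter H)
  have h1 := norm_ind_invariant hN hθ hinv
  rw [classInner_eq_sum (char_classFun (isChar_ind N (irr_isChar hθ)))] at h1
  have h2 : ∀ η : IrrCharacter H, classInner (indFun N θ) η * conj (classInner (indFun N θ) η)
      = if (fun n : N => (η : H → ℂ) n) = θ then 1 else 0 := by
    intro η
    rw [frobenius_reciprocity N θ (irr_classFun η.2)]
    split_ifs with h
    · rw [h, classInner_self_of_irr hθ]
      simp
    · have h3 : classInner θ (fun n : N => (η : H → ℂ) n) = 0 := by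
        by_contra hne
        exact h (over_eq hN hθ hinv hcyc η.2 (classInner_ne_zero_symm hne))
      rw [h3]
      simp
  rw [Finset.sum_congr rfl (fun η _ => h2 η), Finset.sum_boole] at h1
  rw [Fintype.card_subtype]
  exact_mod_cast h1

/-- A character restricting to a multiple of `θ` of the right norm. -/
theorem main (hN : N.Normal) (hθ : IsIrrCharacter N θ) (hinv : ∀ g : H, cj hN g θ = θ)
    (hcyc : IsCyclic (H ⧸ N)) (hm : 1 < N.index) {ξ : H → ℂ} (hξ : IsCharacter H ξ) {e : ℕ}
    (he : ∀ n : N, ξ n = e * θ n)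
    (hnorm : (N.index : ℂ) * classInner ξ ξ = (e : ℂ) ^ 2 + (N.index - 1)) :
    (N.index : ℤ) ∣ (e : ℤ) - 1 ∨ (N.index : ℤ) ∣ (e : ℤ) + 1 := by
  classical
  haveI := Fintype.ofFinite (IrrCharacter H)
  obtain ⟨a, ha, hξe⟩ := char_expand hξ
  have hzero : ∀ η : IrrCharacter H, (fun n : N => (η : H → ℂ) n) ≠ θ → a η = 0 := by
    intro η hη
    by_contra hne
    apply hη
    apply over_eq hN hθ hinv hcyc η.2
    intro h0
    -- the restriction of `ξ` contains all constituents of the restriction of `η`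
    have h1 : IsCharacter N (fun n : N => (η : H → ℂ) n) := isChar_comp (irr_isChar η.2) N.subtype
    haveI := Fintype.ofFinite (IrrCharacter N)
    have h2 : (fun n : N => (η : H → ℂ) n) = 0 := by
      apply classFun_eq_zero _ (char_classFun h1)
      intro ψ hψ
      by_contra hc
      have h3 : classInner (fun n : N => ξ (N.subtype n)) ψ ≠ 0 :=
        FR.inner_trans N.subtype hξ η.2 hψ (by rw [ha]; exact_mod_cast hne) hc
      have h4 : (fun n : N => ξ (N.subtype n)) = (e : ℂ) • θ := funext he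
      rw [h4, classInner_smul_left, classInner_irr hθ hψ] at h3
      have h5 : θ = ψ := by
        by_contra hx
        rw [if_neg hx, mul_zero] at h3
        exact h3 rfl
      rw [← h5] at hc
      exact hc h0
    have h3 := congrFun h2 1
    exact irr_one_ne_zero η.2 h3
  let L := {η : IrrCharacter H // (fun n : N => (η : H → ℂ) n) = θ}
  have hsumL : ∀ f : IrrCharacter H → ℂ, (∀ η : IrrCharacter H, (fun n : N => (η : H → ℂ) n) ≠ θ → f η = 0) →
      ∑ η, f η = ∑ η : L, f η.1 := by
    intro f hf0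
    rw [← Finset.sum_filter_add_sum_filter_not Finset.univ
      (fun η : IrrCharacter H => (fun n : N => (η : H → ℂ) n) = θ)]
    rw [Finset.sum_eq_zero (s := Finset.univ.filter (fun η : IrrCharacter H =>
      ¬ (fun n : N => (η : H → ℂ) n) = θ)), add_zero]
    · rw [Finset.sum_subtype (p := fun η : IrrCharacter H => (fun n : N => (η : H → ℂ) n) = θ)]
      intro η
      simp
    · intro η hη
      exact hf0 η (Finset.mem_filter.mp hη).2
  have hcard : Fintype.card L = N.index := card_over hN hθ hinv hcyc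
  have h1 : ∑ η : L, (a η.1 : ℤ) = e := by
    have h2 := congrFun hξe 1
    have h3 := he 1
    rw [OneMemClass.coe_one] at h3
    rw [h3, Finset.sum_apply, hsumL] at h2
    · have h4 : ∑ η : L, ((a η.1 : ℂ) • ((η.1 : IrrCharacter H) : H → ℂ)) 1 = (∑ η : L, (a η.1 : ℂ)) * θ 1 := by
        rw [Finset.sum_mul]
        apply Finset.sum_congr rfl
        intro η _
        have h5 := congrFun η.2 1
        rw [← h5]
        rfl
      rw [h4] at h2
      have h5 := mul_right_cancel₀ (irr_one_ne_zero hθ) h2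
      exact_mod_cast h5.symm
    · intro η hη
      rw [hzero η hη]
      simp
  have h2 : ∑ η : L, (a η.1 : ℂ) ^ 2 = classInner ξ ξ := by
    rw [classInner_eq_sum (char_classFun hξ), hsumL]
    · apply Finset.sum_congr rfl
      intro η _
      rw [ha]
      simp [sq]
    · intro η hη
      rw [ha, hzero η hη]
      simp
  have h3 := arith (L := L) (fun η => (a η.1 : ℤ)) N.index hcard hm (by
    rw [h1]
    rw [← h2] at hnorm
    have h4 : (((N.index : ℤ) * ∑ η : L, (a η.1 : ℤ) ^ 2 : ℤ) : ℂ) = (((e : ℤ) ^ 2 + ((N.index : ℤ) - 1) : ℤ) : ℂ) := by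
      push_cast
      exact hnorm
    exact_mod_cast h4)
  rwa [h1] at h3

end ovr

end Cfsg.Agent.H7.FrobRam
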