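import Cfsg.Agent.H7.FrobRam
import Cfsg.Agent.H2.Basic

set_option autoImplicit false

/-!
Fully ramified characters and Frobenius groups with cyclic complement: the group theory.
-/

namespace Cfsg.Agent.H7.FrobRam

open Cfsg Cfsg.Agent.H3 Cfsg.Agent.H27
open scoped ComplexConjugate

variable {Γ : Type*} [Group Γ] [Finite Γ] {G N : Subgroup Γ}

/-- In a Frobenius group the commutator map of an element outside the kernel is onto. -/
theorem exists_comm (hG : G.Normal) (hN : N.Normal)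
    (hfrob : ∀ x : Γ, x ∉ G → ∀ g : Γ, g ∈ G → x * g * x⁻¹ * g⁻¹ ∈ N → g ∈ N) {y : Γ} (hy : y ∉ G)
    {z : Γ} (hz : z ∈ G) : ∃ g ∈ G, g⁻¹ * (y * g * y⁻¹) * z⁻¹ ∈ N := by
  let π : Γ →* Γ ⧸ N := QuotientGroup.mk' N
  let K : Subgroup (Γ ⧸ N) := G.map π
  have hK : K.Normal := hG.map π (QuotientGroup.mk'_surjective N)
  let f : K → K := fun k => ⟨(k : Γ ⧸ N)⁻¹ * (π y * k * (π y)⁻¹),
    K.mul_mem (K.inv_mem k.2) (hK.conj_mem _ k.2 _)⟩
  have hf : Function.Injective f := by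
    intro k₁ k₂ h
    have h1 : (k₁ : Γ ⧸ N)⁻¹ * (π y * k₁ * (π y)⁻¹) = (k₂ : Γ ⧸ N)⁻¹ * (π y * k₂ * (π y)⁻¹) :=
      congrArg Subtype.val h
    obtain ⟨g, hg, hgk⟩ := (k₂ * k₁⁻¹).2
    have hgk' : π g = (k₂ : Γ ⧸ N) * (k₁ : Γ ⧸ N)⁻¹ := hgk
    have h2 : π (y * g * y⁻¹ * g⁻¹) = 1 := by
      rw [map_mul, map_mul, map_mul, map_inv, map_inv, hgk']
      have h3 : π y * (k₂ : Γ ⧸ N) * (π y)⁻¹ = (k₂ : Γ ⧸ N) * ((k₁ : Γ ⧸ N)⁻¹ * (π y * k₁ * (π y)⁻¹)) := by
        rw [h1]; group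
      calc π y * ((k₂ : Γ ⧸ N) * (k₁ : Γ ⧸ N)⁻¹) * (π y)⁻¹ * ((k₂ : Γ ⧸ N) * (k₁ : Γ ⧸ N)⁻¹)⁻¹
          = (π y * (k₂ : Γ ⧸ N) * (π y)⁻¹) * (π y * (k₁ : Γ ⧸ N) * (π y)⁻¹)⁻¹
            * ((k₂ : Γ ⧸ N) * (k₁ : Γ ⧸ N)⁻¹)⁻¹ := by group
        _ = 1 := by rw [h3]; group
    have h3 : y * g * y⁻¹ * g⁻¹ ∈ N := (QuotientGroup.eq_one_iff _).mp h2
    have h4 : π g = 1 := (QuotientGroup.eq_one_iff _).mpr (hfrob y hy g hg h3)
    rw [hgk', mul_inv_eq_one] at h4
    exact Subtype.ext h4.symm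
  obtain ⟨⟨k, g, hg, rfl⟩, hk⟩ := (Finite.injective_iff_surjective.mp hf) ⟨π z, z, hz, rfl⟩
  refine ⟨g, hg, ?_⟩
  have h1 : (π g)⁻¹ * (π y * π g * (π y)⁻¹) = π z := congrArg Subtype.val hk
  rw [← QuotientGroup.eq_one_iff]
  show π (g⁻¹ * (y * g * y⁻¹) * z⁻¹) = 1
  rw [map_mul, map_mul, map_mul, map_mul, map_inv, map_inv, map_inv, h1, mul_inv_cancel]

section

variable (hG : G.Normal) (hN : N.Normal) (hNG : N ≤ G)
  (hfrob : ∀ x : Γ, x ∉ G → ∀ g : Γ, g ∈ G → x * g * x⁻¹ * g⁻¹ ∈ N → g ∈ N) {x : Γ} (hx : x ∉ G)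
  (hgen : ∀ y : Γ, ∃ c ∈ G, ∃ i : ℤ, y = c * x ^ i)

include hN hNG hfrob hx in
omit [Finite Γ] in
theorem sup_inf : (N ⊔ Subgroup.zpowers x) ⊓ G = N := by
  apply le_antisymm
  · rintro y ⟨hy, hyG⟩
    obtain ⟨n, hn, t, ⟨i, rfl⟩, rfl⟩ := Subgroup.mem_sup_of_normal_left.mp hy
    have h1 : x ^ i ∈ G := (Subgroup.mul_mem_cancel_left G (hNG hn)).mp hyG
    have h2 : x ^ i ∈ N := by
      apply hfrob x hx _ h1
      have : x * x ^ i * x⁻¹ * (x ^ i)⁻¹ = 1 := by group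
      rw [this]
      exact N.one_mem
    exact N.mul_mem hn h2
  · exact le_inf le_sup_left hNG

include hG hN hfrob hgen in
theorem exists_conj_mem {y : Γ} (hy : y ∉ G) : ∃ g ∈ G, g⁻¹ * y * g ∈ N ⊔ Subgroup.zpowers x := by
  obtain ⟨c, hc, i, hi⟩ := hgen y
  obtain ⟨g, hg, h⟩ := exists_comm hG hN hfrob hy (G.inv_mem hc)
  refine ⟨g, hg, ?_⟩
  have h1 : g⁻¹ * y * g = (g⁻¹ * (y * g * y⁻¹) * c⁻¹⁻¹) * x ^ i := by
    have : y⁻¹ * y = 1 := by group
    calc g⁻¹ * y * g = g⁻¹ * (y * g * y⁻¹) * y := by group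
      _ = g⁻¹ * (y * g * y⁻¹) * (c * x ^ i) := by rw [← hi]
      _ = _ := by group
  rw [h1]
  exact Subgroup.mul_mem _ (Subgroup.mem_sup_left h)
    (Subgroup.mem_sup_right (Subgroup.zpow_mem_zpowers x i))

include hG hN hNG hfrob hx hgen in
open Classical in
theorem card_fiber [Fintype Γ] {y : Γ} (hy : y ∉ G) :
    (Finset.univ.filter (fun g : Γ => g ∈ G ∧ g⁻¹ * y * g ∈ N ⊔ Subgroup.zpowers x)).card
      = Nat.card N := by
  obtain ⟨g₀, hg₀, h0⟩ := exists_conj_mem hG hN hfrob hgen hy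
  have hinf := sup_inf hN hNG hfrob hx
  have hy0 : g₀⁻¹ * y * g₀ ∉ G := by
    intro h
    apply hy
    have h1 := hG.conj_mem _ h g₀
    have h2 : g₀ * (g₀⁻¹ * y * g₀) * g₀⁻¹ = y := by group
    rwa [h2] at h1
  have h1 : Finset.univ.filter (fun g : Γ => g ∈ G ∧ g⁻¹ * y * g ∈ N ⊔ Subgroup.zpowers x)
      = Finset.univ.image (fun n : N => g₀ * (n : Γ)) := by
    ext g
    rw [Finset.mem_filter, Finset.mem_image]
    constructor
    · rintro ⟨-, hg, h⟩
      have h2 : g₀⁻¹ * g ∈ N := by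
        have hk : g₀⁻¹ * g ∈ G := G.mul_mem (G.inv_mem hg₀) hg
        have h3 : (g₀⁻¹ * g)⁻¹ * (g₀⁻¹ * y * g₀) * (g₀⁻¹ * g) ∈ N ⊔ Subgroup.zpowers x := by
          have : (g₀⁻¹ * g)⁻¹ * (g₀⁻¹ * y * g₀) * (g₀⁻¹ * g) = g⁻¹ * y * g := by group
          rwa [this]
        have h4 : (g₀⁻¹ * g)⁻¹ * (g₀⁻¹ * y * g₀) * (g₀⁻¹ * g) * (g₀⁻¹ * y * g₀)⁻¹
            ∈ (N ⊔ Subgroup.zpowers x) ⊓ G := by
          refine ⟨Subgroup.mul_mem _ h3 (Subgroup.inv_mem _ h0), ?_⟩
          have : (g₀⁻¹ * g)⁻¹ * (g₀⁻¹ * y * g₀) * (g₀⁻¹ * g) * (g₀⁻¹ * y * g₀)⁻¹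
              = (g₀⁻¹ * g)⁻¹ * ((g₀⁻¹ * y * g₀) * (g₀⁻¹ * g) * (g₀⁻¹ * y * g₀)⁻¹) := by group
          rw [this]
          exact G.mul_mem (G.inv_mem hk) (hG.conj_mem _ hk _)
        rw [hinf] at h4
        apply hfrob _ hy0 _ hk
        have h5 := hN.conj_mem _ h4 (g₀⁻¹ * g)
        have h6 : g₀⁻¹ * g * ((g₀⁻¹ * g)⁻¹ * (g₀⁻¹ * y * g₀) * (g₀⁻¹ * g) * (g₀⁻¹ * y * g₀)⁻¹)
            * (g₀⁻¹ * g)⁻¹ = (g₀⁻¹ * y * g₀) * (g₀⁻¹ * g) * (g₀⁻¹ * y * g₀)⁻¹ * (g₀⁻¹ * g)⁻¹ := by group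
        rwa [h6] at h5
      exact ⟨⟨_, h2⟩, Finset.mem_univ _, by show g₀ * (g₀⁻¹ * g) = g; group⟩
    · rintro ⟨n, -, rfl⟩
      refine ⟨Finset.mem_univ _, G.mul_mem hg₀ (hNG n.2), ?_⟩
      have : (g₀ * (n : Γ))⁻¹ * y * (g₀ * (n : Γ)) = (n : Γ)⁻¹ * (g₀⁻¹ * y * g₀) * n := by group
      rw [this]
      have hn : (n : Γ) ∈ N ⊔ Subgroup.zpowers x := Subgroup.mem_sup_left n.2
      exact Subgroup.mul_mem _ (Subgroup.mul_mem _ (Subgroup.inv_mem _ hn) h0) hn
  rw [h1, Finset.card_image_of_injective _ (fun a b h => Subtype.ext (mul_left_cancel h)), Finset.card_univ,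
    Nat.card_eq_fintype_card]

include hG hN hNG hfrob hx hgen in
open Classical in
theorem sum_out [Fintype Γ] (F : Γ → ℂ) (hF : ∀ g y, F (g * y * g⁻¹) = F y) :
    (Nat.card N : ℂ) * ∑ y ∈ Finset.univ.filter (fun y : Γ => y ∉ G), F y
      = (Nat.card G : ℂ) * ∑ y ∈ Finset.univ.filter (fun y : Γ => y ∈ N ⊔ Subgroup.zpowers x ∧ y ∉ G), F y := by
  have h1 : (Nat.card N : ℂ) * ∑ y ∈ Finset.univ.filter (fun y : Γ => y ∉ G), F y
      = ∑ y : Γ, ∑ g : Γ, if (y ∉ G ∧ g ∈ G ∧ g⁻¹ * y * g ∈ N ⊔ Subgroup.zpowers x) then F y else 0 := by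
    rw [Finset.mul_sum, Finset.sum_filter]
    apply Finset.sum_congr rfl
    intro y _
    by_cases hy : y ∉ G
    · rw [if_pos hy]
      have h2 : ∀ g : Γ, (if (y ∉ G ∧ g ∈ G ∧ g⁻¹ * y * g ∈ N ⊔ Subgroup.zpowers x) then F y else 0)
          = if (g ∈ G ∧ g⁻¹ * y * g ∈ N ⊔ Subgroup.zpowers x) then F y else 0 := by
        intro g
        simp [hy]
      rw [Finset.sum_congr rfl (fun g _ => h2 g), ← Finset.sum_filter, Finset.sum_const,
        card_fiber hG hN hNG hfrob hx hgen hy, nsmul_eq_mul]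
    · rw [if_neg hy]
      symm
      apply Finset.sum_eq_zero
      intro g _
      rw [if_neg (fun h => hy h.1)]
  have h2 : ∀ g : Γ, ∑ y : Γ, (if (y ∉ G ∧ g ∈ G ∧ g⁻¹ * y * g ∈ N ⊔ Subgroup.zpowers x) then F y else 0)
      = if g ∈ G then ∑ y ∈ Finset.univ.filter (fun y : Γ => y ∈ N ⊔ Subgroup.zpowers x ∧ y ∉ G), F y
        else 0 := by
    intro g
    split_ifs with hg
    · rw [Finset.sum_filter]
      refine Fintype.sum_equiv (MulAut.conj g⁻¹).toEquiv _ _ (fun y => ?_)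
      have h3 : (MulAut.conj g⁻¹).toEquiv y = g⁻¹ * y * g := by
        show g⁻¹ * y * g⁻¹⁻¹ = _
        rw [inv_inv]
      rw [h3]
      have h4 : F (g⁻¹ * y * g) = F y := by
        have := hF g⁻¹ y
        rwa [inv_inv] at this
      have h5 : g⁻¹ * y * g ∈ G ↔ y ∈ G := by
        constructor
        · intro h
          have h6 := hG.conj_mem _ h g
          have h7 : g * (g⁻¹ * y * g) * g⁻¹ = y := by group
          rwa [h7] at h6
        · intro h
          have h6 := hG.conj_mem _ h g⁻¹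
          rwa [inv_inv] at h6
      rw [h4, h5]
      by_cases h6 : y ∈ G <;> by_cases h7 : g⁻¹ * y * g ∈ N ⊔ Subgroup.zpowers x <;> simp [h6, h7, hg]
    · apply Finset.sum_eq_zero
      intro y _
      rw [if_neg (fun h => hg h.2.1)]
  rw [h1, Finset.sum_comm, Finset.sum_congr rfl (fun g _ => h2 g), ← Finset.sum_filter, Finset.sum_const,
    nsmul_eq_mul]
  congr 2
  rw [Nat.card_eq_fintype_card, Fintype.card_subtype]

end

/-- The final statement. -/
theorem final [Fintype Γ] (hG : G.Normal) (hN : N.Normal) [Fintype G] [Fintype N] (hNG : N ≤ G)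
    (hGlt : G ≠ ⊤) (hcyc : IsCyclic (Γ ⧸ G))
    (hfrob : ∀ x : Γ, x ∉ G → ∀ g : Γ, g ∈ G → x * g * x⁻¹ * g⁻¹ ∈ N → g ∈ N)
    {θ : N → ℂ} (hθ : IsIrrCharacter N θ) (hinv : ∀ x, cj hN x θ = θ)
    {χ : G → ℂ} (hχ : IsIrrCharacter G χ) (e : ℕ)
    (hram : indFun (N.subgroupOf G) (fun n : N.subgroupOf G => θ ⟨(n : G), n.2⟩)
      = fun g => (e : ℂ) * χ g) :
    (G.index : ℤ) ∣ (e : ℤ) - 1 ∨ (G.index : ℤ) ∣ (e : ℤ) + 1 := by
  classical
  haveI := Fintype.ofFinite (N.subgroupOf G)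
  have hNG' : (N.subgroupOf G).Normal := hN.subgroupOf G
  -- the facts inside `G`
  have hθG : IsIrrCharacter (N.subgroupOf G) (FR.thS θ G) := FR.thS_irr hθ hNG
  have hθGi : ∀ g : G, cj hNG' g (FR.thS θ G) = FR.thS θ G := fun g => FR.thS_inv hinv g
  have hram' : indFun (N.subgroupOf G) (FR.thS θ G) = (e : ℂ) • χ := hram
  have he2 : e ^ 2 = (N.subgroupOf G).index := by
    have h1 := norm_ind_invariant hNG' hθG hθGi
    rw [hram', classInner_smul_left, classInner_smul_right, classInner_self_of_irr hχ,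
      Complex.conj_natCast, mul_one] at h1
    have h2 : ((e * e : ℕ) : ℂ) = ((N.subgroupOf G).index : ℂ) := by exact_mod_cast h1
    rw [sq]
    exact_mod_cast h2
  have hmul : classInner (fun n : N.subgroupOf G => χ n) (FR.thS θ G) = e := by
    have h1 := frobenius_reciprocity (N.subgroupOf G) (FR.thS θ G) (irr_classFun hχ)
    rw [hram', classInner_smul_left, classInner_self_of_irr hχ, mul_one] at h1
    rw [← classInner_conj_symm, ← h1, Complex.conj_natCast]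
  have he0 : (e : ℂ) ≠ 0 := by
    intro h0
    have h1 : e = 0 := by exact_mod_cast h0
    rw [h1] at he2
    exact Subgroup.FiniteIndex.index_ne_zero (H := N.subgroupOf G) he2.symm
  have hres : ∀ z : N.subgroupOf G, χ z = (e : ℂ) * FR.thS θ G z := by
    intro z
    have h1 := clifford_invariant hNG' hχ hθG hθGi (by rw [hmul]; exact he0)
    rw [hmul] at h1
    exact congrFun h1 z
  -- `χ` is invariant, so it extends
  have hχinv : ∀ y : Γ, cj hG y χ = χ := by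
    intro y
    apply FR.unique_over hχ hθG he2 hres (isIrr_cj hG hχ y)
    have h1 : (fun z : N.subgroupOf G => cj hG y χ z) = (e : ℂ) • FR.thS θ G := by
      funext z
      have h2 := hres ⟨⟨y * (z : G) * y⁻¹, hG.conj_mem _ (z : G).2 y⟩, hN.conj_mem _ z.2 y⟩
      have h3 := congrFun (hinv y) ⟨(z : G), z.2⟩
      rw [cj_apply]
      refine h2.trans ?_
      have h4 : FR.thS θ G ⟨⟨y * (z : G) * y⁻¹, hG.conj_mem _ (z : G).2 y⟩, hN.conj_mem _ z.2 y⟩
          = FR.thS θ G z := h3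
      rw [h4]
      rfl
    rw [h1, classInner_smul_left, classInner_self_of_irr hθG, mul_one]
    exact he0
  obtain ⟨X, hX, hXG⟩ := extends_of_cyclic hG hχ hχinv hcyc
  -- the generator
  obtain ⟨c, hc⟩ := hcyc.exists_generator
  obtain ⟨x, rfl⟩ := QuotientGroup.mk_surjective c
  have hgen : ∀ y : Γ, ∃ c ∈ G, ∃ i : ℤ, y = c * x ^ i := by
    intro y
    obtain ⟨i, hi⟩ := hc (y : Γ ⧸ G)
    have h1 : (x ^ i : Γ) = (y : Γ ⧸ G) := by
      rw [← hi]
      rfl
    refine ⟨y * (x ^ i)⁻¹, ?_, i, by group⟩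
    rw [← QuotientGroup.eq_one_iff, QuotientGroup.mk_mul, QuotientGroup.mk_inv, h1, mul_inv_cancel]
  have hx : x ∉ G := by
    intro hx
    apply hGlt
    rw [eq_top_iff]
    intro y _
    obtain ⟨c, hc, i, rfl⟩ := hgen y
    exact G.mul_mem hc (G.zpow_mem hx i)
  set H : Subgroup Γ := N ⊔ Subgroup.zpowers x with hH
  have hinf : H ⊓ G = N := sup_inf hN hNG hfrob hx
  have hsup : H ⊔ G = ⊤ := by
    rw [eq_top_iff]
    intro y _
    obtain ⟨c, hc, i, rfl⟩ := hgen y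
    exact Subgroup.mul_mem _ (Subgroup.mem_sup_right hc)
      (Subgroup.mem_sup_left (Subgroup.mem_sup_right (Subgroup.zpow_mem_zpowers x i)))
  have hNH : N ≤ H := le_sup_left
  haveI := Fintype.ofFinite H
  haveI := Fintype.ofFinite (N.subgroupOf H)
  have hNH' : (N.subgroupOf H).Normal := hN.subgroupOf H
  have hθH : IsIrrCharacter (N.subgroupOf H) (FR.thS θ H) := FR.thS_irr hθ hNH
  have hθHi : ∀ g : H, cj hNH' g (FR.thS θ H) = FR.thS θ H := fun g => FR.thS_inv hinv g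
  -- indices
  have hcards : Nat.card Γ * Nat.card N = Nat.card H * Nat.card G := by
    have h1 := H2.card_sup_mul_card_inf H G
    rwa [hinf, hsup, Subgroup.card_top] at h1
  have hcG : Nat.card G * G.index = Nat.card Γ := Subgroup.card_mul_index G
  have hcH : Nat.card N * (N.subgroupOf H).index = Nat.card H := by
    have h1 := Subgroup.card_mul_index (N.subgroupOf H)
    rwa [Nat.card_congr (Subgroup.subgroupOfEquivOfLe hNH).toEquiv] at h1
  have hidx : (N.subgroupOf H).index = G.index := by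
    have h1 : Nat.card N * Nat.card G * (N.subgroupOf H).index = Nat.card N * Nat.card G * G.index := by
      calc Nat.card N * Nat.card G * (N.subgroupOf H).index
          = (Nat.card N * (N.subgroupOf H).index) * Nat.card G := by ring
        _ = Nat.card Γ * Nat.card N := by rw [hcH, hcards]
        _ = _ := by rw [← hcG]; ring
    exact Nat.eq_of_mul_eq_mul_left (Nat.mul_pos Nat.card_pos Nat.card_pos) h1
  have hcycH : IsCyclic (H ⧸ N.subgroupOf H) := by
    let f : H →* Γ ⧸ G := (QuotientGroup.mk' G).comp H.subtype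
    have hf : f.ker = N.subgroupOf H := by
      ext h
      rw [MonoidHom.mem_ker, Subgroup.mem_subgroupOf]
      show ((h : Γ) : Γ ⧸ G) = 1 ↔ _
      rw [QuotientGroup.eq_one_iff]
      constructor
      · intro h1
        have h2 : (h : Γ) ∈ H ⊓ G := ⟨h.2, h1⟩
        rwa [hinf] at h2
      · intro h1
        exact hNG h1
    have h1 : IsCyclic (H ⧸ f.ker) :=
      isCyclic_of_injective (QuotientGroup.kerLift f) (QuotientGroup.kerLift_injective f)
    exact isCyclic_of_surjective (QuotientGroup.quotientMulEquivOfEq hf)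
      (QuotientGroup.quotientMulEquivOfEq hf).surjective
  have hm : 1 < (N.subgroupOf H).index := by
    rw [hidx]
    have h1 : G.index ≠ 1 := fun h => hGlt (Subgroup.index_eq_one.mp h)
    have h2 : G.index ≠ 0 := Subgroup.FiniteIndex.index_ne_zero
    omega
  rw [← hidx]
  apply main hNH' hθH hθHi hcycH hm (ξ := fun h : H => X h) (isChar_comp (irr_isChar hX) H.subtype)
  · intro n
    have h1 := hXG ⟨((n : H) : Γ), hNG n.2⟩
    have h2 := hres ⟨⟨((n : H) : Γ), hNG n.2⟩, n.2⟩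
    exact h1.trans h2
  · -- the norm
    let F : Γ → ℂ := fun y => X y * conj (X y)
    have hF : ∀ g y, F (g * y * g⁻¹) = F y := by
      intro g y
      have h1 := irr_classFun hX y g
      simp only [F]
      rw [h1]
    have hsum := sum_out hG hN hNG hfrob hx hgen F hF
    have hΓ : ∑ y : Γ, F y = Nat.card Γ := by
      have h1 := classInner_self_of_irr hX
      unfold classInner at h1
      have h2 : (Nat.card Γ : ℂ) ≠ 0 := by exact_mod_cast Nat.card_pos.ne'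
      rw [inv_mul_eq_iff_eq_mul₀ h2, mul_one] at h1
      exact h1
    have hGs : ∑ y ∈ Finset.univ.filter (fun y : Γ => y ∈ G), F y = Nat.card G := by
      have h1 := classInner_self_of_irr hχ
      unfold classInner at h1
      have h2 : (Nat.card G : ℂ) ≠ 0 := by exact_mod_cast Nat.card_pos.ne'
      rw [inv_mul_eq_iff_eq_mul₀ h2, mul_one] at h1
      rw [← h1, Finset.sum_subtype (p := fun y : Γ => y ∈ G) (F := inferInstance)]
      · apply Finset.sum_congr rfl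
        intro g _
        show X g * conj (X g) = _
        rw [hXG]
      · intro y
        simp
    have hNs : ∑ y ∈ Finset.univ.filter (fun y : Γ => y ∈ N), F y = (e : ℂ) ^ 2 * Nat.card N := by
      have h1 := classInner_self_of_irr hθ
      unfold classInner at h1
      have h2 : (Nat.card N : ℂ) ≠ 0 := by exact_mod_cast Nat.card_pos.ne'
      rw [inv_mul_eq_iff_eq_mul₀ h2, mul_one] at h1
      rw [← h1, Finset.mul_sum, Finset.sum_subtype (p := fun y : Γ => y ∈ N) (F := inferInstance)]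
      · apply Finset.sum_congr rfl
        intro n _
        show X n * conj (X n) = _
        have h3 := hXG ⟨(n : Γ), hNG n.2⟩
        have h4 := hres ⟨⟨(n : Γ), hNG n.2⟩, n.2⟩
        have h5 : X n = e * θ n := h3.trans h4
        rw [h5, map_mul, Complex.conj_natCast]
        ring
      · intro y
        simp
    have hout : ∑ y ∈ Finset.univ.filter (fun y : Γ => y ∉ G), F y = (Nat.card Γ : ℂ) - Nat.card G := by
      have h1 := Finset.sum_filter_add_sum_filter_not Finset.univ (fun y : Γ => y ∈ G) F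
      rw [hΓ, hGs] at h1
      rw [← h1]
      ring
    have hHs : ∑ h : H, F h = (e : ℂ) ^ 2 * Nat.card N +
        ∑ y ∈ Finset.univ.filter (fun y : Γ => y ∈ H ∧ y ∉ G), F y := by
      have h1 : ∑ h : H, F h = ∑ y ∈ Finset.univ.filter (fun y : Γ => y ∈ H), F y := by
        rw [Finset.sum_subtype (p := fun y : Γ => y ∈ H) (F := inferInstance)]
        intro y
        simp
      rw [h1, ← Finset.sum_filter_add_sum_filter_not (Finset.univ.filter (fun y : Γ => y ∈ H))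
        (fun y : Γ => y ∈ G), Finset.filter_filter, Finset.filter_filter, ← hNs]
      congr 2
      ext y
      rw [Finset.mem_filter, Finset.mem_filter]
      have h2 : y ∈ N ↔ (y ∈ H ∧ y ∈ G) := by
        rw [← hinf]
        rfl
      rw [h2]
    have hHn : classInner (fun h : H => X h) (fun h : H => X h) = (Nat.card H : ℂ)⁻¹ * ∑ h : H, F h := rfl
    rw [hHn, hHs]
    rw [hout] at hsum
    have c1 : (Nat.card N : ℂ) ≠ 0 := by exact_mod_cast Nat.card_pos.ne'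
    have c2 : (Nat.card G : ℂ) ≠ 0 := by exact_mod_cast Nat.card_pos.ne'
    have c3 : (Nat.card H : ℂ) ≠ 0 := by exact_mod_cast Nat.card_pos.ne'
    have e1 : (Nat.card G : ℂ) * G.index = Nat.card Γ := by exact_mod_cast hcG
    have e2 : (Nat.card N : ℂ) * G.index = Nat.card H := by
      rw [← hidx]
      exact_mod_cast hcH
    rw [hidx]
    set T := ∑ y ∈ Finset.univ.filter (fun y : Γ => y ∈ H ∧ y ∉ G), F y with hT
    have e3 : T = (Nat.card N : ℂ) * (G.index - 1) := by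
      apply mul_left_cancel₀ c2
      rw [← hsum, ← e1]
      ring
    have c4 : (G.index : ℂ) ≠ 0 := by
      intro h0
      rw [h0, mul_zero] at e2
      exact c3 e2.symm
    rw [e3, ← e2]
    field_simp

end Cfsg.Agent.H7.FrobRam
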