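import Mathlib.GroupTheory.GroupAction.MultipleTransitivity
import Mathlib.GroupTheory.Perm.Cycle.Type
import Mathlib.Data.Fintype.CardEmbedding
import Mathlib.Algebra.BigOperators.Ring.Finset
import Mathlib.Tactic

set_option autoImplicit false
set_option linter.style.haveILetI false
set_option linter.unusedSectionVars false

/-! Sharply 4-transitive groups (Jordan): the degree is 4, 5, 6 or 11. -/

namespace Cfsg.Agent.H7.J4

open MulAction

variable {G α : Type*} [Group G] [MulAction G α]

/-- sharp `k`-transitivity -/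
structure Sharp (k : ℕ) (G α : Type*) [Group G] [MulAction G α] : Prop where
  pre : IsMultiplyPretransitive G α k
  free : ∀ x : Fin k ↪ α, stabilizer G x = ⊥

theorem Sharp.uniq {k : ℕ} (h : Sharp k G α) {x : Fin k ↪ α} {g g' : G}
    (e : ∀ i, g • x i = g' • x i) : g = g' := by
  have h1 : g'⁻¹ * g ∈ stabilizer G x := by
    rw [mem_stabilizer_iff]
    ext i
    change (g'⁻¹ * g) • x i = x i
    rw [mul_smul, e, inv_smul_smul]
  rw [h.free x, Subgroup.mem_bot] at h1
  exact (inv_mul_eq_one.1 h1).symm

theorem Sharp.exists {k : ℕ} (h : Sharp k G α) (x y : Fin k ↪ α) : ∃ g : G, ∀ i, g • x i = y i := by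
  haveI := h.pre
  obtain ⟨g, hg⟩ := exists_smul_eq G x y
  exact ⟨g, fun i => by rw [← hg]; rfl⟩

theorem Sharp.card [Finite α] {k : ℕ} (h : Sharp k G α) (hk : k ≤ Nat.card α) :
    Nat.card G = (Nat.card α).descFactorial k := by
  haveI : Fintype α := Fintype.ofFinite α
  obtain ⟨x⟩ : Nonempty (Fin k ↪ α) := by
    rw [Nat.card_eq_fintype_card] at hk
    exact Function.Embedding.nonempty_of_card_le (by simpa using hk)
  have h1 : Function.Bijective (fun g : G => g • x) := by
    constructor
    · intro g g' e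
      exact h.uniq (x := x) (fun i => DFunLike.congr_fun e i)
    · intro y
      obtain ⟨g, hg⟩ := h.exists x y
      exact ⟨g, by ext i; exact hg i⟩
  rw [Nat.card_eq_of_bijective _ h1, Nat.card_eq_fintype_card, Fintype.card_embedding_eq,
    Fintype.card_fin, Nat.card_eq_fintype_card]

theorem Sharp.finite [Finite α] {k : ℕ} (h : Sharp k G α) (hk : k ≤ Nat.card α) : Finite G := by
  haveI : Fintype α := Fintype.ofFinite α
  obtain ⟨x⟩ : Nonempty (Fin k ↪ α) := by
    rw [Nat.card_eq_fintype_card] at hk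
    exact Function.Embedding.nonempty_of_card_le (by simpa using hk)
  exact Finite.of_injective (fun g : G => g • x) (fun g g' e =>
    h.uniq (x := x) (fun i => DFunLike.congr_fun e i))

/-- point stabilisers -/
theorem Sharp.stab {k : ℕ} (h : Sharp (k + 1) G α) (a : α) [IsPretransitive G α] :
    Sharp k (stabilizer G a) (SubMulAction.ofStabilizer G a) := by
  refine ⟨?_, ?_⟩
  · haveI := h.pre
    exact (SubMulAction.ofStabilizer.isMultiplyPretransitive (G := G) (α := α) (a := a)).1 h.pre
  · intro x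
    rw [eq_bot_iff]
    intro g hg
    rw [Subgroup.mem_bot]
    apply Subtype.ext
    change (g : G) = 1
    rw [mem_stabilizer_iff] at hg
    refine h.uniq (x := SubMulAction.ofStabilizer.snoc x) (fun i => ?_)
    rw [one_smul]
    refine Fin.lastCases ?_ (fun i => ?_) i
    · rw [SubMulAction.ofStabilizer.snoc_last]
      exact g.2
    · rw [SubMulAction.ofStabilizer.snoc_castSucc]
      have := DFunLike.congr_fun hg i
      exact congrArg Subtype.val this

section four

variable [Fintype α] [DecidableEq α]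

/-- four distinct points as an embedding -/
def e4 (a b c d : α) (h : a ≠ b ∧ a ≠ c ∧ a ≠ d ∧ b ≠ c ∧ b ≠ d ∧ c ≠ d) : Fin 4 ↪ α :=
  ⟨![a, b, c, d], by
    obtain ⟨h1, h2, h3, h4, h5, h6⟩ := h
    intro i j
    fin_cases i <;> fin_cases j <;> simp [h1, h2, h3, h4, h5, h6, Ne.symm h1, Ne.symm h2, Ne.symm h3,
      Ne.symm h4, Ne.symm h5, Ne.symm h6]⟩

variable (h : Sharp 4 G α) [Fintype G] [DecidableEq G]

/-- the involutions -/
def inv (G : Type*) [Group G] [Fintype G] [DecidableEq G] : Finset G :=
  Finset.univ.filter (fun g => g ≠ 1 ∧ g * g = 1)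

def supp (g : G) : Finset α := Finset.univ.filter (fun a => g • a ≠ a)

theorem mem_inv {g : G} : g ∈ inv G ↔ g ≠ 1 ∧ g * g = 1 := by simp [inv]

theorem mem_supp {g : G} {a : α} : a ∈ supp g ↔ g • a ≠ a := by simp [supp]

theorem inv_smul_smul' {g : G} (hg : g ∈ inv G) (a : α) : g • g • a = a := by
  rw [← mul_smul, (mem_inv.1 hg).2, one_smul]

include h

theorem four_uniq {a b c d : α} (hd : a ≠ b ∧ a ≠ c ∧ a ≠ d ∧ b ≠ c ∧ b ≠ d ∧ c ≠ d) {g g' : G}
    (h1 : g • a = g' • a) (h2 : g • b = g' • b) (h3 : g • c = g' • c) (h4 : g • d = g' • d) :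
    g = g' := by
  refine h.uniq (x := e4 a b c d hd) (fun i => ?_)
  fin_cases i
  · exact h1
  · exact h2
  · exact h3
  · exact h4

theorem count1 : ∑ g ∈ inv G, (supp (α := α) g).card * ((supp (α := α) g).card - 2) =
    (Fintype.card α).descFactorial 4 := by
  classical
  have hN : (Fintype.card α).descFactorial 4 = Fintype.card (Fin 4 ↪ α) := by
    rw [Fintype.card_embedding_eq, Fintype.card_fin]
  rw [hN]
  let X := (inv G).sigma (fun g => (supp (α := α) g).sigma (fun a => supp (α := α) g \ {a, g • a}))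
  have hX : X.card = ∑ g ∈ inv G, (supp (α := α) g).card * ((supp (α := α) g).card - 2) := by
    rw [Finset.card_sigma]
    refine Finset.sum_congr rfl fun g hg => ?_
    rw [Finset.card_sigma]
    have : ∀ a ∈ supp (α := α) g, (supp (α := α) g \ {a, g • a}).card = (supp (α := α) g).card - 2 := by
      intro a ha
      rw [Finset.card_sdiff_of_subset, Finset.card_pair (Ne.symm (mem_supp.1 ha))]
      intro b hb
      rw [Finset.mem_insert, Finset.mem_singleton] at hb
      rcases hb with rfl | rfl
      · exact ha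
      · rw [mem_supp, inv_smul_smul' hg]
        exact Ne.symm (mem_supp.1 ha)
    rw [Finset.sum_congr rfl this, Finset.sum_const, smul_eq_mul]
  rw [← hX, ← Finset.card_univ]
  have hmem : ∀ q : (Σ _ : G, Σ _ : α, α), q ∈ X ↔ q.1 ∈ inv G ∧ q.1 • q.2.1 ≠ q.2.1 ∧
      q.1 • q.2.2 ≠ q.2.2 ∧ q.2.2 ≠ q.2.1 ∧ q.2.2 ≠ q.1 • q.2.1 := by
    intro q
    simp only [X, Finset.mem_sigma, Finset.mem_sdiff, mem_supp, Finset.mem_insert,
      Finset.mem_singleton, not_or]
  have hdist : ∀ q : (Σ _ : G, Σ _ : α, α), q ∈ X → (q.2.1 ≠ q.1 • q.2.1 ∧ q.2.1 ≠ q.2.2 ∧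
      q.2.1 ≠ q.1 • q.2.2 ∧ q.1 • q.2.1 ≠ q.2.2 ∧ q.1 • q.2.1 ≠ q.1 • q.2.2 ∧
      q.2.2 ≠ q.1 • q.2.2) := by
    intro q hq
    obtain ⟨h1, h2, h3, h4, h5⟩ := (hmem q).1 hq
    refine ⟨Ne.symm h2, Ne.symm h4, ?_, Ne.symm h5, ?_, Ne.symm h3⟩
    · intro e
      apply h5
      rw [e, inv_smul_smul' h1]
    · intro e
      exact h4 (smul_left_cancel _ e).symm
  refine Finset.card_bij (fun q hq => e4 _ _ _ _ (hdist q hq)) (fun _ _ => Finset.mem_univ _) ?_ ?_
  · rintro ⟨g, a, c⟩ hq ⟨g', a', c'⟩ hq' e
    have e0 : a = a' := DFunLike.congr_fun e 0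
    have e1 : g • a = g' • a' := DFunLike.congr_fun e 1
    have e2 : c = c' := DFunLike.congr_fun e 2
    have e3 : g • c = g' • c' := DFunLike.congr_fun e 3
    subst e0
    subst e2
    obtain ⟨h1, -⟩ := (hmem _).1 hq
    obtain ⟨h1', -⟩ := (hmem _).1 hq'
    have : g = g' := four_uniq h (hdist _ hq) e1
      (by rw [inv_smul_smul' h1]; change a = g' • g • a; rw [e1, inv_smul_smul' h1']) e3
      (by rw [inv_smul_smul' h1]; change c = g' • g • c; rw [e3, inv_smul_smul' h1'])
    subst this
    rfl
  · intro x _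
    have hx : ∀ i j, i ≠ j → x i ≠ x j := fun i j hij e => hij (x.injective e)
    obtain ⟨g, hg⟩ := h.exists x (e4 (x 1) (x 0) (x 3) (x 2)
      ⟨hx _ _ (by decide), hx _ _ (by decide), hx _ _ (by decide), hx _ _ (by decide),
        hx _ _ (by decide), hx _ _ (by decide)⟩)
    have g0 : g • x 0 = x 1 := hg 0
    have g1 : g • x 1 = x 0 := hg 1
    have g2 : g • x 2 = x 3 := hg 2
    have g3 : g • x 3 = x 2 := hg 3
    have hgi : g ∈ inv G := by
      rw [mem_inv]
      constructor
      · rintro rfl
        rw [one_smul] at g0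
        exact hx 0 1 (by decide) g0
      · refine h.uniq (x := x) (fun i => ?_)
        rw [one_smul, mul_smul]
        fin_cases i
        · exact (congrArg (g • ·) g0).trans g1
        · exact (congrArg (g • ·) g1).trans g0
        · exact (congrArg (g • ·) g2).trans g3
        · exact (congrArg (g • ·) g3).trans g2
    refine ⟨⟨g, x 0, x 2⟩, ?_, ?_⟩
    · rw [hmem]
      refine ⟨hgi, ?_, ?_, ?_, ?_⟩
      · change g • x 0 ≠ x 0
        rw [g0]; exact hx _ _ (by decide)
      · change g • x 2 ≠ x 2
        rw [g2]; exact hx _ _ (by decide)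
      · exact hx _ _ (by decide)
      · change x 2 ≠ g • x 0
        rw [g0]; exact hx _ _ (by decide)
    · ext i
      fin_cases i
      · rfl
      · exact g0
      · rfl
      · exact g2

theorem count2 : ∑ g ∈ inv G, ((Fintype.card α - (supp (α := α) g).card) *
      (Fintype.card α - (supp (α := α) g).card - 1)) * (supp (α := α) g).card =
    (Fintype.card α).descFactorial 4 := by
  classical
  have hN : (Fintype.card α).descFactorial 4 = Fintype.card (Fin 4 ↪ α) := by
    rw [Fintype.card_embedding_eq, Fintype.card_fin]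
  rw [hN]
  let X := (inv G).sigma (fun g => ((supp (α := α) g)ᶜ.offDiag ×ˢ (supp (α := α) g)))
  have hX : X.card = ∑ g ∈ inv G, ((Fintype.card α - (supp (α := α) g).card) *
      (Fintype.card α - (supp (α := α) g).card - 1)) * (supp (α := α) g).card := by
    rw [Finset.card_sigma]
    refine Finset.sum_congr rfl fun g hg => ?_
    rw [Finset.card_product, Finset.offDiag_card, Finset.card_compl]
    congr 1
    conv_rhs => rw [Nat.mul_sub, mul_one]
  rw [← hX, ← Finset.card_univ]
  have hmem : ∀ q : (Σ _ : G, (α × α) × α), q ∈ X ↔ q.1 ∈ inv G ∧ q.1 • q.2.1.1 = q.2.1.1 ∧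
      q.1 • q.2.1.2 = q.2.1.2 ∧ q.2.1.1 ≠ q.2.1.2 ∧ q.1 • q.2.2 ≠ q.2.2 := by
    intro q
    simp only [X, Finset.mem_sigma, Finset.mem_product, Finset.mem_offDiag, Finset.mem_compl,
      mem_supp, not_not]
    tauto
  have hdist : ∀ q : (Σ _ : G, (α × α) × α), q ∈ X → (q.2.1.1 ≠ q.2.1.2 ∧ q.2.1.1 ≠ q.2.2 ∧
      q.2.1.1 ≠ q.1 • q.2.2 ∧ q.2.1.2 ≠ q.2.2 ∧ q.2.1.2 ≠ q.1 • q.2.2 ∧
      q.2.2 ≠ q.1 • q.2.2) := by
    intro q hq
    obtain ⟨h1, h2, h3, h4, h5⟩ := (hmem q).1 hq
    refine ⟨h4, ?_, ?_, ?_, ?_, Ne.symm h5⟩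
    · intro e; exact h5 (e ▸ h2)
    · intro e
      have e' : q.2.2 = q.2.1.1 := by rw [← h2, e, inv_smul_smul' h1]
      exact h5 (by rw [e']; exact h2)
    · intro e; exact h5 (e ▸ h3)
    · intro e
      have e' : q.2.2 = q.2.1.2 := by rw [← h3, e, inv_smul_smul' h1]
      exact h5 (by rw [e']; exact h3)
  refine Finset.card_bij (fun q hq => e4 _ _ _ _ (hdist q hq)) (fun _ _ => Finset.mem_univ _) ?_ ?_
  · rintro ⟨g, ⟨a, b⟩, c⟩ hq ⟨g', ⟨a', b'⟩, c'⟩ hq' e
    have e0 : a = a' := DFunLike.congr_fun e 0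
    have e1 : b = b' := DFunLike.congr_fun e 1
    have e2 : c = c' := DFunLike.congr_fun e 2
    have e3 : g • c = g' • c' := DFunLike.congr_fun e 3
    subst e0
    subst e1
    subst e2
    obtain ⟨h1, h2, h3, -⟩ := (hmem _).1 hq
    obtain ⟨h1', h2', h3', -⟩ := (hmem _).1 hq'
    have : g = g' := four_uniq h (hdist _ hq) (h2.trans h2'.symm) (h3.trans h3'.symm) e3
      (by rw [inv_smul_smul' h1]; change c = g' • g • c; rw [e3, inv_smul_smul' h1'])
    subst this
    rfl
  · intro x _
    have hx : ∀ i j, i ≠ j → x i ≠ x j := fun i j hij e => hij (x.injective e)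
    obtain ⟨g, hg⟩ := h.exists x (e4 (x 0) (x 1) (x 3) (x 2)
      ⟨hx _ _ (by decide), hx _ _ (by decide), hx _ _ (by decide), hx _ _ (by decide),
        hx _ _ (by decide), hx _ _ (by decide)⟩)
    have g0 : g • x 0 = x 0 := hg 0
    have g1 : g • x 1 = x 1 := hg 1
    have g2 : g • x 2 = x 3 := hg 2
    have g3 : g • x 3 = x 2 := hg 3
    have hgi : g ∈ inv G := by
      rw [mem_inv]
      constructor
      · rintro rfl
        rw [one_smul] at g2
        exact hx 2 3 (by decide) g2
      · refine h.uniq (x := x) (fun i => ?_)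
        rw [one_smul, mul_smul]
        fin_cases i
        · exact (congrArg (g • ·) g0).trans g0
        · exact (congrArg (g • ·) g1).trans g1
        · exact (congrArg (g • ·) g2).trans g3
        · exact (congrArg (g • ·) g3).trans g2
    refine ⟨⟨g, (x 0, x 1), x 2⟩, ?_, ?_⟩
    · rw [hmem]
      refine ⟨hgi, g0, g1, hx _ _ (by decide), ?_⟩
      change g • x 2 ≠ x 2
      rw [g2]; exact hx _ _ (by decide)
    · ext i
      fin_cases i
      · rfl
      · rfl
      · rfl
      · exact g2

omit h in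
theorem supp_even {g : G} (hg : g ∈ inv G) : 2 ∣ (supp (α := α) g).card := by
  have h1 : (MulAction.toPerm g : Equiv.Perm α) ^ 2 = 1 := by
    ext a
    rw [sq]
    exact inv_smul_smul' hg a
  have h2 := Equiv.Perm.two_dvd_card_support h1
  have h3 : (MulAction.toPerm g : Equiv.Perm α).support = supp g := by
    ext a
    rw [Equiv.Perm.mem_support, mem_supp]
    rfl
  rwa [h3] at h2

theorem supp_ge {g : G} (hg : g ∈ inv G) : Fintype.card α ≤ (supp (α := α) g).card + 3 := by
  by_contra hcon
  push Not at hcon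
  have h1 : 4 ≤ ((supp (α := α) g)ᶜ).card := by
    rw [Finset.card_compl]
    omega
  obtain ⟨x⟩ : Nonempty (Fin 4 ↪ ((supp (α := α) g)ᶜ : Finset α)) :=
    Function.Embedding.nonempty_of_card_le (by rw [Fintype.card_fin, Fintype.card_coe]; exact h1)
  apply (mem_inv.1 hg).1
  refine h.uniq (x := x.trans (Function.Embedding.subtype _)) (fun i => ?_)
  rw [one_smul]
  have := (x i).2
  rw [Finset.mem_compl, mem_supp, not_not] at this
  exact this

omit h in
theorem supp_le (g : G) : (supp (α := α) g).card ≤ Fintype.card α := Finset.card_le_univ _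

omit h in
theorem supp_conj (k g : G) : (supp (α := α) (k * g * k⁻¹)).card = (supp (α := α) g).card := by
  refine Finset.card_bij' (fun a _ => k⁻¹ • a) (fun a _ => k • a) ?_ ?_ ?_ ?_
  · intro a ha
    rw [mem_supp] at ha ⊢
    intro e
    apply ha
    rw [mul_smul, mul_smul, e, smul_inv_smul]
  · intro a ha
    rw [mem_supp] at ha ⊢
    intro e
    apply ha
    rw [mul_smul, mul_smul, inv_smul_smul] at e
    exact smul_left_cancel _ e
  · intro a _; rw [smul_inv_smul]
  · intro a _; rw [inv_smul_smul]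

omit h in
theorem sum_split {ι : Type*} (I : Finset ι) (s : ι → ℕ) (F : ℕ → ℕ) (u v : ℕ)
    (hs : ∀ g ∈ I, s g = u ∨ s g = v) :
    ∑ g ∈ I, F (s g) = (I.filter (fun g => s g = u)).card * F u +
      (I.filter (fun g => ¬ s g = u)).card * F v := by
  rw [← Finset.sum_filter_add_sum_filter_not I (fun g => s g = u)]
  congr 1
  · rw [Finset.sum_congr rfl (g := fun _ => F u) (fun g hg => by
      rw [(Finset.mem_filter.1 hg).2]), Finset.sum_const, smul_eq_mul]
  · rw [Finset.sum_congr rfl (g := fun _ => F v) (fun g hg => by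
      rw [(hs g (Finset.mem_filter.1 hg).1).resolve_left (Finset.mem_filter.1 hg).2]),
      Finset.sum_const, smul_eq_mul]

/-- **Jordan's theorem** -/
theorem jordan4 (h4 : 4 ≤ Fintype.card α) : Fintype.card α = 4 ∨ Fintype.card α = 5 ∨
    Fintype.card α = 6 ∨ Fintype.card α = 11 := by
  classical
  have hpre := h.pre
  set n := Fintype.card α with hn
  have c1 := count1 (G := G) (α := α) h
  have c2 := count2 (G := G) (α := α) h
  rw [← hn] at c1 c2
  have hN : n.descFactorial 4 = n * (n - 1) * (n - 2) * (n - 3) := by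
    simp only [Nat.descFactorial_succ, Nat.descFactorial_zero, Nat.sub_zero]
    ring
  rw [hN] at c1 c2
  rcases Nat.even_or_odd n with he | ho
  · -- even degree
    have hs : ∀ g ∈ inv G, (supp (α := α) g).card = n ∨ (supp (α := α) g).card = n - 2 := by
      intro g hg
      have h1 := supp_even (α := α) hg
      have h2 := supp_ge h hg
      have h3 := supp_le (α := α) g
      rw [← hn] at h2 h3
      obtain ⟨a, ha⟩ := h1
      obtain ⟨b, hb⟩ := he
      omega
    rw [sum_split (inv G) (fun g => (supp (α := α) g).card) (fun s => s * (s - 2)) n (n - 2) hs] at c1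
    rw [sum_split (inv G) (fun g => (supp (α := α) g).card)
      (fun s => (n - s) * (n - s - 1) * s) n (n - 2) hs] at c2
    generalize ((inv G).filter (fun g => (supp (α := α) g).card = n)).card = A at c1 c2
    generalize ((inv G).filter (fun g => ¬ (supp (α := α) g).card = n)).card = B at c1 c2
    obtain ⟨m, hm⟩ : ∃ m, n = m + 4 := ⟨n - 4, by omega⟩
    rw [hm] at c1 c2
    have e1 : m + 4 - 2 = m + 2 := by omega
    have e2 : m + 4 - 1 = m + 3 := by omega
    have e3 : m + 4 - 3 = m + 1 := by omega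
    have e4 : m + 2 - 2 = m := by omega
    have e5 : m + 4 - (m + 2) = 2 := by omega
    rw [e1, e2, e3, e4] at c1
    rw [e1, e2, e3, e5] at c2
    simp only [Nat.sub_self, zero_mul, mul_zero, zero_add] at c2
    -- B * 2 * (m+2) = N
    have hm2 : m ≤ 2 := by
      by_contra hcon
      push Not at hcon
      have h1 : B * ((m + 2) * m) ≤ (m + 4) * (m + 3) * (m + 2) * (m + 1) := by
        rw [← c1]; exact Nat.le_add_left _ _
      have h2 : 0 < (m + 4) * (m + 3) * (m + 2) * (m + 1) := by positivity
      have h3 : 3 * (B * (m + 2)) ≤ B * ((m + 2) * m) := by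
        have := Nat.mul_le_mul_left (B * (m + 2)) hcon
        calc 3 * (B * (m + 2)) = B * (m + 2) * (2 + 1) := by ring
          _ ≤ B * (m + 2) * m := this
          _ = B * ((m + 2) * m) := by ring
      have h4 : 2 * (B * (m + 2)) = (m + 4) * (m + 3) * (m + 2) * (m + 1) := by
        rw [← c2]; ring
      omega
    have : m ≠ 1 := by
      rintro rfl
      obtain ⟨b, hb⟩ := he
      omega
    omega
  · have hs : ∀ g ∈ inv G, (supp (α := α) g).card = n - 1 ∨ (supp (α := α) g).card = n - 3 := by
      intro g hg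
      have h1 := supp_even (α := α) hg
      have h2 := supp_ge h hg
      have h3 := supp_le (α := α) g
      rw [← hn] at h2 h3
      obtain ⟨a, ha⟩ := h1
      obtain ⟨b, hb⟩ := ho
      omega
    rw [sum_split (inv G) (fun g => (supp (α := α) g).card) (fun s => s * (s - 2)) (n - 1) (n - 3)
      hs] at c1
    rw [sum_split (inv G) (fun g => (supp (α := α) g).card)
      (fun s => (n - s) * (n - s - 1) * s) (n - 1) (n - 3) hs] at c2
    set A := ((inv G).filter (fun g => (supp (α := α) g).card = n - 1)) with hA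
    generalize ((inv G).filter (fun g => ¬ (supp (α := α) g).card = n - 1)).card = B at c1 c2
    obtain ⟨m, hm⟩ : ∃ m, n = m + 5 := ⟨n - 5, by
      obtain ⟨b, hb⟩ := ho
      omega⟩
    have hconjA : ∀ k : G, ∀ g ∈ A, k * g * k⁻¹ ∈ A := by
      intro k g hg
      rw [hA, Finset.mem_filter, mem_inv] at hg ⊢
      obtain ⟨⟨h1, h2⟩, h3⟩ := hg
      refine ⟨⟨?_, ?_⟩, by rw [supp_conj]; exact h3⟩
      · intro e
        apply h1
        have : g = k⁻¹ * (k * g * k⁻¹) * k := by group
        rw [this, e]; group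
      · have : k * g * k⁻¹ * (k * g * k⁻¹) = k * (g * g) * k⁻¹ := by group
        rw [this, h2]; group
    have hAs : ∀ g ∈ A, (supp (α := α) g).card = n - 1 := fun g hg => (Finset.mem_filter.1 hg).2
    clear_value A
    rw [hm] at c1 c2
    have e1 : m + 5 - 2 = m + 3 := by omega
    have e2 : m + 5 - 1 = m + 4 := by omega
    have e3 : m + 5 - 3 = m + 2 := by omega
    have e4 : m + 2 - 2 = m := by omega
    have e5 : m + 5 - (m + 2) = 3 := by omega
    have e6 : m + 5 - (m + 4) = 1 := by omega
    have e7 : m + 4 - 2 = m + 2 := by omega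
    rw [e1, e2, e3, e4, e7] at c1
    rw [e1, e2, e3, e5, e6] at c2
    simp only [Nat.sub_self, zero_mul, mul_zero, zero_add] at c2
    have hm6 : m ≤ 6 := by
      by_contra hcon
      push Not at hcon
      have h1 : B * ((m + 2) * m) ≤ (m + 5) * (m + 4) * (m + 3) * (m + 2) := by
        rw [← c1]; exact Nat.le_add_left _ _
      have h2 : 0 < (m + 5) * (m + 4) * (m + 3) * (m + 2) := by positivity
      have h3 : 7 * (B * (m + 2)) ≤ B * ((m + 2) * m) := by
        have := Nat.mul_le_mul_left (B * (m + 2)) hcon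
        calc 7 * (B * (m + 2)) = B * (m + 2) * (6 + 1) := by ring
          _ ≤ B * (m + 2) * m := this
          _ = B * ((m + 2) * m) := by ring
      have h4 : 6 * (B * (m + 2)) = (m + 5) * (m + 4) * (m + 3) * (m + 2) := by
        rw [← c2]; ring
      omega
    have hme : Even m := by
      obtain ⟨b, hb⟩ := ho
      exact ⟨b - 2, by omega⟩
    interval_cases m
    · omega
    · exact absurd hme (by decide)
    · exfalso
      omega
    · exact absurd hme (by decide)
    · -- n = 9
      exfalso
      have hAc : A.card = 21 := by omega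
      haveI : IsPretransitive G α := by
        have h1 : IsMultiplyPretransitive G α 1 := by
          refine isMultiplyPretransitive_of_le (n := 4) (by norm_num) ?_
          rw [Nat.card_eq_fintype_card]
          exact h4
        exact is_one_pretransitive_iff.1 h1
      -- each `g ∈ A` fixes exactly one point
      let f : α → ℕ := fun a => (A.filter (fun g => g • a = a)).card
      have hsum : ∑ a : α, f a = A.card := by
        have h1 : ∑ a : α, f a = ∑ g ∈ A, (Finset.univ.filter (fun a : α => g • a = a)).card := by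
          simp only [f, Finset.card_filter]
          rw [Finset.sum_comm]
        rw [h1, Finset.card_eq_sum_ones]
        refine Finset.sum_congr rfl fun g hg => ?_
        have h2 : Finset.univ.filter (fun a : α => g • a = a) = (supp g)ᶜ := by
          ext a
          simp [mem_supp]
        rw [h2, Finset.card_compl, hAs g hg, ← hn]
        omega
      have hconst : ∀ a b : α, f a = f b := by
        intro a b
        obtain ⟨k, rfl⟩ := exists_smul_eq G a b
        refine Finset.card_bij' (fun g _ => k * g * k⁻¹) (fun g _ => k⁻¹ * g * k⁻¹⁻¹) ?_ ?_ ?_ ?_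
        · intro g hg
          rw [Finset.mem_filter] at hg ⊢
          refine ⟨hconjA k g hg.1, ?_⟩
          rw [mul_smul, mul_smul, inv_smul_smul, hg.2]
        · intro g hg
          rw [Finset.mem_filter] at hg ⊢
          refine ⟨hconjA k⁻¹ g hg.1, ?_⟩
          rw [inv_inv, mul_smul, mul_smul, hg.2, inv_smul_smul]
        · intro g _
          group
        · intro g _
          group
      have hne : 0 < Fintype.card α := by omega
      obtain ⟨a₀⟩ := Fintype.card_pos_iff.1 hne
      rw [Finset.sum_congr rfl (fun a _ => hconst a a₀), Finset.sum_const, Finset.card_univ, ← hn,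
        hAc, smul_eq_mul, hm] at hsum
      omega
    · exact absurd hme (by decide)
    · omega

end four

theorem Sharp.pretrans [Finite α] {k : ℕ} (h : Sharp k G α) (h1 : 1 ≤ k) (hk : k ≤ Nat.card α) :
    IsPretransitive G α := by
  have hpre := h.pre
  have h2 : IsMultiplyPretransitive G α 1 := isMultiplyPretransitive_of_le (n := k) h1 hk
  exact is_one_pretransitive_iff.1 h2

theorem card_ofStabilizer [Finite α] (a : α) :
    Nat.card (SubMulAction.ofStabilizer G a) + 1 = Nat.card α := by
  classical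
  haveI : Fintype α := Fintype.ofFinite α
  have h1 : Nat.card (SubMulAction.ofStabilizer G a) = Nat.card {x : α // x ≠ a} := rfl
  rw [h1, Nat.card_eq_fintype_card, Nat.card_eq_fintype_card, Fintype.card_subtype_compl,
    Fintype.card_subtype_eq]
  have : 0 < Fintype.card α := Fintype.card_pos_iff.2 ⟨a⟩
  omega

theorem jordan4' [Finite α] (h : Sharp 4 G α) (h4 : 4 ≤ Nat.card α) : Nat.card α = 4 ∨
    Nat.card α = 5 ∨ Nat.card α = 6 ∨ Nat.card α = 11 := by
  classical
  haveI : Fintype α := Fintype.ofFinite α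
  haveI := h.finite h4
  haveI : Fintype G := Fintype.ofFinite G
  rw [Nat.card_eq_fintype_card] at h4 ⊢
  exact jordan4 h h4

theorem jordan5 [Finite α] (h : Sharp 5 G α) (h5 : 5 ≤ Nat.card α) : Nat.card α = 5 ∨
    Nat.card α = 6 ∨ Nat.card α = 7 ∨ Nat.card α = 12 := by
  haveI := h.pretrans (by norm_num) h5
  have hne : 0 < Nat.card α := by omega
  obtain ⟨a⟩ := (Nat.card_pos_iff.1 hne).1
  have h1 := h.stab a
  have h2 := card_ofStabilizer (G := G) a
  have h3 := jordan4' h1 (by omega)
  omega

end Cfsg.Agent.H7.J4
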