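import Cfsg.Agent.H7.Jordan4
import Cfsg.Agent.H7.SimpleCrit

set_option autoImplicit false
set_option linter.style.haveILetI false
set_option linter.unusedSectionVars false

/-! Sharply k-transitive groups, k ≥ 6. -/

namespace Cfsg.Agent.H7.J4

open MulAction

universe u v

variable {G α : Type*} [Group G] [MulAction G α]

theorem no13 [Finite α] (h : Sharp 6 G α) (hn : Nat.card α = 13) : False := by
  classical
  haveI := h.finite (by omega)
  haveI : Fact (Nat.Prime 13) := ⟨by norm_num⟩
  have hG : Nat.card G = 13 * 95040 := by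
    rw [h.card (by omega), hn]
    rfl
  obtain ⟨P⟩ : Nonempty (Sylow 13 G) := inferInstance
  have hP : Nat.card P = 13 := by
    rw [P.card_eq_multiplicity, hG]
    have : (13 * 95040).factorization 13 = 1 := by
      rw [Nat.factorization_mul (by norm_num) (by norm_num), Finsupp.add_apply,
        Nat.Prime.factorization_self (by norm_num),
        Nat.factorization_eq_zero_of_not_dvd (by norm_num)]
    rw [this, pow_one]
  have hfix : ∀ g : G, (∀ a : α, g • a = a) → g = 1 := by
    intro g hg
    haveI : Fintype α := Fintype.ofFinite α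
    obtain ⟨x⟩ : Nonempty (Fin 6 ↪ α) := by
      apply Function.Embedding.nonempty_of_card_le
      rw [Fintype.card_fin, ← Nat.card_eq_fintype_card, hn]
      norm_num
    exact h.uniq (x := x) (fun i => by rw [hg, one_smul])
  -- `P` is transitive
  obtain ⟨a, ha⟩ : ∃ a : α, ∀ b : α, ∃ g ∈ (P : Subgroup G), g • a = b := by
    obtain ⟨ρ, hρ⟩ : ∃ ρ : (P : Subgroup G), ρ ≠ 1 := by
      haveI : Nontrivial (P : Subgroup G) := by
        rw [← Finite.one_lt_card_iff_nontrivial, hP]; norm_num
      exact exists_ne 1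
    obtain ⟨a, ha⟩ : ∃ a : α, (ρ : G) • a ≠ a := by
      by_contra hcon
      push Not at hcon
      exact hρ (Subtype.ext (hfix ρ hcon))
    refine ⟨a, fun b => ?_⟩
    have h1 : Nat.card (orbit (P : Subgroup G) a) ∣ 13 := by
      have h0 : Nat.card (orbit (P : Subgroup G) a) ∣ Nat.card (P : Subgroup G) := by
        rw [Nat.card_congr (orbitEquivQuotientStabilizer (P : Subgroup G) a)]
        exact Subgroup.card_quotient_dvd_card _
      rwa [hP] at h0
    have h2 : Nat.card (orbit (P : Subgroup G) a) ≠ 1 := by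
      intro h2
      rw [Nat.card_eq_one_iff_unique] at h2
      haveI := h2.1
      apply ha
      have := Subsingleton.elim (⟨ρ • a, mem_orbit _ _⟩ : orbit (P : Subgroup G) a)
        ⟨a, mem_orbit_self a⟩
      exact congrArg Subtype.val this
    have h3 : Nat.card (orbit (P : Subgroup G) a) = 13 :=
      ((Nat.dvd_prime (by norm_num)).1 h1).resolve_left h2
    have h4 : orbit (P : Subgroup G) a = Set.univ := by
      rw [Nat.card_coe_set_eq] at h3
      exact Set.eq_of_subset_of_ncard_le (Set.subset_univ _) (by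
        rw [Set.ncard_univ, hn, h3]) (Set.toFinite _)
    have h5 : b ∈ orbit (P : Subgroup G) a := by rw [h4]; trivial
    obtain ⟨g, hg⟩ := h5
    exact ⟨g, g.2, hg⟩
  have hPc : ∀ x ∈ (P : Subgroup G), ∀ y ∈ (P : Subgroup G), x * y = y * x := by
    intro x hx y hy
    haveI := isCyclic_of_prime_card (α := (P : Subgroup G)) hP
    have := (IsCyclic.commGroup (α := (P : Subgroup G))).mul_comm ⟨x, hx⟩ ⟨y, hy⟩
    exact congrArg Subtype.val this
  have hC : Subgroup.centralizer ((P : Subgroup G) : Set G) ≤ P := by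
    intro c hc
    obtain ⟨g, hg, e⟩ := ha (c • a)
    have h1 : g⁻¹ * c = 1 := by
      apply hfix
      intro b
      obtain ⟨k, hk, rfl⟩ := ha b
      have h2 : (g⁻¹ * c) * k = k * (g⁻¹ * c) := by
        have h3 : k * c = c * k := (Subgroup.mem_centralizer_iff.1 hc) k hk
        have h4 : k * g⁻¹ = g⁻¹ * k := hPc k hk g⁻¹ (inv_mem hg)
        rw [← mul_assoc, h4, mul_assoc, mul_assoc, h3]
      rw [← mul_smul, h2, mul_smul, mul_smul, ← e, inv_smul_smul]
    rw [← inv_mul_eq_one.1 h1]
    exact hg
  have hN1 : Nat.card (Subgroup.normalizer ((P : Subgroup G) : Set G)) ∣ 13 * 12 := by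
    have h1 := card_normalizer_dvd (P : Subgroup G) 13 (by norm_num) hP
    have h2 : Nat.card (Subgroup.centralizer ((P : Subgroup G) : Set G)) ∣ 13 := by
      have h0 := Subgroup.card_dvd_of_le hC
      rwa [hP] at h0
    exact h1.trans (Nat.mul_dvd_mul_right h2 12)
  have hN2 : 13 ∣ Nat.card (Subgroup.normalizer ((P : Subgroup G) : Set G)) := by
    have h0 := Subgroup.card_dvd_of_le (Subgroup.le_normalizer (H := (P : Subgroup G)))
    rwa [hP] at h0
  obtain ⟨d, hd⟩ := hN2
  rw [hd] at hN1
  have hd12 : d ∣ 12 := Nat.dvd_of_mul_dvd_mul_left (by norm_num) hN1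
  have hidx := (Subgroup.normalizer ((P : Subgroup G) : Set G)).card_mul_index
  rw [hd, hG, mul_assoc] at hidx
  have hidx' := Nat.eq_of_mul_eq_mul_left (by norm_num : 0 < 13) hidx
  have hmod : (Subgroup.normalizer ((P : Subgroup G) : Set G)).index ≡ 1 [MOD 13] := by
    have h0 := P.card_eq_index_normalizer
    have h1 := card_sylow_modEq_one 13 G
    rw [h0] at h1
    exact h1
  have hdle : d ≤ 12 := Nat.le_of_dvd (by norm_num) hd12
  generalize (Subgroup.normalizer ((P : Subgroup G) : Set G)).index = m at hidx' hmod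
  have hmod' : m % 13 = 1 := hmod
  interval_cases d
  · omega
  · omega
  · omega
  · omega
  · omega
  · revert hd12; decide
  · omega
  · revert hd12; decide
  · revert hd12; decide
  · revert hd12; decide
  · revert hd12; decide
  · revert hd12; decide
  · omega

theorem jordanK : ∀ k : ℕ, 6 ≤ k → ∀ (G : Type u) (α : Type v) [Group G] [MulAction G α] [Finite α],
    Sharp k G α → k ≤ Nat.card α → Nat.card α = k ∨ Nat.card α = k + 1 ∨ Nat.card α = k + 2 := by
  intro k hk
  induction k, hk using Nat.le_induction with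
  | base =>
    intro G α _ _ _ h hn
    haveI := h.pretrans (by norm_num) hn
    obtain ⟨a⟩ := (Nat.card_pos_iff.1 (show 0 < Nat.card α by omega)).1
    have h1 := h.stab a
    have h2 := card_ofStabilizer (G := G) a
    have h3 := jordan5 h1 (by omega)
    have h4 : Nat.card α ≠ 13 := fun e => no13 h e
    omega
  | succ k hk ih =>
    intro G α _ _ _ h hn
    haveI := h.pretrans (by omega) hn
    obtain ⟨a⟩ := (Nat.card_pos_iff.1 (show 0 < Nat.card α by omega)).1
    have h1 := h.stab a
    have h2 := card_ofStabilizer (G := G) a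
    have h3 := ih _ _ h1 (by omega)
    omega

end Cfsg.Agent.H7.J4
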