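import Mathlib

set_option autoImplicit false
set_option linter.style.haveILetI false

/-! Counting conjugacy classes through commuting pairs: extensions of abelian groups. -/

namespace Cfsg.Agent.KGV

open Subgroup

universe u

variable {X : Type u} [Group X]

/-- the split extension has the largest class number -/
theorem class_le_split [Finite X] (V : Subgroup X) [V.Normal]
    (hab : ∀ a ∈ V, ∀ b ∈ V, a * b = b * a) (φ : X ⧸ V →* MulAut ↥V)
    (hφ : ∀ (x : X) (v : ↥V), ((φ (QuotientGroup.mk x) v : ↥V) : X) = x * v * x⁻¹) :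
    Nat.card (ConjClasses X) ≤ Nat.card (ConjClasses (SemidirectProduct ↥V (X ⧸ V) φ)) := by
  classical
  have hfin : Finite (SemidirectProduct ↥V (X ⧸ V) φ) :=
    Finite.of_equiv _ (SemidirectProduct.equivProd (φ := φ)).symm
  have hcard : Nat.card (SemidirectProduct ↥V (X ⧸ V) φ) = Nat.card X := by
    rw [Nat.card_congr (SemidirectProduct.equivProd (φ := φ)), Nat.card_prod,
      mul_comm, ← Subgroup.card_eq_card_quotient_mul_card_subgroup]
  have h1 := card_comm_eq_card_conjClasses_mul_card X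
  have h2 := card_comm_eq_card_conjClasses_mul_card (SemidirectProduct ↥V (X ⧸ V) φ)
  rw [hcard] at h2
  have hpos : 0 < Nat.card X := Nat.card_pos
  refine Nat.le_of_mul_le_mul_right ?_ hpos
  rw [← h1, ← h2]
  -- the injection
  let c : (X ⧸ V) × (X ⧸ V) → X × X := fun q =>
    if h : ∃ p : X × X, Commute p.1 p.2 ∧ (QuotientGroup.mk p.1 : X ⧸ V) = q.1 ∧
      (QuotientGroup.mk p.2 : X ⧸ V) = q.2 then Classical.choose h else (1, 1)
  have hc : ∀ p : X × X, Commute p.1 p.2 →
      Commute (c (QuotientGroup.mk p.1, QuotientGroup.mk p.2)).1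
        (c (QuotientGroup.mk p.1, QuotientGroup.mk p.2)).2 ∧
      (QuotientGroup.mk (c (QuotientGroup.mk p.1, QuotientGroup.mk p.2)).1 : X ⧸ V) =
        QuotientGroup.mk p.1 ∧
      (QuotientGroup.mk (c (QuotientGroup.mk p.1, QuotientGroup.mk p.2)).2 : X ⧸ V) =
        QuotientGroup.mk p.2 := by
    intro p hp
    have h : ∃ p' : X × X, Commute p'.1 p'.2 ∧
      (QuotientGroup.mk p'.1 : X ⧸ V) = (QuotientGroup.mk p.1 : X ⧸ V) ∧
      (QuotientGroup.mk p'.2 : X ⧸ V) = (QuotientGroup.mk p.2 : X ⧸ V) := ⟨p, hp, rfl, rfl⟩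
    have e : c (QuotientGroup.mk p.1, QuotientGroup.mk p.2) = Classical.choose h := by
      simp only [c]
      rw [dif_pos h]
    rw [e]
    exact Classical.choose_spec h
  have hmem : ∀ {x y : X}, (QuotientGroup.mk x : X ⧸ V) = QuotientGroup.mk y → y * x⁻¹ ∈ V := by
    intro x y h
    have h1 : x⁻¹ * y ∈ V := QuotientGroup.eq.1 h
    have h2 := (inferInstance : V.Normal).conj_mem _ h1 x
    have : x * (x⁻¹ * y) * x⁻¹ = y * x⁻¹ := by group
    rwa [this] at h2
  let f : {p : X × X // Commute p.1 p.2} →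
      {p : SemidirectProduct ↥V (X ⧸ V) φ × SemidirectProduct ↥V (X ⧸ V) φ // Commute p.1 p.2} :=
    fun p => ⟨(⟨⟨p.1.1 * (c (QuotientGroup.mk p.1.1, QuotientGroup.mk p.1.2)).1⁻¹,
        hmem (hc p.1 p.2).2.1⟩, QuotientGroup.mk p.1.1⟩,
      ⟨⟨p.1.2 * (c (QuotientGroup.mk p.1.1, QuotientGroup.mk p.1.2)).2⁻¹,
        hmem (hc p.1 p.2).2.2⟩, QuotientGroup.mk p.1.2⟩), by
      obtain ⟨k1, k2, k3⟩ := hc p.1 p.2
      have m1 := hmem k2
      have m2 := hmem k3
      set x₀ := (c (QuotientGroup.mk p.1.1, QuotientGroup.mk p.1.2)).1 with hx₀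
      set y₀ := (c (QuotientGroup.mk p.1.1, QuotientGroup.mk p.1.2)).2 with hy₀
      have hxy : p.1.1 * p.1.2 = p.1.2 * p.1.1 := p.2
      show (⟨_, _⟩ : SemidirectProduct ↥V (X ⧸ V) φ) * ⟨_, _⟩ = ⟨_, _⟩ * ⟨_, _⟩
      refine SemidirectProduct.ext ?_ ?_
      · rw [SemidirectProduct.mul_left, SemidirectProduct.mul_left]
        apply Subtype.ext
        rw [Subgroup.coe_mul, Subgroup.coe_mul, hφ, hφ]
        have k1' : x₀ * y₀ = y₀ * x₀ := k1
        -- `x = v x₀`, `y = w y₀`
        obtain ⟨v, hv⟩ : ∃ v, v = p.1.1 * x₀⁻¹ := ⟨_, rfl⟩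
        obtain ⟨w, hw⟩ : ∃ w, w = p.1.2 * y₀⁻¹ := ⟨_, rfl⟩
        have hv' : p.1.1 = v * x₀ := by rw [hv]; group
        have hw' : p.1.2 = w * y₀ := by rw [hw]; group
        have hvV : v ∈ V := by rw [hv]; exact m1
        have hwV : w ∈ V := by rw [hw]; exact m2
        simp only
        rw [← hv, ← hw, hv', hw']
        rw [hv', hw'] at hxy
        have e1 : v * (x₀ * w * x₀⁻¹) = w * (y₀ * v * y₀⁻¹) := by
          have e2 : v * (x₀ * w * x₀⁻¹) * (x₀ * y₀) = w * (y₀ * v * y₀⁻¹) * (y₀ * x₀) := by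
            calc v * (x₀ * w * x₀⁻¹) * (x₀ * y₀) = v * x₀ * (w * y₀) := by group
              _ = w * y₀ * (v * x₀) := hxy
              _ = _ := by group
          rw [← k1'] at e2
          exact mul_right_cancel e2
        have c1 : ∀ (z t : X), z ∈ V → t ∈ V → v * (z * t * z⁻¹) = v * t := by
          intro z t hz ht
          rw [hab z hz t ht]; group
        have hN : V.Normal := inferInstance
        have e3 : v * x₀ * w * (v * x₀)⁻¹ = x₀ * w * x₀⁻¹ := by
          have : v * x₀ * w * (v * x₀)⁻¹ = v * (x₀ * w * x₀⁻¹) * v⁻¹ := by group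
          rw [this, hab v hvV _ (hN.conj_mem _ hwV x₀)]; group
        have e4 : w * y₀ * v * (w * y₀)⁻¹ = y₀ * v * y₀⁻¹ := by
          have : w * y₀ * v * (w * y₀)⁻¹ = w * (y₀ * v * y₀⁻¹) * w⁻¹ := by group
          rw [this, hab w hwV _ (hN.conj_mem _ hvV y₀)]; group
        rw [e3, e4]
        exact e1
      · rw [SemidirectProduct.mul_right, SemidirectProduct.mul_right]
        simp only
        rw [← QuotientGroup.mk_mul, ← QuotientGroup.mk_mul, hxy]⟩
  have hinj : Function.Injective f := by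
    intro p p' h
    have h0 := congrArg Subtype.val h
    have h1 : (f p).1.1 = (f p').1.1 := by rw [h]
    have h2 : (f p).1.2 = (f p').1.2 := by rw [h]
    have a1 : (QuotientGroup.mk p.1.1 : X ⧸ V) = QuotientGroup.mk p'.1.1 :=
      congrArg SemidirectProduct.right h1
    have a2 : (QuotientGroup.mk p.1.2 : X ⧸ V) = QuotientGroup.mk p'.1.2 :=
      congrArg SemidirectProduct.right h2
    have b1 : p.1.1 * (c (QuotientGroup.mk p.1.1, QuotientGroup.mk p.1.2)).1⁻¹ =
        p'.1.1 * (c (QuotientGroup.mk p'.1.1, QuotientGroup.mk p'.1.2)).1⁻¹ :=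
      congrArg Subtype.val (congrArg SemidirectProduct.left h1)
    have b2 : p.1.2 * (c (QuotientGroup.mk p.1.1, QuotientGroup.mk p.1.2)).2⁻¹ =
        p'.1.2 * (c (QuotientGroup.mk p'.1.1, QuotientGroup.mk p'.1.2)).2⁻¹ :=
      congrArg Subtype.val (congrArg SemidirectProduct.left h2)
    rw [a1, a2] at b1 b2
    exact Subtype.ext (Prod.ext (mul_right_cancel b1) (mul_right_cancel b2))
  exact Nat.card_le_card_of_injective f hinj

end Cfsg.Agent.KGV
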