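import Mathlib

set_option autoImplicit false
set_option linter.style.haveILetI false

/-! `k(GV) = ∑ k(C_G(s))` for coprime actions on abelian groups. -/

namespace Cfsg.Agent.KGV

open Subgroup

universe u

/-- the two-variable coprime lemma -/
theorem coprime_count {V : Type u} [CommGroup V] [Finite V] {Γ : Type u} [Group Γ] [Finite Γ]
    [MulDistribMulAction Γ V] (a b : Γ)
    (hcop : (Nat.card V).Coprime (Nat.card ↥(closure ({a, b} : Set Γ)))) :
    Nat.card {p : V × V // p.1 * (a • p.2) = p.2 * (b • p.1)} =
      Nat.card V * Nat.card {v : V // a • v = v ∧ b • v = v} := by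
  classical
  haveI : Fintype V := Fintype.ofFinite _
  set H : Subgroup Γ := closure ({a, b} : Set Γ) with hH
  haveI : Fintype ↥H := Fintype.ofFinite _
  have haH : a ∈ H := subset_closure (by simp)
  have hbH : b ∈ H := subset_closure (by simp)
  -- the homomorphism `ψ`
  let ψ : V × V →* V :=
    { toFun := fun p => p.1 * (a • p.2) * (p.2 * (b • p.1))⁻¹
      map_one' := by simp
      map_mul' := fun p q => by
        simp only [Prod.fst_mul, Prod.snd_mul, smul_mul']
        simp only [mul_inv]
        ac_rfl }
  let e : V →* V :=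
    { toFun := fun v => ∏ h : H, (h : Γ) • v
      map_one' := by simp
      map_mul' := fun v w => by simp only [smul_mul', Finset.prod_mul_distrib] }
  have he : ∀ v, e v = ∏ h : H, (h : Γ) • v := fun _ => rfl
  have hψ : ∀ p, ψ p = p.1 * (a • p.2) * (p.2 * (b • p.1))⁻¹ := fun _ => rfl
  -- `e` is invariant
  have e_inv : ∀ (h : Γ), h ∈ H → ∀ v, e (h • v) = e v := by
    intro h hh v
    rw [he, he]
    refine Fintype.prod_equiv (Equiv.mulRight (⟨h, hh⟩ : H)) _ _ (fun x => ?_)
    simp [mul_smul]
  have e_fix : ∀ (h : Γ), h ∈ H → ∀ v, h • e v = e v := by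
    intro h hh v
    rw [he, Finset.smul_prod']
    refine Fintype.prod_equiv (Equiv.mulLeft (⟨h, hh⟩ : H)) _ _ (fun x => ?_)
    simp [mul_smul]
  have fixH : ∀ v : V, a • v = v → b • v = v → ∀ h ∈ H, h • v = v := by
    intro v h1 h2 h hh
    induction hh using Subgroup.closure_induction with
    | mem x hx =>
      rcases hx with rfl | rfl
      · exact h1
      · exact h2
    | one => exact one_smul _ _
    | mul x y _ _ hx hy => rw [mul_smul, hy, hx]
    | inv x _ hx =>
      rw [inv_smul_eq_iff]; exact hx.symm
  -- range of `e`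
  have hrange : ∀ v : V, (a • v = v ∧ b • v = v) ↔ v ∈ e.range := by
    intro v
    constructor
    · rintro ⟨h1, h2⟩
      have h3 : ∀ w ∈ zpowers v, e w = w ^ Nat.card H := by
        rintro w ⟨n, rfl⟩
        rw [he]
        have : ∀ h : H, (h : Γ) • (v ^ n) = v ^ n := fun h => by
          rw [smul_zpow', fixH v h1 h2 h h.2]
        rw [Finset.prod_congr rfl fun h _ => this h, Finset.prod_const, Finset.card_univ,
          ← Nat.card_eq_fintype_card]
      -- `v = (v^k)^|H|`
      have h4 : (orderOf v).Coprime (Nat.card H) :=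
        Nat.Coprime.coprime_dvd_left (orderOf_dvd_natCard v) hcop
      obtain ⟨m, hm⟩ := exists_pow_eq_self_of_coprime h4.symm
      refine ⟨v ^ m, ?_⟩
      rw [h3 _ ⟨m, by simp⟩, ← pow_mul, mul_comm, pow_mul]
      exact hm
    · rintro ⟨w, rfl⟩
      exact ⟨e_fix a haH w, e_fix b hbH w⟩
  -- kernel of `e`
  have hI : ∀ h ∈ H, ∀ v : V, v * (h • v)⁻¹ ∈ ψ.range := by
    intro h hh
    induction hh using Subgroup.closure_induction with
    | mem x hx =>
      intro v
      rcases hx with rfl | rfl
      · refine ⟨(1, v⁻¹), ?_⟩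
        rw [hψ]; simp [mul_comm]
      · refine ⟨(v, 1), ?_⟩
        rw [hψ]; simp
    | one => intro v; simp
    | mul x y _ _ hx hy =>
      intro v
      have := mul_mem (hy v) (hx (y • v))
      rw [mul_smul]
      convert this using 1
      group
    | inv x _ hx =>
      intro v
      have := inv_mem (hx (x⁻¹ • v))
      rw [smul_inv_smul] at this
      convert this using 1
      group
  have hker : ψ.range = e.ker := by
    apply le_antisymm
    · rintro _ ⟨p, rfl⟩
      rw [MonoidHom.mem_ker, hψ, map_mul, map_mul, map_inv, map_mul, e_inv a haH, e_inv b hbH,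
        mul_comm (e p.2), mul_inv_cancel]
    · intro v hv
      rw [MonoidHom.mem_ker, he] at hv
      have h1 : v ^ Nat.card H ∈ ψ.range := by
        have h2 : ∏ h : H, v * ((h : Γ) • v)⁻¹ = v ^ Nat.card H := by
          rw [Finset.prod_mul_distrib, Finset.prod_inv_distrib, hv, inv_one, mul_one,
            Finset.prod_const, Finset.card_univ, ← Nat.card_eq_fintype_card]
        rw [← h2]
        exact prod_mem fun h _ => hI h h.2 v
      have h4 : (orderOf v).Coprime (Nat.card H) :=
        Nat.Coprime.coprime_dvd_left (orderOf_dvd_natCard v) hcop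
      obtain ⟨m, hm⟩ := exists_pow_eq_self_of_coprime h4.symm
      rw [← hm]
      exact pow_mem h1 m
  -- counting
  have c1 : Nat.card ψ.ker * Nat.card ψ.range = Nat.card V * Nat.card V := by
    rw [← Nat.card_prod V V, ← Subgroup.card_mul_index ψ.ker, Subgroup.index_ker]
  have c2 : Nat.card e.ker * Nat.card e.range = Nat.card V := by
    rw [← Subgroup.card_mul_index e.ker, Subgroup.index_ker]
  have c3 : Nat.card {p : V × V // p.1 * (a • p.2) = p.2 * (b • p.1)} = Nat.card ψ.ker := by
    refine Nat.card_congr (Equiv.subtypeEquivRight fun p => ?_)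
    rw [MonoidHom.mem_ker, hψ, mul_inv_eq_one]
  have c4 : Nat.card {v : V // a • v = v ∧ b • v = v} = Nat.card e.range :=
    Nat.card_congr (Equiv.subtypeEquivRight hrange)
  rw [c3, c4]
  rw [hker] at c1
  have hpos : 0 < Nat.card e.ker := Nat.card_pos
  refine Nat.eq_of_mul_eq_mul_right hpos ?_
  calc Nat.card ψ.ker * Nat.card e.ker = Nat.card V * Nat.card V := c1
    _ = Nat.card V * (Nat.card e.ker * Nat.card e.range) := by rw [c2]
    _ = _ := by ring

end Cfsg.Agent.KGV
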