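import Cfsg.Agent.H7.KGV2

set_option autoImplicit false
set_option linter.style.haveILetI false

/-! `k(GV) = ∑ k(C_G(s))` for coprime actions on abelian groups. -/

namespace Cfsg.Agent.KGV

open Subgroup

universe u

variable {X : Type u} [Group X] [Finite X]

/-- number of commuting pairs of `G ⊓ C(v)` -/
noncomputable def cmv (G : Subgroup X) (v : X) : ℕ :=
  Nat.card {p : X × X // p.1 ∈ G ∧ p.2 ∈ G ∧ p.1 * p.2 = p.2 * p.1 ∧ p.1 * v = v * p.1 ∧
    p.2 * v = v * p.2}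

theorem cmv_eq (G : Subgroup X) (v : X) :
    cmv G v = Nat.card (ConjClasses ↥(G ⊓ centralizer ({v} : Set X))) *
      Nat.card ↥(G ⊓ centralizer ({v} : Set X)) := by
  rw [← card_comm_eq_card_conjClasses_mul_card, cmv]
  have hmem : ∀ x : X, x ∈ G ⊓ centralizer ({v} : Set X) ↔ x ∈ G ∧ x * v = v * x := by
    intro x
    rw [Subgroup.mem_inf, mem_centralizer_singleton_iff]
  refine Nat.card_congr
    { toFun := fun p => ⟨(⟨p.1.1, (hmem _).2 ⟨p.2.1, p.2.2.2.2.1⟩⟩,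
        ⟨p.1.2, (hmem _).2 ⟨p.2.2.1, p.2.2.2.2.2⟩⟩), Subtype.ext p.2.2.2.1⟩
      invFun := fun p => ⟨(p.1.1, p.1.2), ((hmem _).1 p.1.1.2).1, ((hmem _).1 p.1.2.2).1,
        congrArg Subtype.val p.2, ((hmem _).1 p.1.1.2).2, ((hmem _).1 p.1.2.2).2⟩
      left_inv := fun p => rfl
      right_inv := fun p => rfl }

theorem conj_mul_eq {a v g : X} (h : a * v = v * a) :
    (g * a * g⁻¹) * (g * v * g⁻¹) = (g * v * g⁻¹) * (g * a * g⁻¹) := by
  calc (g * a * g⁻¹) * (g * v * g⁻¹) = g * (a * v) * g⁻¹ := by group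
    _ = g * (v * a) * g⁻¹ := by rw [h]
    _ = _ := by group

theorem cmv_le_conj (G : Subgroup X) (v : X) {g : X} (hg : g ∈ G) :
    cmv G v ≤ cmv G (g * v * g⁻¹) := by
  refine Nat.card_le_card_of_injective
    (fun p => ⟨(g * p.1.1 * g⁻¹, g * p.1.2 * g⁻¹),
      mul_mem (mul_mem hg p.2.1) (inv_mem hg), mul_mem (mul_mem hg p.2.2.1) (inv_mem hg),
      conj_mul_eq p.2.2.2.1, conj_mul_eq p.2.2.2.2.1, conj_mul_eq p.2.2.2.2.2⟩) ?_
  intro p q h
  have h1 := congrArg (fun x => (Subtype.val x).1) h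
  have h2 := congrArg (fun x => (Subtype.val x).2) h
  simp only at h1 h2
  exact Subtype.ext (Prod.ext (mul_left_cancel (mul_right_cancel h1))
    (mul_left_cancel (mul_right_cancel h2)))

theorem cmv_conj (G : Subgroup X) (v : X) {g : X} (hg : g ∈ G) :
    cmv G (g * v * g⁻¹) = cmv G v := by
  refine le_antisymm ?_ (cmv_le_conj G v hg)
  have := cmv_le_conj G (g * v * g⁻¹) (inv_mem hg)
  have e : g⁻¹ * (g * v * g⁻¹) * g⁻¹⁻¹ = v := by group
  rwa [e] at this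

theorem orbit_count (V G : Subgroup X) [V.Normal] {s : X} (hs : s ∈ V) :
    Nat.card {v : ↥V // ∃ g ∈ G, g * (v : X) * g⁻¹ = s} *
      Nat.card ↥(G ⊓ centralizer ({s} : Set X)) = Nat.card G := by
  have hmem : ∀ x : X, x ∈ G ⊓ centralizer ({s} : Set X) ↔ x ∈ G ∧ x * s = s * x := by
    intro x
    rw [Subgroup.mem_inf, mem_centralizer_singleton_iff]
  rw [← Nat.card_prod]
  choose g hg hgs using fun v : {v : ↥V // ∃ g ∈ G, g * (v : X) * g⁻¹ = s} => v.2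
  refine Nat.card_congr (Equiv.ofBijective
    (fun p : {v : ↥V // ∃ g ∈ G, g * (v : X) * g⁻¹ = s} × ↥(G ⊓ centralizer ({s} : Set X)) =>
      (⟨(p.2 : X) * g p.1, mul_mem ((hmem _).1 p.2.2).1 (hg _)⟩ : ↥G)) ⟨?_, ?_⟩)
  · rintro ⟨v, d⟩ ⟨v', d'⟩ h
    have h1 : (d : X) * g v = d' * g v' := congrArg Subtype.val h
    have key : ∀ (v : {v : ↥V // ∃ g ∈ G, g * (v : X) * g⁻¹ = s})
        (d : ↥(G ⊓ centralizer ({s} : Set X))),
        ((d : X) * g v)⁻¹ * s * ((d : X) * g v) = ((v : ↥V) : X) := by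
      intro v d
      have e1 := ((hmem _).1 d.2).2
      have e2 := hgs v
      calc ((d : X) * g v)⁻¹ * s * ((d : X) * g v) = (g v)⁻¹ * ((d : X)⁻¹ * (s * d)) * g v := by group
        _ = (g v)⁻¹ * s * g v := by rw [← e1]; group
        _ = (g v)⁻¹ * (g v * ((v : ↥V) : X) * (g v)⁻¹) * g v := by rw [e2]
        _ = _ := by group
    have hv : v = v' := by
      apply Subtype.ext
      apply Subtype.ext
      rw [← key v d, ← key v' d', h1]
    subst hv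
    exact Prod.ext rfl (Subtype.ext (mul_right_cancel h1))
  · rintro ⟨x, hx⟩
    have hv : x⁻¹ * s * x ∈ V := by
      have := (inferInstance : V.Normal).conj_mem s hs x⁻¹
      simpa using this
    have hv2 : ∃ g ∈ G, g * ((⟨x⁻¹ * s * x, hv⟩ : ↥V) : X) * g⁻¹ = s :=
      ⟨x, hx, by simp only; group⟩
    have e2 := hgs ⟨⟨x⁻¹ * s * x, hv⟩, hv2⟩
    have e3 := hg ⟨⟨x⁻¹ * s * x, hv⟩, hv2⟩
    refine ⟨(⟨⟨x⁻¹ * s * x, hv⟩, hv2⟩, ⟨x * (g ⟨⟨x⁻¹ * s * x, hv⟩, hv2⟩)⁻¹,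
      (hmem _).2 ⟨mul_mem hx (inv_mem e3), ?_⟩⟩), ?_⟩
    · simp only at e2
      set y := g ⟨⟨x⁻¹ * s * x, hv⟩, hv2⟩ with hy
      calc x * y⁻¹ * s = x * y⁻¹ * (y * (x⁻¹ * s * x) * y⁻¹) := by rw [e2]
        _ = _ := by group
    · apply Subtype.ext
      simp only
      group

/-- `∑_v |comm pairs of C_G(v)| = |G| ∑_s k(C_G(s))` -/
theorem sum_cmv (V G : Subgroup X) [V.Normal] [Fintype ↥V] (S : Finset X) (hSV : ∀ s ∈ S, s ∈ V)
    (hrep : ∀ v ∈ V, ∃! s, s ∈ S ∧ ∃ g ∈ G, g * v * g⁻¹ = s) :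
    ∑ v : ↥V, cmv G (v : X) =
      Nat.card G * ∑ s ∈ S, Nat.card (ConjClasses ↥(G ⊓ centralizer ({s} : Set X))) := by
  classical
  choose rep hr hr2 using fun v : ↥V => hrep v v.2
  simp only at hr hr2
  rw [← Finset.sum_fiberwise_of_maps_to (s := (Finset.univ : Finset ↥V)) (t := S) (g := rep)
    (fun v _ => (hr v).1), Finset.mul_sum]
  refine Finset.sum_congr rfl fun s hs => ?_
  have h1 : ∀ v ∈ Finset.univ.filter (fun v : ↥V => rep v = s), cmv G (v : X) = cmv G s := by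
    intro v hv
    rw [Finset.mem_filter] at hv
    obtain ⟨g, hg, e⟩ := (hr v).2
    rw [hv.2] at e
    rw [← e, cmv_conj G _ hg]
  rw [Finset.sum_congr rfl h1, Finset.sum_const, smul_eq_mul, cmv_eq]
  have h2 : (Finset.univ.filter (fun v : ↥V => rep v = s)).card =
      Nat.card {v : ↥V // ∃ g ∈ G, g * (v : X) * g⁻¹ = s} := by
    rw [← Fintype.card_subtype, ← Nat.card_eq_fintype_card]
    refine Nat.card_congr (Equiv.subtypeEquivRight fun v => ?_)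
    constructor
    · rintro rfl
      exact (hr v).2
    · intro h
      exact (hr2 v s ⟨hs, h⟩).symm
  rw [h2]
  have h3 := orbit_count V G (hSV s hs)
  rw [← h3]
  ring

/-- the commuting pairs of `X = VG` -/
theorem comm_pairs (V G : Subgroup X) [V.Normal] [Fintype ↥V]
    (hab : ∀ a ∈ V, ∀ b ∈ V, a * b = b * a)
    (hGV : Subgroup.IsComplement' V G) (hcop : (Nat.card V).Coprime (Nat.card G)) :
    Nat.card {p : X × X // Commute p.1 p.2} = Nat.card V * ∑ v : ↥V, cmv G (v : X) := by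
  classical
  letI : CommGroup ↥V := { (inferInstance : Group ↥V) with
    mul_comm := fun a b => Subtype.ext (hab a a.2 b b.2) }
  letI : MulDistribMulAction ↥G ↥V := MulDistribMulAction.compHom ↥V
    ((MulAut.conjNormal (H := V)).comp G.subtype)
  have hact : ∀ (g : ↥G) (v : ↥V), ((g • v : ↥V) : X) = g * v * (g : X)⁻¹ := fun g v => rfl
  have hN : V.Normal := inferInstance
  -- decomposition of `X`
  have hbij : Function.Bijective (fun x : ↥V × ↥G => (x.1 : X) * x.2) := hGV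
  have hdec : ∀ {v w a b : X}, v ∈ V → w ∈ V → a ∈ G → b ∈ G → v * a = w * b → v = w ∧ a = b := by
    intro v w a b hv hw ha hb h
    have := hbij.1 (a₁ := (⟨v, hv⟩, ⟨a, ha⟩)) (a₂ := (⟨w, hw⟩, ⟨b, hb⟩)) h
    have h1 := congrArg Prod.fst this
    have h2 := congrArg Prod.snd this
    exact ⟨congrArg Subtype.val h1, congrArg Subtype.val h2⟩
  have hcomm : ∀ {v w a b : X}, v ∈ V → w ∈ V → a ∈ G → b ∈ G →
      (v * a * (w * b) = w * b * (v * a) ↔
        a * b = b * a ∧ v * (a * w * a⁻¹) = w * (b * v * b⁻¹)) := by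
    intro v w a b hv hw ha hb
    have e1 : v * a * (w * b) = v * (a * w * a⁻¹) * (a * b) := by group
    have e2 : w * b * (v * a) = w * (b * v * b⁻¹) * (b * a) := by group
    rw [e1, e2]
    constructor
    · intro h
      have := hdec (mul_mem hv (hN.conj_mem w hw a)) (mul_mem hw (hN.conj_mem v hv b))
        (mul_mem ha hb) (mul_mem hb ha) h
      exact ⟨this.2, this.1⟩
    · rintro ⟨h1, h2⟩
      rw [h1, h2]
  let e0 : ↥V × ↥G ≃ X := Equiv.ofBijective (fun x => (x.1 : X) * x.2) hbij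
  -- regroup
  have c1 : Nat.card {p : X × X // Commute p.1 p.2} =
      Nat.card (Σ q : {q : ↥G × ↥G // q.1 * q.2 = q.2 * q.1},
        {r : ↥V × ↥V // r.1 * (q.1.1 • r.2) = r.2 * (q.1.2 • r.1)}) := by
    symm
    refine Nat.card_congr (Equiv.ofBijective
      (fun t => ⟨(((t.2.1.1 : ↥V) : X) * (t.1.1.1 : X), ((t.2.1.2 : ↥V) : X) * (t.1.1.2 : X)), ?_⟩)
      ⟨?_, ?_⟩)
    · refine (hcomm t.2.1.1.2 t.2.1.2.2 t.1.1.1.2 t.1.1.2.2).2 ⟨congrArg Subtype.val t.1.2, ?_⟩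
      exact congrArg Subtype.val t.2.2
    · rintro ⟨⟨⟨a, b⟩, hab'⟩, ⟨⟨v, w⟩, hvw⟩⟩ ⟨⟨⟨a', b'⟩, hab2⟩, ⟨⟨v', w'⟩, hvw'⟩⟩ h
      have h0 := congrArg Subtype.val h
      simp only [Prod.mk.injEq] at h0
      obtain ⟨k1, k2⟩ := hdec v.2 v'.2 a.2 a'.2 h0.1
      obtain ⟨k3, k4⟩ := hdec w.2 w'.2 b.2 b'.2 h0.2
      obtain rfl : v = v' := Subtype.ext k1
      obtain rfl : a = a' := Subtype.ext k2
      obtain rfl : w = w' := Subtype.ext k3
      obtain rfl : b = b' := Subtype.ext k4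
      rfl
    · rintro ⟨⟨x, y⟩, hxy⟩
      obtain ⟨⟨v, a⟩, h1⟩ := hbij.2 x
      obtain ⟨⟨w, b⟩, h2⟩ := hbij.2 y
      simp only at h1 h2
      have h3 : (v : X) * a * (w * b) = w * b * (v * a) := by
        rw [h1, h2]; exact hxy
      obtain ⟨h4, h5⟩ := (hcomm v.2 w.2 a.2 b.2).1 h3
      refine ⟨⟨⟨(⟨a, a.2⟩, ⟨b, b.2⟩), Subtype.ext h4⟩, ⟨(⟨v, v.2⟩, ⟨w, w.2⟩), Subtype.ext h5⟩⟩, ?_⟩
      exact Subtype.ext (Prod.ext h1 h2)
  have c2 : ∀ q : {q : ↥G × ↥G // q.1 * q.2 = q.2 * q.1},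
      Nat.card {r : ↥V × ↥V // r.1 * (q.1.1 • r.2) = r.2 * (q.1.2 • r.1)} =
        Nat.card V * Nat.card {v : ↥V // q.1.1 • v = v ∧ q.1.2 • v = v} := fun q =>
    coprime_count q.1.1 q.1.2 (hcop.coprime_dvd_right (Subgroup.card_subgroup_dvd_card _))
  haveI : Fintype {q : ↥G × ↥G // q.1 * q.2 = q.2 * q.1} := Fintype.ofFinite _
  rw [c1, Nat.card_sigma, Finset.sum_congr rfl fun q _ => c2 q, ← Finset.mul_sum]
  congr 1
  rw [← Nat.card_sigma]
  have c3 : ∀ v : ↥V, cmv G (v : X) = Nat.card {q : {q : ↥G × ↥G // q.1 * q.2 = q.2 * q.1} //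
      q.1.1 • v = v ∧ q.1.2 • v = v} := by
    intro v
    rw [cmv]
    have key : ∀ a : ↥G, a • v = v ↔ (a : X) * v = v * a := by
      intro a
      rw [← Subtype.coe_inj, hact, mul_inv_eq_iff_eq_mul]
    refine Nat.card_congr
      { toFun := fun p => ⟨⟨(⟨p.1.1, p.2.1⟩, ⟨p.1.2, p.2.2.1⟩), Subtype.ext p.2.2.2.1⟩,
          (key _).2 p.2.2.2.2.1, (key _).2 p.2.2.2.2.2⟩
        invFun := fun q => ⟨(q.1.1.1, q.1.1.2), q.1.1.1.2, q.1.1.2.2, congrArg Subtype.val q.1.2,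
          (key _).1 q.2.1, (key _).1 q.2.2⟩
        left_inv := fun p => rfl
        right_inv := fun q => rfl }
  rw [Finset.sum_congr rfl fun v _ => c3 v, ← Nat.card_sigma]
  refine Nat.card_congr
    { toFun := fun t => ⟨t.2.1, ⟨t.1, t.2.2⟩⟩
      invFun := fun t => ⟨t.2.1, ⟨t.1, t.2.2⟩⟩
      left_inv := fun t => rfl
      right_inv := fun t => rfl }

/-- **`k(GV) = ∑ k(C_G(s))`** -/
theorem class_sum (V : Subgroup X) [V.Normal] (hab : ∀ a ∈ V, ∀ b ∈ V, a * b = b * a)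
    (G : Subgroup X) (hGV : Subgroup.IsComplement' V G)
    (hcop : (Nat.card V).Coprime (Nat.card G)) (S : Finset X) (hSV : ∀ s ∈ S, s ∈ V)
    (hrep : ∀ v ∈ V, ∃! s, s ∈ S ∧ ∃ g ∈ G, g * v * g⁻¹ = s) :
    Nat.card (ConjClasses X) =
      ∑ s ∈ S, Nat.card (ConjClasses ↥(G ⊓ Subgroup.centralizer ({s} : Set X))) := by
  haveI : Fintype ↥V := Fintype.ofFinite _
  have h1 := card_comm_eq_card_conjClasses_mul_card X
  rw [comm_pairs V G hab hGV hcop, sum_cmv V G S hSV hrep] at h1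
  have h2 := hGV.card_mul_card
  have hpos : 0 < Nat.card X := Nat.card_pos
  refine Nat.eq_of_mul_eq_mul_right hpos ?_
  rw [← h1, ← h2]
  ring

end Cfsg.Agent.KGV
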