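import Cfsg.Agent.H7.KGV6

set_option autoImplicit false
set_option linter.style.haveILetI false
set_option linter.unusedSectionVars false

/-! The abelian-stabilizer criterion. -/

namespace Cfsg.Agent.KGV

open Subgroup Cfsg Cfsg.Agent.H3 Cfsg.Agent.H11 Cfsg.Agent.H27
open scoped ComplexConjugate

universe u

variable {X : Type u} [Group X] [Fintype X]

/-- the twisted average of a character over `v ^ m C` -/
noncomputable def twist (C : Subgroup X) [Fintype ↥C] (v : X) (χ : X → ℂ) (ψ : ℕ → ↥C → ℂ) (m : ℕ) : ℂ :=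
  (Nat.card C : ℂ)⁻¹ * ∑ c : ↥C, χ (v ^ m * (c : X)) * ψ m c

open Classical in
theorem twist_galSeq_bas {p : ℕ} (hp : p ≠ 0) (C : Subgroup X) [Fintype ↥C] {v : X} (hv : v ^ p = 1)
    (hC : ∀ c ∈ C, c * v = v * c) {χ : X → ℂ} (hχ : IsCharacter X χ)
    (hab : ∀ a ∈ C, ∀ b ∈ C, a * b = b * a) (a : ℕ) (φ : ↥C →* ℂˣ) :
    IsGalSeq p (twist C v χ (bas p a φ)) := by
  let Z : Subgroup X := zpowers v
  have hcomm : ∀ z ∈ Z, ∀ c ∈ C, z * c = c * z := by
    intro z hz c hc
    obtain ⟨k, rfl⟩ := mem_zpowers_iff.1 hz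
    exact ((show Commute c v from hC c hc).zpow_right k).symm
  let f : ↥Z × ↥C →* X :=
    { toFun := fun x => (x.1 : X) * (x.2 : X)
      map_one' := by simp
      map_mul' := fun x y => by
        show ((x.1 : X) * (y.1 : X)) * ((x.2 : X) * (y.2 : X)) =
          ((x.1 : X) * (x.2 : X)) * ((y.1 : X) * (y.2 : X))
        have := hcomm _ y.1.2 _ x.2.2
        rw [mul_assoc, ← mul_assoc (y.1 : X), this]
        group }
  let l : ↥Z × ↥C →* ℂˣ := (φ.comp (MonoidHom.snd Z C))⁻¹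
  let N : Subgroup (↥Z × ↥C) := (MonoidHom.fst Z C).ker
  let y : ↥Z × ↥C := (⟨v, mem_zpowers v⟩, 1)
  have hy : y ^ p = 1 := by
    apply Prod.ext
    · exact Subtype.ext hv
    · exact one_pow p
  have habD : ∀ a b : (↥Z × ↥C) ⧸ N, a * b = b * a := by
    intro a b
    obtain ⟨a, rfl⟩ := QuotientGroup.mk_surjective a
    obtain ⟨b, rfl⟩ := QuotientGroup.mk_surjective b
    rw [← QuotientGroup.mk_mul, ← QuotientGroup.mk_mul]
    congr 1
    apply Prod.ext
    · apply Subtype.ext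
      obtain ⟨k, hk⟩ := mem_zpowers_iff.1 a.1.2
      obtain ⟨j, hj⟩ := mem_zpowers_iff.1 b.1.2
      show (a.1 : X) * (b.1 : X) = (b.1 : X) * (a.1 : X)
      rw [← hk, ← hj, ← zpow_add, ← zpow_add, add_comm]
    · exact Subtype.ext (hab _ a.2.2 _ b.2.2)
  have h1 := pair_galSeq (N := N) habD (isChar_comp hχ f) (linIrr l).2 y hp hy
  have h2 : IsGalSeq p (fun m => zt p ^ (a * m)) := by
    refine ⟨Polynomial.X ^ a, fun m => ?_⟩
    simp only [map_pow, Polynomial.aeval_X]
    rw [← pow_mul, mul_comm]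
    rfl
  have h3 : twist C v χ (bas p a φ) = fun m => (zt p ^ (a * m)) *
      av' N (y ^ m) (fun g => χ (f g) * conj ((linIrr l : ↥Z × ↥C → ℂ) g)) := by
    funext m
    letI : Fintype ↥N := Fintype.ofFinite _
    rw [av'_eq_sum, twist]
    let e : ↥C ≃ ↥N :=
      { toFun := fun c => ⟨(1, c), rfl⟩
        invFun := fun n => n.1.2
        left_inv := fun c => rfl
        right_inv := fun n => by
          apply Subtype.ext
          apply Prod.ext
          · exact n.2.symm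
          · rfl }
    rw [← Nat.card_congr e, ← Equiv.sum_comp e (fun n : ↥N => χ (f ((n : ↥Z × ↥C) * y ^ m)) *
      conj ((linIrr l : ↥Z × ↥C → ℂ) ((n : ↥Z × ↥C) * y ^ m))),
      mul_left_comm (zt p ^ (a * m))]
    congr 1
    rw [Finset.mul_sum]
    refine Finset.sum_congr rfl fun c _ => ?_
    have e1 : ((e c : ↥Z × ↥C) * y ^ m) = (⟨v, mem_zpowers v⟩ ^ m, c) := by
      apply Prod.ext
      · show (1 : ↥Z) * (y ^ m).1 = _
        rw [one_mul]; rfl
      · show c * (y ^ m).2 = c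
        have : (y ^ m).2 = (1 : ↥C) ^ m := rfl
        rw [this, one_pow, mul_one]
    rw [e1, linIrr_apply]
    have e2 : f (⟨v, mem_zpowers v⟩ ^ m, c) = v ^ m * (c : X) := rfl
    have e3 : l (⟨v, mem_zpowers v⟩ ^ m, c) = (φ c)⁻¹ := rfl
    rw [e2, e3, bas]
    have e4 : conj (((φ c)⁻¹ : ℂˣ) : ℂ) = (φ c : ℂ) := by
      have h5 : (φ c : ℂ) ^ Nat.card C = 1 := by
        rw [← Units.val_pow_eq_pow_val, ← map_pow, pow_card_eq_one', map_one, Units.val_one]
      have h6 : ‖(φ c : ℂ)‖ = 1 := Complex.norm_eq_one_of_pow_eq_one h5 Nat.card_pos.ne'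
      rw [Units.val_inv_eq_inv_val, Complex.inv_def, Complex.normSq_eq_norm_sq, h6]
      simp
    rw [e4]
    ring
  rw [h3]
  exact h2.mul h1

theorem twist_galSeq {p : ℕ} (hp : p ≠ 0) (C : Subgroup X) [Fintype ↥C] {v : X} (hv : v ^ p = 1)
    (hC : ∀ c ∈ C, c * v = v * c) {χ : X → ℂ} (hχ : IsCharacter X χ)
    (hab : ∀ a ∈ C, ∀ b ∈ C, a * b = b * a) {ψ : ℕ → ↥C → ℂ} (hψ : ψ ∈ Adm p ↥C) :
    IsGalSeq p (twist C v χ ψ) := by
  induction hψ using AddSubgroup.closure_induction with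
  | mem x hx =>
    obtain ⟨a, φ, rfl⟩ := hx
    exact twist_galSeq_bas hp C hv hC hχ hab a φ
  | zero =>
    have : twist C v χ (0 : ℕ → ↥C → ℂ) = fun _ => ((0 : ℤ) : ℂ) := by
      funext m
      simp [twist]
    rw [this]
    exact IsGalSeq.intCast 0
  | add x y _ _ hx hy =>
    have : twist C v χ (x + y) = fun m => twist C v χ x m + twist C v χ y m := by
      funext m
      simp only [twist, Pi.add_apply, mul_add, Finset.sum_add_distrib]
    rw [this]
    exact hx.add hy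
  | neg x _ hx =>
    have : twist C v χ (-x) = fun m => ((-1 : ℤ) : ℂ) * twist C v χ x m := by
      funext m
      simp only [twist, Pi.neg_apply, mul_neg, Finset.sum_neg_distrib]
      push_cast
      ring
    rw [this]
    exact (IsGalSeq.intCast (-1)).mul hx

theorem galSeq_sum_ge {p : ℕ} (hp : p ≠ 0) {a : ℕ → ℂ} (ha : IsGalSeq p a)
    (h0 : ∀ m ∈ cop p, a m ≠ 0) : ((cop p).card : ℝ) ≤ ∑ m ∈ cop p, ‖a m‖ ^ 2 := by
  refine card_le_sum_of_prod _ _ (fun m hm => by have := h0 m hm; positivity) ?_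
  obtain ⟨f, hf⟩ := ha
  have hprod : ∏ m ∈ cop p, a m = ∏ ξ ∈ primitiveRoots p ℂ, Polynomial.aeval ξ f := by
    rw [← prod_cop_eq hp (Complex.isPrimitiveRoot_exp p hp) (fun ξ => Polynomial.aeval ξ f)]
    exact Finset.prod_congr rfl fun m _ => hf m
  obtain ⟨k, hk⟩ := prod_primitiveRoots_int hp f
  rw [hk] at hprod
  have hk0 : k ≠ 0 := by
    rintro rfl
    rw [Int.cast_zero, Finset.prod_eq_zero_iff] at hprod
    obtain ⟨m, hm, h⟩ := hprod
    exact h0 m hm h
  rw [Finset.prod_pow, ← norm_prod, hprod, Complex.norm_intCast, sq_abs]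
  have : 0 < k ^ 2 := by positivity
  exact_mod_cast this

/-- exponents isolating the `p`-part -/
theorem exists_exp {p n : ℕ} (h : n.Coprime p) {m : ℕ}
    (hm : m.Coprime p) {v : X} (hv : v ^ p = 1) :
    ∃ k : ℕ, ∀ c : X, c ^ n = 1 → v * c = c * v → (v ^ m * c) ^ k = v := by
  obtain ⟨j, hj⟩ := exists_pow_eq_self_of_coprime (x := v)
    (Nat.Coprime.coprime_dvd_right (orderOf_dvd_of_pow_eq_one hv) (h.mul_left hm : (n * m).Coprime p))
  refine ⟨n * j, fun c hc hvc => ?_⟩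
  have h1 : Commute (v ^ m) c := (show Commute v c from hvc).pow_left m
  rw [h1.mul_pow, pow_mul c, hc, one_pow, mul_one, ← pow_mul]
  rw [← pow_mul] at hj
  have : m * (n * j) = n * m * j := by ring
  rw [this, hj]

variable (V G : Subgroup X) [V.Normal]

/-- `|C_X(v^m c)| = |C| |C_V(c)|` -/
theorem card_cent_twist {p : ℕ} (habV : ∀ a ∈ V, ∀ b ∈ V, a * b = b * a)
    (hGV : Subgroup.IsComplement' V G) (hcop : (Nat.card G).Coprime p) {v : X} (hv : v ∈ V)
    (hvp : v ^ p = 1)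
    (hab : ∀ a ∈ G ⊓ centralizer ({v} : Set X), ∀ b ∈ G ⊓ centralizer ({v} : Set X), a * b = b * a)
    {m : ℕ} (hm : m.Coprime p) {c : X} (hc : c ∈ G ⊓ centralizer ({v} : Set X)) :
    Nat.card ↥(centralizer ({v ^ m * c} : Set X)) =
      Nat.card ↥(G ⊓ centralizer ({v} : Set X)) * Nat.card ↥(V ⊓ centralizer ({c} : Set X)) := by
  obtain ⟨k, hk⟩ := exists_exp hcop hm hvp
  have hcv : v * c = c * v := (mem_centralizer_singleton_iff.1 hc.2).symm
  have hcn : c ^ Nat.card G = 1 := by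
    have : (⟨c, hc.1⟩ : G) ^ Nat.card G = 1 := pow_card_eq_one'
    exact congrArg Subtype.val this
  have hkc := hk c hcn hcv
  have hcent : ∀ x : X, x ∈ centralizer ({v ^ m * c} : Set X) ↔ x * v = v * x ∧ x * c = c * x := by
    intro x
    rw [mem_centralizer_singleton_iff]
    constructor
    · intro h
      have h1 : x * v = v * x := by
        rw [← hkc]
        exact (show Commute x (v ^ m * c) from h).pow_right k
      refine ⟨h1, ?_⟩
      have h2 : Commute x (v ^ m) := (show Commute x v from h1).pow_right m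
      have h3 : x * (v ^ m * c) = v ^ m * (x * c) := by rw [← mul_assoc, h2.eq, mul_assoc]
      rw [h3, mul_assoc] at h
      exact mul_left_cancel h
    · rintro ⟨h1, h2⟩
      exact ((show Commute x v from h1).pow_right m).mul_right h2
  rw [← Nat.card_prod]
  symm
  have hint : ∀ g ∈ G, g ∈ V → g = 1 := by
    intro g hg hg'
    have := hGV.disjoint
    exact (Subgroup.disjoint_def.1 this) hg' hg
  refine Nat.card_congr (Equiv.ofBijective (fun x => ⟨(x.2 : X) * (x.1 : X), ?_⟩) ⟨?_, ?_⟩)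
  · rw [hcent]
    constructor
    · have h1 : Commute (x.2 : X) v := habV _ x.2.2.1 _ hv
      have h2 : Commute (x.1 : X) v := mem_centralizer_singleton_iff.1 x.1.2.2
      exact h1.mul_left h2
    · have h1 : Commute (x.2 : X) c := mem_centralizer_singleton_iff.1 x.2.2.2
      have h2 : Commute (x.1 : X) c := hab _ x.1.2 _ hc
      exact h1.mul_left h2
  · rintro ⟨a, b⟩ ⟨d, e⟩ h
    have h1 : (b : X) * (a : X) = (e : X) * (d : X) := congrArg Subtype.val h
    have h2 : (e : X)⁻¹ * (b : X) = (d : X) * (a : X)⁻¹ := by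
      rw [inv_mul_eq_iff_eq_mul, ← mul_assoc, ← h1, mul_inv_cancel_right]
    have h3 : (e : X)⁻¹ * (b : X) = 1 := hint _ (h2 ▸ G.mul_mem d.2.1 (G.inv_mem a.2.1))
      (V.mul_mem (V.inv_mem e.2.1) b.2.1)
    have h4 : (b : X) = (e : X) := (inv_mul_eq_one.1 h3).symm
    rw [h3] at h2
    have h5 : (d : X) = (a : X) := mul_inv_eq_one.1 h2.symm
    exact Prod.ext (Subtype.ext h5.symm) (Subtype.ext h4)
  · rintro ⟨x, hx⟩
    rw [hcent] at hx
    obtain ⟨⟨w, g⟩, hwg⟩ := hGV.2 x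
    have hwg' : (w : X) * (g : X) = x := hwg
    have hgv : (g : X) * v = v * (g : X) := by
      have h1 : Commute (w : X) v := habV _ w.2 _ hv
      have h2 : Commute x v := hx.1
      have h3 : (g : X) = (w : X)⁻¹ * x := by rw [← hwg']; group
      rw [h3]
      exact (h1.inv_left.mul_left h2).eq
    have hgC : (g : X) ∈ G ⊓ centralizer ({v} : Set X) :=
      ⟨g.2, mem_centralizer_singleton_iff.2 hgv⟩
    have hgc : (g : X) * c = c * (g : X) := hab _ hgC _ hc
    have hwc : (w : X) * c = c * (w : X) := by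
      have h1 : Commute (g : X) c := hgc
      have h2 : Commute x c := hx.2
      have h3 : (w : X) = x * (g : X)⁻¹ := by rw [← hwg']; group
      rw [h3]
      exact (h2.mul_left h1.inv_left).eq
    exact ⟨(⟨g, hgC⟩, ⟨w, w.2, mem_centralizer_singleton_iff.2 hwc⟩), Subtype.ext hwg'⟩

theorem conj_twist {p : ℕ} (habV : ∀ a ∈ V, ∀ b ∈ V, a * b = b * a)
    (hGV : Subgroup.IsComplement' V G) (hcop : (Nat.card G).Coprime p) {v : X} (hv : v ∈ V)
    (hvp : v ^ p = 1)
    (hab : ∀ a ∈ G ⊓ centralizer ({v} : Set X), ∀ b ∈ G ⊓ centralizer ({v} : Set X), a * b = b * a)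
    {m : ℕ} (hm : m.Coprime p) {c d : X} (hc : c ∈ G ⊓ centralizer ({v} : Set X))
    (hd : d ∈ G ⊓ centralizer ({v} : Set X)) (h : IsConj (v ^ m * c) (v ^ m * d)) : c = d := by
  obtain ⟨k, hk⟩ := exists_exp hcop hm hvp
  have hn : ∀ c ∈ G, c ^ Nat.card G = 1 := by
    intro c hc
    have : (⟨c, hc⟩ : G) ^ Nat.card G = 1 := pow_card_eq_one'
    exact congrArg Subtype.val this
  have hkc := hk c (hn c hc.1) (mem_centralizer_singleton_iff.1 hc.2).symm
  have hkd := hk d (hn d hd.1) (mem_centralizer_singleton_iff.1 hd.2).symm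
  obtain ⟨x, hx⟩ := isConj_iff.1 h
  have hxv : x * v * x⁻¹ = v := by
    have := congrArg (· ^ k) hx
    simp only [conj_pow] at this
    rwa [hkc, hkd] at this
  have hxc : x * c * x⁻¹ = d := by
    have h1 : x * v ^ m * x⁻¹ = v ^ m := by rw [← conj_pow, hxv]
    have h2 : x * (v ^ m * c) * x⁻¹ = (x * v ^ m * x⁻¹) * (x * c * x⁻¹) := by group
    rw [h2, h1] at hx
    exact mul_left_cancel hx
  obtain ⟨⟨w, g⟩, hwg⟩ := hGV.2 x
  have hwg' : (w : X) * (g : X) = x := hwg
  have hxv' : Commute x v := by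
    rw [mul_inv_eq_iff_eq_mul] at hxv
    exact hxv
  have hgv : (g : X) * v = v * (g : X) := by
    have h1 : Commute (w : X) v := habV _ w.2 _ hv
    have h3 : (g : X) = (w : X)⁻¹ * x := by rw [← hwg']; group
    rw [h3]
    exact (h1.inv_left.mul_left hxv').eq
  have hgC : (g : X) ∈ G ⊓ centralizer ({v} : Set X) :=
    ⟨g.2, mem_centralizer_singleton_iff.2 hgv⟩
  have hgc : (g : X) * c = c * (g : X) := hab _ hgC _ hc
  have h1 : d = (w : X) * c * (w : X)⁻¹ := by
    rw [← hxc, ← hwg', mul_inv_rev]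
    have : (w : X) * (g : X) * c * ((g : X)⁻¹ * (w : X)⁻¹) =
      (w : X) * ((g : X) * c) * (g : X)⁻¹ * (w : X)⁻¹ := by group
    rw [this, hgc]
    group
  have h2 : d * c⁻¹ ∈ V := by
    have : d * c⁻¹ = (w : X) * (c * (w : X)⁻¹ * c⁻¹) := by rw [h1]; group
    rw [this]
    exact V.mul_mem w.2 (Subgroup.Normal.conj_mem inferInstance _ (V.inv_mem w.2) c)
  have h3 : d * c⁻¹ = 1 := (Subgroup.disjoint_def.1 hGV.disjoint) h2
    (G.mul_mem hd.1 (G.inv_mem hc.1))
  exact (mul_inv_eq_one.1 h3).symm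

end Cfsg.Agent.KGV
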