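import Cfsg.Agent.H7.KGV7

set_option autoImplicit false
set_option linter.style.haveILetI false
set_option linter.unusedSectionVars false

/-! The abelian-stabilizer criterion: conclusion. -/

namespace Cfsg.Agent.KGV

open Subgroup Cfsg Cfsg.Agent.H3 Cfsg.Agent.H11 Cfsg.Agent.H27
open scoped ComplexConjugate

universe u

variable {X : Type u} [Group X] [Fintype X]

theorem sum_norm_comb [Fintype (IrrCharacter X)] {ι : Type*} [Fintype ι] (g : ι → X) (w : ι → ℂ)
    (hg : ∀ i j, IsConj (g i) (g j) → i = j) :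
    ∑ χ : IrrCharacter X, ‖∑ i, (χ : X → ℂ) (g i) * w i‖ ^ 2 =
      ∑ i, ‖w i‖ ^ 2 * (Nat.card ↥(centralizer ({g i} : Set X)) : ℝ) := by
  classical
  have h1 : ∀ z : ℂ, ((‖z‖ ^ 2 : ℝ) : ℂ) = z * conj z := by
    intro z
    rw [Complex.mul_conj, Complex.normSq_eq_norm_sq]
  have h2 : ((∑ χ : IrrCharacter X, ‖∑ i, (χ : X → ℂ) (g i) * w i‖ ^ 2 : ℝ) : ℂ) =
      ((∑ i, ‖w i‖ ^ 2 * (Nat.card ↥(centralizer ({g i} : Set X)) : ℝ) : ℝ) : ℂ) := by
    rw [Complex.ofReal_sum, Complex.ofReal_sum]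
    have h3 : ∀ χ : IrrCharacter X, ((‖∑ i, (χ : X → ℂ) (g i) * w i‖ ^ 2 : ℝ) : ℂ) =
        ∑ i, ∑ j, w i * conj (w j) * ((χ : X → ℂ) (g i) * conj ((χ : X → ℂ) (g j))) := by
      intro χ
      rw [h1, map_sum, Finset.sum_mul_sum]
      refine Finset.sum_congr rfl fun i _ => Finset.sum_congr rfl fun j _ => ?_
      rw [map_mul]
      ring
    rw [Finset.sum_congr rfl fun χ _ => h3 χ, Finset.sum_comm]
    refine Finset.sum_congr rfl fun i _ => ?_
    rw [Finset.sum_comm]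
    have h4 : ∀ j, ∑ χ : IrrCharacter X,
        w i * conj (w j) * ((χ : X → ℂ) (g i) * conj ((χ : X → ℂ) (g j))) =
        if j = i then w i * conj (w i) * (Nat.card ↥(centralizer ({g i} : Set X)) : ℂ) else 0 := by
      intro j
      rw [← Finset.mul_sum, column_orth]
      by_cases hij : j = i
      · subst hij
        rw [if_pos (IsConj.refl _), if_pos rfl]
      · rw [if_neg (fun h => hij (hg i j h).symm), if_neg hij, mul_zero]
    rw [Finset.sum_congr rfl fun j _ => h4 j, Finset.sum_ite_eq' _ i]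
    rw [if_pos (Finset.mem_univ i), ← h1]
    push_cast
    rfl
  exact_mod_cast h2

theorem abelian_stab (p : ℕ) [hp : Fact p.Prime] (V : Subgroup X) [hN : V.Normal]
    (hVexp : ∀ v ∈ V, v ^ p = 1) (hidx : ¬ p ∣ V.index)
    (hself : Subgroup.centralizer (V : Set X) = V) (G : Subgroup X)
    (hGV : Subgroup.IsComplement' V G) (v : X) (hv : v ∈ V)
    (hab : ∀ a ∈ G ⊓ Subgroup.centralizer ({v} : Set X),
      ∀ b ∈ G ⊓ Subgroup.centralizer ({v} : Set X), a * b = b * a) :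
    Nat.card (ConjClasses X) ≤ Nat.card V := by
  classical
  obtain ⟨M, hM⟩ := exists_isPModular hp.out
  have hpr := hM.2.1.isPrime
  letI : Fintype (IrrCharacter X) := Fintype.ofFinite _
  set C := G ⊓ Subgroup.centralizer ({v} : Set X) with hCdef
  have habV : ∀ a ∈ V, ∀ b ∈ V, a * b = b * a := by
    intro a ha b hb
    rw [← hself] at hb
    exact Subgroup.mem_centralizer_iff.1 hb a ha
  have hVc : IsMulCommutative V := ⟨⟨fun a b => Subtype.ext (habV _ a.2 _ b.2)⟩⟩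
  have hGidx : Nat.card G = V.index := by
    have h1 := hGV.card_mul_card
    have h2 := V.card_mul_index
    rw [← h2] at h1
    exact Nat.eq_of_mul_eq_mul_left Nat.card_pos h1
  have hcopG : (Nat.card G).Coprime p := by
    rw [hGidx]
    exact ((Nat.Prime.coprime_iff_not_dvd hp.out).2 hidx).symm
  have hcopC : (Nat.card C).Coprime p :=
    Nat.Coprime.coprime_dvd_left (Subgroup.card_dvd_of_le inf_le_left) hcopG
  obtain ⟨ψ, hψ, hψ'⟩ := exists_gauss hM V C hVc hVexp hab hcopC (Nat.card V) V rfl le_rfl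
    (by rw [Subgroup.normalizer_eq_top]; exact le_top)
  letI : Fintype ↥C := Fintype.ofFinite _
  have hvp := hVexp v hv
  have hmp : ∀ m ∈ cop p, m.Coprime p ∧ ¬ p ∣ m := by
    intro m hm
    have := (mem_cop.1 hm).2
    exact ⟨this, fun h => hp.out.one_lt.ne' (Nat.eq_one_of_dvd_coprimes this h dvd_rfl)⟩
  -- nonvanishing
  have hne : ∀ χ : IrrCharacter X, ∀ m ∈ cop p, twist C v (χ : X → ℂ) ψ m ≠ 0 := by
    intro χ m hm h0
    obtain ⟨hm1, hm2⟩ := hmp m hm
    have hCne : (Nat.card C : ℂ)⁻¹ ≠ 0 := inv_ne_zero (Nat.cast_ne_zero.2 Nat.card_pos.ne')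
    have h1 : ∑ c : ↥C, (χ : X → ℂ) (v ^ m * (c : X)) * ψ m c = 0 :=
      (mul_eq_zero.1 h0).resolve_left hCne
    have h2 : MemLocalIdeal M (∑ c ∈ Finset.univ.erase (1 : ↥C),
        (χ : X → ℂ) (v ^ m * (c : X)) * ψ m c) := by
      refine li_sum _ _ fun c hc => ?_
      have hc1 := Finset.ne_of_mem_erase hc
      refine li_mul_left (lr_char χ.2 _) (((hψ' m hm2).2 c).2.2 ?_)
      intro hVc
      apply hc1
      have h3 : (c : X) ∈ centralizer (V : Set X) := by
        rw [mem_centralizer_iff]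
        intro w hw
        exact mem_centralizer_singleton_iff.1 (hVc hw)
      rw [hself] at h3
      exact Subtype.ext ((Subgroup.disjoint_def.1 hGV.disjoint) h3 c.2.1)
    have h3 := Finset.add_sum_erase Finset.univ
      (fun c : ↥C => (χ : X → ℂ) (v ^ m * (c : X)) * ψ m c) (Finset.mem_univ (1 : ↥C))
    rw [h1] at h3
    have h4 : MemLocalIdeal M ((χ : X → ℂ) (v ^ m * ((1 : ↥C) : X)) * ψ m 1) := by
      have h5 := eq_neg_of_add_eq_zero_left h3
      have h6 : (χ : X → ℂ) (v ^ m * ((1 : ↥C) : X)) * ψ m 1 =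
          -∑ c ∈ Finset.univ.erase (1 : ↥C), (χ : X → ℂ) (v ^ m * (c : X)) * ψ m c := h5
      rw [h6]
      exact li_neg h2
    have h5 : MemLocalIdeal M ((χ : X → ℂ) (v ^ m)) := by
      rw [Subgroup.coe_one, mul_one] at h4
      rcases (hψ' m hm2).1 with h | h
      · rw [h, mul_one] at h4; exact h4
      · rw [h, mul_neg, mul_one] at h4
        have := li_neg h4
        rwa [neg_neg] at this
    obtain ⟨n, -, hn⟩ := irr_one_eq_nat χ.2
    refine char_ne_zero_of_pElt hM (irr_isChar χ.2) hn ?_ ?_ h5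
    · intro hd
      exact hidx (hd.trans (ito_degree_dvd χ.2 V hN habV hn))
    · have h6 : orderOf (v ^ m) ∣ p := orderOf_dvd_of_pow_eq_one (hVexp _ (V.pow_mem hv m))
      rcases (Nat.dvd_prime hp.out).1 h6 with h | h
      · exact ⟨0, by rw [h, pow_zero]⟩
      · exact ⟨1, by rw [h, pow_one]⟩
  -- the norm sum
  have hsum : ∀ m ∈ cop p, ∑ χ : IrrCharacter X, ‖twist C v (χ : X → ℂ) ψ m‖ ^ 2 =
      (Nat.card V : ℝ) := by
    intro m hm
    obtain ⟨hm1, hm2⟩ := hmp m hm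
    have h1 := sum_norm_comb (fun c : ↥C => v ^ m * (c : X)) (fun c => ψ m c) (by
      intro c d h
      exact Subtype.ext (conj_twist V G habV hGV hcopG hv hvp hab hm1 c.2 d.2 h))
    have h2 : ∀ c : ↥C, ‖ψ m c‖ ^ 2 *
        (Nat.card ↥(centralizer ({v ^ m * (c : X)} : Set X)) : ℝ) =
        (Nat.card C : ℝ) * Nat.card V := by
      intro c
      rw [card_cent_twist V G habV hGV hcopG hv hvp hab hm1 c.2]
      have := ((hψ' m hm2).2 c).1
      push_cast
      rw [← this]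
      ring
    rw [Finset.sum_congr rfl fun c _ => h2 c, Finset.sum_const, Finset.card_univ,
      ← Nat.card_eq_fintype_card, nsmul_eq_mul] at h1
    have h3 : ∀ χ : IrrCharacter X, ‖twist C v (χ : X → ℂ) ψ m‖ ^ 2 =
        ((Nat.card C : ℝ)⁻¹) ^ 2 * ‖∑ c : ↥C, (χ : X → ℂ) (v ^ m * (c : X)) * ψ m c‖ ^ 2 := by
      intro χ
      rw [twist, norm_mul, mul_pow, norm_inv, Complex.norm_natCast]
    rw [Finset.sum_congr rfl fun χ _ => h3 χ, ← Finset.mul_sum, h1]
    have hC0 : (Nat.card C : ℝ) ≠ 0 := Nat.cast_ne_zero.2 Nat.card_pos.ne'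
    field_simp
  -- conclusion
  have hge : ∀ χ : IrrCharacter X, ((cop p).card : ℝ) ≤
      ∑ m ∈ cop p, ‖twist C v (χ : X → ℂ) ψ m‖ ^ 2 := by
    intro χ
    refine galSeq_sum_ge hp.out.ne_zero ?_ (hne χ)
    exact twist_galSeq hp.out.ne_zero C hvp
      (fun c hc => mem_centralizer_singleton_iff.1 hc.2) (irr_isChar χ.2) hab hψ
  have htot : ((cop p).card : ℝ) * Nat.card (ConjClasses X) ≤ (cop p).card * Nat.card V := by
    calc ((cop p).card : ℝ) * Nat.card (ConjClasses X)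
        = ∑ χ : IrrCharacter X, ((cop p).card : ℝ) := by
          rw [Finset.sum_const, Finset.card_univ, ← Nat.card_eq_fintype_card, card_irr_eq,
            nsmul_eq_mul, mul_comm]
      _ ≤ ∑ χ : IrrCharacter X, ∑ m ∈ cop p, ‖twist C v (χ : X → ℂ) ψ m‖ ^ 2 :=
          Finset.sum_le_sum fun χ _ => hge χ
      _ = ∑ m ∈ cop p, ∑ χ : IrrCharacter X, ‖twist C v (χ : X → ℂ) ψ m‖ ^ 2 := Finset.sum_comm
      _ = ∑ m ∈ cop p, (Nat.card V : ℝ) := Finset.sum_congr rfl hsum
      _ = _ := by rw [Finset.sum_const, nsmul_eq_mul]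
  have hpos : (0 : ℝ) < (cop p).card := by
    exact_mod_cast Finset.card_pos.2 (cop_nonempty hp.out.ne_zero)
  exact_mod_cast le_of_mul_le_mul_left htot hpos

end Cfsg.Agent.KGV
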