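import Cfsg.Agent.H3.Ind
import Cfsg.Agent.H3.Basic2
import Cfsg.Agent.H27.Burnside

set_option autoImplicit false
set_option linter.all false

/-!
Primitive linear groups of degree 2.
-/

namespace Cfsg.Agent.H7.Prim2

open Cfsg Cfsg.Agent.H3 Subgroup

set_option maxHeartbeats 400000

universe u

/-! ### numbers -/

theorem pent {n k m : ℕ} (h : k * m = n) (hm : 2 ≤ m) : 2 * k = n ∨ 3 * k = n ∨ 4 * k = n ∨ 5 * k = n ∨ 6 * k ≤ n := by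
  rcases Nat.lt_or_ge m 6 with h6 | h6
  · interval_cases m <;> omega
  · right; right; right; right
    rw [← h, mul_comm 6 k]
    exact Nat.mul_le_mul_left k h6

theorem num2 {n k₁ k₂ T₁ T₂ : ℕ} (h₁ : 3 ≤ k₁) (h₂ : 3 ≤ k₂)
    (p₁ : 2 * k₁ = n ∨ 3 * k₁ = n ∨ 4 * k₁ = n ∨ 5 * k₁ = n ∨ 6 * k₁ ≤ n)
    (p₂ : 2 * k₂ = n ∨ 3 * k₂ = n ∨ 4 * k₂ = n ∨ 5 * k₂ = n ∨ 6 * k₂ ≤ n)
    (t₁ : T₁ + k₁ = n ∨ 2 * T₁ + k₁ = n) (t₂ : T₂ + k₂ = n ∨ 2 * T₂ + k₂ = n)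
    (hs : T₁ + T₂ + 1 = n) : n = 12 := by
  rcases t₁ with t₁ | t₁ <;> rcases t₂ with t₂ | t₂ <;> omega

theorem num3_sorted {n k₁ k₂ k₃ : ℕ} (h₁ : 3 ≤ k₁) (h₂ : 3 ≤ k₂) (h₃ : 3 ≤ k₃)
    (p₁ : 2 * k₁ = n ∨ 3 * k₁ = n ∨ 4 * k₁ = n ∨ 5 * k₁ = n ∨ 6 * k₁ ≤ n)
    (p₂ : 2 * k₂ = n ∨ 3 * k₂ = n ∨ 4 * k₂ = n ∨ 5 * k₂ = n ∨ 6 * k₂ ≤ n)
    (p₃ : 2 * k₃ = n ∨ 3 * k₃ = n ∨ 4 * k₃ = n ∨ 5 * k₃ = n ∨ 6 * k₃ ≤ n)
    (hs : k₁ + k₂ + k₃ = n + 2) (a : k₂ ≤ k₁) (b : k₃ ≤ k₂) : n = 12 ∨ n = 24 ∨ n = 60 := by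
  have e1 : 2 * k₁ = n := by omega
  have e2 : 3 * k₂ = n := by omega
  omega

theorem num3 {n k₁ k₂ k₃ T₁ T₂ T₃ : ℕ} (h₁ : 3 ≤ k₁) (h₂ : 3 ≤ k₂) (h₃ : 3 ≤ k₃)
    (p₁ : 2 * k₁ = n ∨ 3 * k₁ = n ∨ 4 * k₁ = n ∨ 5 * k₁ = n ∨ 6 * k₁ ≤ n)
    (p₂ : 2 * k₂ = n ∨ 3 * k₂ = n ∨ 4 * k₂ = n ∨ 5 * k₂ = n ∨ 6 * k₂ ≤ n)
    (p₃ : 2 * k₃ = n ∨ 3 * k₃ = n ∨ 4 * k₃ = n ∨ 5 * k₃ = n ∨ 6 * k₃ ≤ n)
    (t₁ : T₁ + k₁ = n ∨ 2 * T₁ + k₁ = n) (t₂ : T₂ + k₂ = n ∨ 2 * T₂ + k₂ = n) (t₃ : T₃ + k₃ = n ∨ 2 * T₃ + k₃ = n)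
    (hs : T₁ + T₂ + T₃ + 1 = n) : n = 12 ∨ n = 24 ∨ n = 60 := by
  have l1 : 2 * k₁ ≤ n := by omega
  have l2 : 2 * k₂ ≤ n := by omega
  have l3 : 2 * k₃ ≤ n := by omega
  have hk : k₁ + k₂ + k₃ = n + 2 := by
    clear p₁ p₂ p₃
    rcases t₁ with t₁ | t₁ <;> rcases t₂ with t₂ | t₂ <;> rcases t₃ with t₃ | t₃ <;> omega
  clear t₁ t₂ t₃ hs
  rcases le_total k₁ k₂ with a | a <;> rcases le_total k₂ k₃ with b | b <;> rcases le_total k₁ k₃ with c | c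
  · exact num3_sorted h₃ h₂ h₁ p₃ p₂ p₁ (by omega) b a
  · exact num3_sorted h₃ h₂ h₁ p₃ p₂ p₁ (by omega) b a
  · exact num3_sorted h₂ h₃ h₁ p₂ p₃ p₁ (by omega) b c
  · exact num3_sorted h₂ h₁ h₃ p₂ p₁ p₃ (by omega) a c
  · exact num3_sorted h₃ h₁ h₂ p₃ p₁ p₂ (by omega) c a
  · exact num3_sorted h₁ h₃ h₂ p₁ p₃ p₂ (by omega) c b
  · exact num3_sorted h₁ h₂ h₃ p₁ p₂ p₃ (by omega) a b
  · exact num3_sorted h₁ h₂ h₃ p₁ p₂ p₃ (by omega) a b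

/-! ### matrices -/

theorem prop3 {a b c x y z : ℂ} (hm : a ≠ 0 ∨ b ≠ 0 ∨ c ≠ 0) (h1 : y * c = b * z) (h2 : x * b = a * y)
    (h3 : x * c = a * z) : ∃ β, x = β * a ∧ y = β * b ∧ z = β * c := by
  rcases hm with h | h | h
  · refine ⟨x / a, by field_simp, ?_, ?_⟩
    · field_simp; linear_combination -h2
    · field_simp; linear_combination -h3
  · refine ⟨y / b, ?_, by field_simp, ?_⟩
    · field_simp; linear_combination h2
    · field_simp; linear_combination -h1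
  · refine ⟨z / c, ?_, ?_, by field_simp⟩
    · field_simp; linear_combination h3
    · field_simp; linear_combination h1

/-- a matrix commuting with a non-scalar one -/
theorem comm_form {M X : Matrix (Fin 2) (Fin 2) ℂ} (hM : ∀ c : ℂ, M ≠ c • 1) (h : X * M = M * X) :
    ∃ β, X 0 0 - X 1 1 = β * (M 0 0 - M 1 1) ∧ X 0 1 = β * M 0 1 ∧ X 1 0 = β * M 1 0 := by
  have hm : M 0 0 - M 1 1 ≠ 0 ∨ M 0 1 ≠ 0 ∨ M 1 0 ≠ 0 := by
    by_contra hcon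
    push Not at hcon
    obtain ⟨h1, h2, h3⟩ := hcon
    apply hM (M 0 0)
    ext i j
    rw [sub_eq_zero] at h1
    fin_cases i <;> fin_cases j <;> simp [h1, h2, h3]
  have h00 := congrFun (congrFun h 0) 0
  have h01 := congrFun (congrFun h 0) 1
  have h10 := congrFun (congrFun h 1) 0
  simp only [Matrix.mul_apply, Fin.sum_univ_two] at h00 h01 h10
  apply prop3 hm
  · linear_combination h00
  · linear_combination h01
  · linear_combination -h10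

theorem comm_of_comm {M X Y : Matrix (Fin 2) (Fin 2) ℂ} (hM : ∀ c : ℂ, M ≠ c • 1) (hX : X * M = M * X)
    (hY : Y * M = M * Y) : X * Y = Y * X := by
  obtain ⟨β, a1, a2, a3⟩ := comm_form hM hX
  obtain ⟨γ, b1, b2, b3⟩ := comm_form hM hY
  ext i j
  fin_cases i <;> fin_cases j <;> simp [Matrix.mul_apply, Fin.sum_univ_two, a2, a3, b2, b3]
  · ring
  · linear_combination (γ * M 0 1) * a1 - (β * M 0 1) * b1
  · linear_combination (-(γ * M 1 0)) * a1 + (β * M 1 0) * b1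
  · ring

theorem disc_ne {M : Matrix (Fin 2) (Fin 2) ℂ} (hM : ∀ c : ℂ, M ≠ c • 1) {k : ℕ} (hk : k ≠ 0) (h : M ^ k = 1) :
    (M 0 0 - M 1 1) ^ 2 + 4 * (M 0 1 * M 1 0) ≠ 0 := by
  intro hd
  set l : ℂ := (M 0 0 + M 1 1) / 2 with hl
  set N : Matrix (Fin 2) (Fin 2) ℂ := M - l • 1 with hN
  have hNN : N * N = 0 := by
    ext i j
    fin_cases i <;> fin_cases j <;> simp [hN, hl, Matrix.mul_apply, Fin.sum_univ_two]
    · linear_combination (1 / 4 : ℂ) * hd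
    · ring
    · ring
    · linear_combination (1 / 4 : ℂ) * hd
  have hMN : M = l • 1 + N := by rw [hN]; abel
  have hpow : ∀ j : ℕ, l • M ^ j = (l ^ (j + 1)) • (1 : Matrix (Fin 2) (Fin 2) ℂ) + ((j : ℂ) * l ^ j) • N := by
    intro j
    induction j with
    | zero => simp
    | succ j ih =>
      rw [pow_succ, ← Matrix.smul_mul, ih]
      conv_lhs => rw [hMN]
      rw [Matrix.mul_add, Matrix.add_mul, Matrix.add_mul, Matrix.smul_mul, Matrix.smul_mul, Matrix.smul_mul,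
        Matrix.smul_mul, Matrix.mul_smul, Matrix.mul_smul, Matrix.one_mul, Matrix.mul_one, hNN, Matrix.one_mul, smul_zero, add_zero,
        smul_smul, smul_smul, add_assoc, ← add_smul, ← pow_succ]
      congr 2
      push_cast
      ring
  have hl0 : l ≠ 0 := by
    intro h0
    have h1 : M * M = 0 := by
      have h2 : M = N := by rw [hMN, h0, zero_smul, zero_add]
      rw [h2, hNN]
    have h3 : M ^ (2 * k) = 1 := by rw [mul_comm, pow_mul, h, one_pow]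
    rw [pow_mul, sq, h1, zero_pow hk] at h3
    exact zero_ne_one h3
  have h1 := hpow k
  rw [h] at h1
  have h2 : ((k : ℂ) * l ^ k) • N = (l - l ^ (k + 1)) • (1 : Matrix (Fin 2) (Fin 2) ℂ) := by
    rw [sub_smul, h1]; abel
  have h3 : (k : ℂ) * l ^ k ≠ 0 := mul_ne_zero (Nat.cast_ne_zero.2 hk) (pow_ne_zero _ hl0)
  apply hM (l + ((k : ℂ) * l ^ k)⁻¹ * (l - l ^ (k + 1)))
  conv_lhs => rw [hMN]
  rw [add_smul]
  congr 1
  rw [← smul_smul, ← h2, smul_smul, inv_mul_cancel₀ h3, one_smul]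

/-- conjugate and commuting -/
theorem two_choices {M X : Matrix (Fin 2) (Fin 2) ℂ} (hM : ∀ c : ℂ, M ≠ c • 1) {k : ℕ} (hk : k ≠ 0) (h : M ^ k = 1)
    (hX : X * M = M * X) (ht : X.trace = M.trace) (hd : X.det = M.det) : X = M ∨ X = M.trace • 1 - M := by
  obtain ⟨β, a1, a2, a3⟩ := comm_form hM hX
  have hD := disc_ne hM hk h
  rw [Matrix.trace_fin_two, Matrix.trace_fin_two] at ht
  rw [Matrix.det_fin_two, Matrix.det_fin_two] at hd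
  have h1 : (β ^ 2 - 1) * ((M 0 0 - M 1 1) ^ 2 + 4 * (M 0 1 * M 1 0)) = 0 := by
    have h2 : (X 0 0 - X 1 1) ^ 2 + 4 * (X 0 1 * X 1 0) = (M 0 0 - M 1 1) ^ 2 + 4 * (M 0 1 * M 1 0) := by
      linear_combination (X 0 0 + X 1 1 + M 0 0 + M 1 1) * ht - 4 * hd
    rw [a1, a2, a3] at h2
    linear_combination h2
  have h2 := (mul_eq_zero.1 h1).resolve_right hD
  have h3 : (β - 1) * (β + 1) = 0 := by linear_combination h2
  rcases mul_eq_zero.1 h3 with h4 | h4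
  · left
    have h5 : β = 1 := by linear_combination h4
    rw [h5] at a1 a2 a3
    ext i j
    fin_cases i <;> fin_cases j
    · show X 0 0 = M 0 0
      linear_combination (1 / 2 : ℂ) * ht + (1 / 2 : ℂ) * a1
    · show X 0 1 = M 0 1
      linear_combination a2
    · show X 1 0 = M 1 0
      linear_combination a3
    · show X 1 1 = M 1 1
      linear_combination (1 / 2 : ℂ) * ht - (1 / 2 : ℂ) * a1
  · right
    have h5 : β = -1 := by linear_combination h4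
    rw [h5] at a1 a2 a3
    rw [Matrix.trace_fin_two]
    ext i j
    fin_cases i <;> fin_cases j <;> simp
    · linear_combination (1 / 2 : ℂ) * ht + (1 / 2 : ℂ) * a1
    · linear_combination a2
    · linear_combination a3
    · linear_combination (1 / 2 : ℂ) * ht - (1 / 2 : ℂ) * a1

end Cfsg.Agent.H7.Prim2
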