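import Cfsg.Agent.H7.Prim2

set_option autoImplicit false
set_option linter.all false

/-!
Primitive linear groups of degree 2: the count.
-/

namespace Cfsg.Agent.H7.Prim2

open Cfsg Cfsg.Agent.H3 Subgroup

set_option maxHeartbeats 400000

universe u

section
variable {G : Type u} [Group G] [Finite G]

/-- the two facts on centralizers -/
structure CG (G : Type u) [Group G] : Prop where
  ab : ∀ g : G, g ∉ center G → ∀ x y : G, x * g = g * x → y * g = g * y → x * y = y * x
  two : ∀ g : G, g ∉ center G → ∀ x y : G, (x * g * x⁻¹) * g = g * (x * g * x⁻¹) → (y * g * y⁻¹) * g = g * (y * g * y⁻¹) →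
    x * g ≠ g * x → y * g ≠ g * y → x * g * x⁻¹ = y * g * y⁻¹

theorem CG_of_mat (M : G →* Matrix (Fin 2) (Fin 2) ℂ) (hinj : Function.Injective M) : CG G := by
  have hns : ∀ g : G, g ∉ center G → ∀ c : ℂ, M g ≠ c • 1 := by
    intro g hg c hc
    apply hg
    rw [mem_center_iff]
    intro x
    apply hinj
    rw [map_mul, map_mul, hc, Matrix.mul_smul, Matrix.smul_mul, Matrix.mul_one, Matrix.one_mul]
  have hcomm : ∀ x y : G, x * y = y * x → M x * M y = M y * M x := fun x y h => by
    rw [← map_mul, ← map_mul, h]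
  constructor
  · intro g hg x y hx hy
    apply hinj
    rw [map_mul, map_mul]
    exact comm_of_comm (hns g hg) (hcomm _ _ hx) (hcomm _ _ hy)
  · intro g hg x y hx hy hxn hyn
    have htr : ∀ x : G, (M (x * g * x⁻¹)).trace = (M g).trace := by
      intro x
      rw [map_mul, Matrix.trace_mul_comm, ← map_mul, inv_mul_cancel_left_aux]
    have hdt : ∀ x : G, (M (x * g * x⁻¹)).det = (M g).det := by
      intro x
      rw [map_mul, Matrix.det_mul, mul_comm, ← Matrix.det_mul, ← map_mul, inv_mul_cancel_left_aux]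
    have hk : orderOf g ≠ 0 := (orderOf_pos g).ne'
    have hpow : M g ^ orderOf g = 1 := by rw [← map_pow, pow_orderOf_eq_one, map_one]
    have key : ∀ x : G, (x * g * x⁻¹) * g = g * (x * g * x⁻¹) → x * g ≠ g * x → M (x * g * x⁻¹) = (M g).trace • 1 - M g := by
      intro x hx hxn
      rcases two_choices (hns g hg) hk hpow (hcomm _ _ hx) (htr x) (hdt x) with h | h
      · exact absurd (mul_inv_eq_iff_eq_mul.1 (hinj h)) hxn
      · exact h
    apply hinj
    rw [key x hx hxn, key y hy hyn]
where
  inv_mul_cancel_left_aux {G : Type u} [Group G] {x g : G} : x⁻¹ * (x * g) = g := by group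

/-- the centralizers of non-central elements -/
def XC (G : Type u) [Group G] : Type u := {A : Subgroup G // ∃ g, g ∉ center G ∧ A = centralizer {g}}

instance : Finite (XC G) := by unfold XC; infer_instance

theorem mem_cent {g x : G} : x ∈ centralizer ({g} : Set G) ↔ x * g = g * x := by
  rw [mem_centralizer_iff]
  constructor
  · intro h; exact (h g rfl).symm
  · rintro h y rfl; exact h.symm

theorem cent_conj (g x : G) : (centralizer ({x} : Set G)).map (MulAut.conj g).toMonoidHom = centralizer {g * x * g⁻¹} := by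
  ext y
  rw [mem_cent]
  constructor
  · rintro ⟨z, hz, rfl⟩
    have hz' : z * x = x * z := mem_cent.1 hz
    show g * z * g⁻¹ * (g * x * g⁻¹) = g * x * g⁻¹ * (g * z * g⁻¹)
    calc g * z * g⁻¹ * (g * x * g⁻¹) = g * (z * x) * g⁻¹ := by group
      _ = g * (x * z) * g⁻¹ := by rw [hz']
      _ = _ := by group
  · intro h
    refine ⟨g⁻¹ * y * g, mem_cent.2 ?_, ?_⟩
    · calc g⁻¹ * y * g * x = g⁻¹ * (y * (g * x * g⁻¹)) * g := by group
        _ = g⁻¹ * (g * x * g⁻¹ * y) * g := by rw [h]
        _ = _ := by group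
    · show g * (g⁻¹ * y * g) * g⁻¹ = y
      group

theorem conj_center {g x : G} (h : x ∉ center G) : g * x * g⁻¹ ∉ center G := by
  intro h1
  apply h
  have h2 := (inferInstance : (center G).Normal).conj_mem _ h1 g⁻¹
  rw [inv_inv] at h2
  have h3 : g⁻¹ * (g * x * g⁻¹) * g = x := by group
  rwa [h3] at h2

instance actXC : MulAction G (XC G) where
  smul g A := ⟨A.1.map (MulAut.conj g).toMonoidHom, by
    obtain ⟨x, hx, hA⟩ := A.2
    exact ⟨g * x * g⁻¹, conj_center hx, by rw [hA, cent_conj]⟩⟩
  one_smul A := Subtype.ext (by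
    show A.1.map (MulAut.conj 1).toMonoidHom = A.1
    rw [map_one]
    exact Subgroup.map_id _)
  mul_smul g h A := Subtype.ext (by
    show A.1.map (MulAut.conj (g * h)).toMonoidHom = (A.1.map (MulAut.conj h).toMonoidHom).map (MulAut.conj g).toMonoidHom
    rw [map_mul, Subgroup.map_map]
    rfl)

theorem smul_val (g : G) (A : XC G) : (g • A).1 = A.1.map (MulAut.conj g).toMonoidHom := rfl

variable (hC : CG G)
include hC

theorem eq_cent (A : XC G) {x : G} (hx : x ∈ A.1) (hxZ : x ∉ center G) : A.1 = centralizer {x} := by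
  obtain ⟨g, hg, hA⟩ := A.2
  rw [hA] at hx ⊢
  have h1 := mem_cent.1 hx
  ext y
  rw [mem_cent, mem_cent]
  constructor
  · intro hy
    exact hC.ab g hg y x hy h1
  · intro hy
    exact hC.ab x hxZ y g hy h1.symm

theorem XC_ab (A : XC G) : ∀ a ∈ A.1, ∀ b ∈ A.1, a * b = b * a := by
  obtain ⟨g, hg, hA⟩ := A.2
  intro a ha b hb
  rw [hA] at ha hb
  exact hC.ab g hg a b (mem_cent.1 ha) (mem_cent.1 hb)

omit hC in
theorem center_le (A : XC G) : center G ≤ A.1 := by
  obtain ⟨g, hg, hA⟩ := A.2
  rw [hA]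
  exact center_le_centralizer _

omit hC in
theorem center_lt (A : XC G) : ∃ g ∈ A.1, g ∉ center G := by
  obtain ⟨g, hg, hA⟩ := A.2
  exact ⟨g, by rw [hA]; exact mem_cent.2 rfl, hg⟩

omit hC in
theorem le_stab (hC : CG G) (A : XC G) : A.1 ≤ MulAction.stabilizer G A := by
  intro a ha
  rw [MulAction.mem_stabilizer_iff]
  apply Subtype.ext
  rw [smul_val]
  obtain ⟨g, hg, hA⟩ := A.2
  have h1 : a * g = g * a := by
    rw [hA] at ha
    exact mem_cent.1 ha
  rw [hA, cent_conj, h1, mul_inv_cancel_right]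

theorem stab_rel (A : XC G) : A.1.relIndex (MulAction.stabilizer G A) = 1 ∨ A.1.relIndex (MulAction.stabilizer G A) = 2 := by
  obtain ⟨g, hg, hA⟩ := A.2
  have key : ∀ x ∈ MulAction.stabilizer G A, ∀ y ∈ MulAction.stabilizer G A, x ∉ A.1 → y ∉ A.1 → x⁻¹ * y ∈ A.1 := by
    intro x hx y hy hxA hyA
    have h1 : ∀ x ∈ MulAction.stabilizer G A, (x * g * x⁻¹) * g = g * (x * g * x⁻¹) := by
      intro x hx
      have h2 : (x • A).1 = A.1 := congrArg (fun B : XC G => B.1) (MulAction.mem_stabilizer_iff.1 hx)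
      rw [smul_val, hA, cent_conj] at h2
      have h3 : x * g * x⁻¹ ∈ centralizer ({g} : Set G) := by
        rw [← h2]; exact mem_cent.2 rfl
      exact mem_cent.1 h3
    have h4 : x * g ≠ g * x := fun h => hxA (by rw [hA]; exact mem_cent.2 h)
    have h5 : y * g ≠ g * y := fun h => hyA (by rw [hA]; exact mem_cent.2 h)
    have h6 := hC.two g hg x y (h1 x hx) (h1 y hy) h4 h5
    rw [hA]
    apply mem_cent.2
    calc x⁻¹ * y * g = x⁻¹ * (y * g * y⁻¹) * y := by group
      _ = x⁻¹ * (x * g * x⁻¹) * y := by rw [h6]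
      _ = _ := by group
  by_cases h : MulAction.stabilizer G A ≤ A.1
  · left
    exact relIndex_eq_one.2 h
  · right
    obtain ⟨a, ha, haA⟩ := SetLike.not_le_iff_exists.1 h
    rw [relIndex, index_eq_two_iff]
    refine ⟨⟨a, ha⟩, fun b => ?_⟩
    rw [mem_subgroupOf, mem_subgroupOf]
    show Xor' ((b : G) * a ∈ A.1) ((b : G) ∈ A.1)
    by_cases hb : (b : G) ∈ A.1
    · right
      refine ⟨hb, fun h1 => haA ?_⟩
      have := mul_mem (inv_mem hb) h1
      rwa [inv_mul_cancel_left] at this
    · left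
      refine ⟨?_, hb⟩
      have h2 := key (b : G)⁻¹ (inv_mem b.2) a ha (fun h3 => hb (by simpa using inv_mem h3)) haA
      rwa [inv_inv] at h2

omit hC in
theorem w_card (A : XC G) : Nat.card {x : G // x ∈ A.1 ∧ x ∉ center G} + Nat.card (center G) = Nat.card A.1 := by
  classical
  have e : {x : A.1 // (x : G) ∈ center G} ≃ center G :=
    { toFun := fun x => ⟨x.1, x.2⟩
      invFun := fun x => ⟨⟨x.1, center_le A x.2⟩, x.2⟩
      left_inv := fun x => rfl
      right_inv := fun x => rfl }
  have e' : {x : A.1 // ¬ (x : G) ∈ center G} ≃ {x : G // x ∈ A.1 ∧ x ∉ center G} :=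
    { toFun := fun x => ⟨x.1, x.1.2, x.2⟩
      invFun := fun x => ⟨⟨x.1, x.2.1⟩, x.2.2⟩
      left_inv := fun x => rfl
      right_inv := fun x => rfl }
  rw [← Nat.card_congr e, ← Nat.card_congr e', add_comm, ← Nat.card_sum]
  exact Nat.card_congr (Equiv.sumCompl _)

theorem sum_w [Fintype (XC G)] : (∑ A : XC G, Nat.card {x : G // x ∈ A.1 ∧ x ∉ center G}) + Nat.card (center G) = Nat.card G := by
  classical
  have e : {x : G // ¬ x ∈ center G} ≃ Σ A : XC G, {x : G // x ∈ A.1 ∧ x ∉ center G} :=
    { toFun := fun x => ⟨⟨centralizer {x.1}, x.1, x.2, rfl⟩, x.1, mem_cent.2 rfl, x.2⟩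
      invFun := fun s => ⟨s.2.1, s.2.2.2⟩
      left_inv := fun x => rfl
      right_inv := by
        rintro ⟨⟨A, hA⟩, x, hxA, hxZ⟩
        have h1 : A = centralizer {x} := eq_cent hC ⟨A, hA⟩ hxA hxZ
        subst h1
        rfl }
  rw [← Nat.card_sigma, ← Nat.card_congr e, add_comm, ← Nat.card_sum]
  exact Nat.card_congr (Equiv.sumCompl _)

theorem main (hidx : ∀ A : Subgroup G, (∀ a ∈ A, ∀ b ∈ A, a * b = b * a) → 3 ≤ A.index) :
    (center G).index = 12 ∨ (center G).index = 24 ∨ (center G).index = 60 := by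
  classical
  haveI : Fintype (XC G) := Fintype.ofFinite _
  set n := (center G).index with hn
  set z := Nat.card (center G) with hz
  have hz0 : 0 < z := Nat.card_pos
  have hn3 : 3 ≤ n := hidx (center G) (fun a ha b hb => (mem_center_iff.1 hb a))
  let Ω := MulAction.orbitRel.Quotient G (XC G)
  haveI : Fintype Ω := Fintype.ofFinite _
  -- the data
  let k : XC G → ℕ := fun A => A.1.index
  let m' : XC G → ℕ := fun A => (center G).relIndex A.1 - 1
  let o : XC G → ℕ := fun A => Nat.card (MulAction.orbit G A)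
  have hkm : ∀ A, k A * (m' A + 1) = n ∧ 1 ≤ m' A ∧ Nat.card {x : G // x ∈ A.1 ∧ x ∉ center G} = z * m' A := by
    intro A
    have h1 : (center G).relIndex A.1 * A.1.index = n := relIndex_mul_index (center_le A)
    have h2 : z * (center G).relIndex A.1 = Nat.card A.1 := by
      have h3 := Subgroup.relIndex_mul_relIndex ⊥ (center G) A.1 bot_le (center_le A)
      rwa [relIndex_bot_left, relIndex_bot_left] at h3
    have h3 := w_card A
    have h4 : 2 ≤ (center G).relIndex A.1 := by
      have h5 : (center G).relIndex A.1 ≠ 0 := by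
        intro h6
        rw [h6, zero_mul] at h1
        omega
      have h6 : (center G).relIndex A.1 ≠ 1 := by
        intro h7
        obtain ⟨g, hg, hg'⟩ := center_lt A
        exact hg' (relIndex_eq_one.1 h7 hg)
      omega
    obtain ⟨r, hr⟩ : ∃ r, (center G).relIndex A.1 = r + 1 := ⟨(center G).relIndex A.1 - 1, by omega⟩
    have hm : m' A = r := by
      show (center G).relIndex A.1 - 1 = r
      omega
    rw [hm]
    rw [hr] at h1 h2 h4
    refine ⟨by rw [mul_comm]; exact h1, by omega, ?_⟩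
    have h7 : Nat.card {x : G // x ∈ A.1 ∧ x ∉ center G} + z = z * r + z := by
      rw [h3, ← h2]; ring
    omega
  have hk3 : ∀ A, 3 ≤ k A := fun A => hidx A.1 (XC_ab hC A)
  have ho : ∀ A, o A = k A ∨ 2 * o A = k A := by
    intro A
    have h1 : A.1.relIndex (MulAction.stabilizer G A) * (MulAction.stabilizer G A).index = A.1.index :=
      relIndex_mul_index (le_stab hC A)
    have h2 : (MulAction.stabilizer G A).index = o A := by
      rw [MulAction.index_stabilizer]
      rfl
    rw [h2] at h1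
    rcases stab_rel hC A with h | h <;> rw [h] at h1
    · left; rw [one_mul] at h1; exact h1
    · right; exact h1
  let T : XC G → ℕ := fun A => o A * m' A
  have hT : ∀ A, T A + k A = n ∨ 2 * T A + k A = n := by
    intro A
    obtain ⟨h1, -, -⟩ := hkm A
    rcases ho A with h | h
    · left
      show o A * m' A + k A = n
      rw [h, ← h1]; ring
    · right
      show 2 * (o A * m' A) + k A = n
      rw [← mul_assoc, h, ← h1]; ring
  have hp : ∀ A, 2 * k A = n ∨ 3 * k A = n ∨ 4 * k A = n ∨ 5 * k A = n ∨ 6 * k A ≤ n := by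
    intro A
    obtain ⟨h1, h2, -⟩ := hkm A
    exact pent h1 (by omega)
  have hT4 : ∀ A, n ≤ 4 * T A := by
    intro A
    have h1 := hT A
    have h2 := hp A
    have h3 := hk3 A
    omega
  -- the sum
  have hw : ∀ (A : XC G) (g : G), m' (g • A) = m' A := by
    intro A g
    have h1 := (hkm A).2.2
    have h2 := (hkm (g • A)).2.2
    have h3 : Nat.card (g • A).1 = Nat.card A.1 := by
      rw [smul_val]
      exact (Nat.card_congr (equivMapOfInjective A.1 _ (MulAut.conj g).injective).toEquiv).symm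
    have h4 := w_card A
    have h5 := w_card (g • A)
    have h6 : z * m' (g • A) = z * m' A := by omega
    exact Nat.eq_of_mul_eq_mul_left hz0 h6
  have hsum : ∑ ω : Ω, T ω.out + 1 = n := by
    have h1 := sum_w hC
    rw [Finset.sum_congr rfl (fun A _ => (hkm A).2.2), ← Finset.mul_sum] at h1
    have h2 : z * n = Nat.card G := card_mul_index _
    rw [← h2] at h1
    have h3 : z * (∑ A : XC G, m' A + 1) = z * n := by rw [← h1]; ring
    have h4 := Nat.eq_of_mul_eq_mul_left hz0 h3
    rw [← h4]
    congr 1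
    rw [← Finset.sum_fiberwise Finset.univ (fun A : XC G => (Quotient.mk'' A : Ω)) m']
    apply Finset.sum_congr rfl
    intro ω _
    show o ω.out * m' ω.out = _
    have hout : (Quotient.mk'' ω.out : Ω) = ω := Quotient.out_eq' ω
    have hfib : ∀ A : XC G, (Quotient.mk'' A : Ω) = ω ↔ A ∈ MulAction.orbit G ω.out := by
      intro A
      conv_lhs => rw [← hout]
      rw [Quotient.eq'']
      exact MulAction.orbitRel_apply
    rw [Finset.sum_const_nat (m := m' ω.out)]
    · congr 1
      show Nat.card (MulAction.orbit G ω.out) = _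
      rw [← Fintype.card_subtype, ← Nat.card_eq_fintype_card]
      exact Nat.card_congr (Equiv.subtypeEquivRight (fun A => (hfib A).symm))
    · intro A hA
      rw [Finset.mem_filter] at hA
      obtain ⟨g, hg⟩ := (hfib A).1 hA.2
      rw [← hg]
      exact hw _ g
  have hcard : Fintype.card Ω ≤ 3 := by
    by_contra hcon
    push Not at hcon
    have h1 : Fintype.card Ω * n ≤ ∑ ω : Ω, 4 * T ω.out := by
      calc Fintype.card Ω * n = ∑ ω : Ω, n := by rw [Finset.sum_const, Finset.card_univ, smul_eq_mul]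
        _ ≤ _ := Finset.sum_le_sum (fun ω _ => hT4 _)
    rw [← Finset.mul_sum] at h1
    have h2 : 4 * n ≤ Fintype.card Ω * n := Nat.mul_le_mul_right n hcon
    omega
  have hc' : Fintype.card Ω = 0 ∨ Fintype.card Ω = 1 ∨ Fintype.card Ω = 2 ∨ Fintype.card Ω = 3 := by omega
  rw [← Finset.card_univ] at hc'
  rcases hc' with h | h | h | h
  · rw [Finset.card_eq_zero] at h
    rw [h, Finset.sum_empty] at hsum
    omega
  · obtain ⟨a, ha⟩ := Finset.card_eq_one.1 h
    rw [ha, Finset.sum_singleton] at hsum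
    have h1 := hT a.out
    have h2 := hk3 a.out
    omega
  · obtain ⟨a, b, hab, ha⟩ := Finset.card_eq_two.1 h
    rw [ha, Finset.sum_pair hab] at hsum
    left
    exact num2 (hk3 a.out) (hk3 b.out) (hp _) (hp _) (hT _) (hT _) hsum
  · obtain ⟨a, b, c, hab, hac, hbc, ha⟩ := Finset.card_eq_three.1 h
    rw [ha, Finset.sum_insert (by simp [hab, hac]), Finset.sum_pair hbc, ← add_assoc] at hsum
    exact num3 (hk3 a.out) (hk3 b.out) (hk3 c.out) (hp _) (hp _) (hp _) (hT _) (hT _) (hT _) hsum

end

end Cfsg.Agent.H7.Prim2
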