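import Cfsg.Agent.H7.Prim2B
import Cfsg.Prelude.Def_Blocks
import Cfsg.Agent.H27.CentralChar

set_option autoImplicit false
set_option linter.all false

/-!
Primitive linear groups of degree 2: the characters.
-/

namespace Cfsg.Agent.H7.Prim2

open Cfsg Cfsg.Agent.H3 Subgroup

set_option maxHeartbeats 400000

universe u

theorem ab_index {G : Type u} [Group G] [Fintype G] {χ : G → ℂ} (hχ : IsIrrCharacter G χ) (h2 : χ 1 = (2 : ℕ))
    (hprim : ∀ H : Subgroup G, H ≠ ⊤ → ∀ θ : H → ℂ, IsCharacter H θ → χ ≠ indFun H θ)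
    (A : Subgroup G) (hA : ∀ a ∈ A, ∀ b ∈ A, a * b = b * a) : 3 ≤ A.index := by
  classical
  have h1 := irr_degree_le_index hχ h2 A hA
  by_contra hcon
  have hi : A.index = 2 := by omega
  haveI := Fintype.ofFinite A
  have h0 : (fun a : A => χ a) ≠ 0 := by
    intro h
    exact irr_one_ne_zero hχ (congrFun h 1)
  obtain ⟨lam, hlam⟩ := exists_constituent (isChar_restrict A (irr_isChar hχ)) h0
  haveI : IsMulCommutative A := ⟨⟨fun a b => Subtype.ext (hA a a.2 b b.2)⟩⟩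
  have hlam1 : (lam : A → ℂ) 1 = 1 := irr_degree_one_of_comm lam.2
  have hne : classInner (indFun A lam) χ ≠ 0 := by
    rw [frobenius_reciprocity A lam (irr_classFun hχ)]
    exact classInner_ne_zero_symm hlam
  have hind := isChar_ind A (irr_isChar lam.2)
  have hsub := isChar_sub_irr hind hχ hne
  have hzero : indFun A lam - χ = 0 := by
    by_contra h
    obtain ⟨ψ, hψ⟩ := exists_constituent hsub h
    obtain ⟨d, hd⟩ := char_one_eq_nat (irr_isChar ψ.2)
    have h3 := char_degree_le_of_inner_ne_zero hsub ψ.2 hψ (m := 0) (n := d) (by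
      rw [Pi.sub_apply, indFun_one_apply, hlam1, hi, h2]
      simp) hd
    have h4 : d = 0 := by omega
    rw [h4, Nat.cast_zero] at hd
    exact irr_one_ne_zero ψ.2 hd
  have hAt : A ≠ ⊤ := by
    rintro rfl
    rw [index_top] at hi
    omega
  exact hprim A hAt lam (irr_isChar lam.2) (sub_eq_zero.1 hzero).symm

theorem result {G : Type u} [Group G] [Fintype G] {χ : G → ℂ} (hχ : IsIrrCharacter G χ) (h2 : χ 1 = (2 : ℕ))
    (hf : ∀ g : G, χ g = χ 1 → g = 1)
    (hprim : ∀ H : Subgroup G, H ≠ ⊤ → ∀ θ : H → ℂ, IsCharacter H θ → χ ≠ indFun H θ) :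
    (center G).index = 12 ∨ (center G).index = 24 ∨ (center G).index = 60 := by
  have hab := ab_index hχ h2 hprim
  obtain ⟨n, ρ, hρ, hc⟩ := hχ
  have hn : n = 2 := by
    have h3 : χ 1 = (n : ℂ) := by
      rw [← hc, Representation.char_one]
      simp
    rw [h2] at h3
    exact_mod_cast h3.symm
  subst hn
  let M : G →* Matrix (Fin 2) (Fin 2) ℂ :=
    (LinearMap.toMatrixAlgEquiv' : ((Fin 2 → ℂ) →ₗ[ℂ] (Fin 2 → ℂ)) ≃ₐ[ℂ] Matrix (Fin 2) (Fin 2) ℂ).toMulEquiv.toMonoidHom.comp ρ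
  have hinj : Function.Injective M := by
    rw [injective_iff_map_eq_one]
    intro g hg
    apply hf
    have h3 : ρ g = 1 := by
      have h4 : (LinearMap.toMatrixAlgEquiv' : ((Fin 2 → ℂ) →ₗ[ℂ] (Fin 2 → ℂ)) ≃ₐ[ℂ] Matrix (Fin 2) (Fin 2) ℂ) (ρ g) = 1 := hg
      exact (map_eq_one_iff _ (AlgEquiv.injective _)).1 h4
    rw [← hc]
    show LinearMap.trace ℂ _ (ρ g) = LinearMap.trace ℂ _ (ρ 1)
    rw [h3, map_one ρ]
  exact main (CG_of_mat M hinj) hab

end Cfsg.Agent.H7.Prim2
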