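import Cfsg.Agent.H12.OmDec1
import Cfsg.Agent.H5.Orth2
import Cfsg.Agent.H5.Orth4
import Cfsg.Agent.H5.OmegaQuot
import Cfsg.Agent.H5.OmegaGen2
import Cfsg.Agent.H7.OrthSyl3
import Cfsg.Prelude.Def_FischerSpaces

set_option autoImplicit false
set_option linter.all false

/-!
The group generated by the reflections of a fixed norm.
-/

namespace Cfsg.Agent.H7.Refl3

open Cfsg Cfsg.Agent.H5 Cfsg.Agent.H12 Subgroup

set_option maxHeartbeats 400000

variable {F V : Type*} [Field F] [Finite F] [AddCommGroup V] [Module F V] [FiniteDimensional F V] [Finite V]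
  {Q : QuadraticForm F V}

/-- two orthogonal vectors of norm `c` -/
theorem exists_two (hnd : ND Q) (hn : 5 ≤ Module.finrank F V) (c : F) :
    ∃ u v, Q u = c ∧ Q v = c ∧ pB Q u v = 0 := by
  obtain ⟨p, hp0, hqp⟩ := exists_sing hnd (by omega)
  obtain ⟨f, hf, hpf⟩ := exists_partner hnd hp0 hqp
  have hN : NDS Q (Submodule.span F {p, f}) := by
    intro x hx hx'
    obtain ⟨a, b, rfl⟩ := Submodule.mem_span_pair.1 hx
    have h1 := hx' p (Submodule.subset_span (by simp))
    have h2 := hx' f (Submodule.subset_span (by simp))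
    rw [pl_add, pl_smul, pl_smul, pB_self, pB_symm Q f p, hpf, hqp] at h1
    rw [pl_add, pl_smul, pl_smul, pB_self, hpf, hf] at h2
    have hb : b = 0 := by linear_combination h1
    have ha : a = 0 := by linear_combination h2
    rw [ha, hb]; module
  have hoc := NDS.oc hnd hN
  have hd := finrank_oc hnd (Submodule.span F {p, f})
  have hd2 := finrank_span_pair_le (F := F) p f
  obtain ⟨p', hp', hp0', hqp'⟩ := exists_singW (Q := Q) (W := oc Q (Submodule.span F {p, f})) (by omega)
  obtain ⟨f', hf', hpf'⟩ := exists_partner (Q := resQ Q (oc Q (Submodule.span F {p, f}))) hoc.nd (u := ⟨p', hp'⟩)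
    (fun h => hp0' (congrArg Subtype.val h)) hqp'
  obtain ⟨g, hgW⟩ := f'
  have hqg : Q g = 0 := hf'
  have hpg : pB Q p' g = 1 := hpf'
  obtain ⟨hpp', hfp'⟩ := mem_oc_pair.1 hp'
  obtain ⟨hpg', hfg'⟩ := mem_oc_pair.1 hgW
  refine ⟨p + c • f, p' + c • g, ?_, ?_, ?_⟩
  · rw [q_add, q_smul, hqp, hf, pr_smul, hpf]; ring
  · rw [q_add, q_smul, hqp', hqg, pr_smul, hpg]; ring
  · rw [pl_add, pl_smul, pr_add, pr_add, pr_smul, pr_smul, hpp', hpg', hfp', hfg']; ring

/-- the group generated by the reflections of norm `c` -/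
def Rc (Q : QuadraticForm F V) (c : F) : Subgroup (OG Q) :=
  closure {g | ∃ (v : V) (hv : Q v ≠ 0), Q v = c ∧ g = refl hv}

omit [Finite F] [FiniteDimensional F V] [Finite V] in
theorem Rc_normal (c : F) : (Rc Q c).Normal := by
  refine ⟨fun x hx g => ?_⟩
  induction hx using closure_induction with
  | mem x hx =>
    obtain ⟨v, hv, hc, rfl⟩ := hx
    have h1 : Q (g v) = Q v := g.2 v
    have h2 : Q (g v) ≠ 0 := by rw [h1]; exact hv
    have h3 := refl_conj g hv h2
    apply Subgroup.subset_closure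
    refine ⟨g v, h2, by rw [h1, hc], ?_⟩
    first | exact h3.symm | exact h3
  | one => rw [mul_one, mul_inv_cancel]; exact one_mem _
  | mul x y _ _ hx hy =>
    have h : g * (x * y) * g⁻¹ = (g * x * g⁻¹) * (g * y * g⁻¹) := by group
    rw [h]; exact mul_mem hx hy
  | inv x _ hx =>
    have h : g * x⁻¹ * g⁻¹ = (g * x * g⁻¹)⁻¹ := by group
    rw [h]; exact inv_mem hx

omit [Finite F] [Finite V] in
theorem odet_comm {g : OG Q} (hg : g ∈ commutator (OG Q)) : odet Q g = 1 := by
  have h : commutator (OG Q) ≤ (MonoidHom.toHomUnits (odet Q)).ker := Abelianization.commutator_subset_ker _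
  have h2 := MonoidHom.mem_ker.1 (h hg)
  exact congrArg Units.val h2

theorem index_Rc (hnd : ND Q) (hn : 5 ≤ Module.finrank F V) (hodd : Odd (Module.finrank F V)) (h2 : (2 : F) ≠ 0)
    {c : F} (hc : c ≠ 0) : (Rc Q c).index = 2 := by
  classical
  haveI : Finite (OG Q) := inferInstance
  haveI hRn := Rc_normal (Q := Q) c
  obtain ⟨u, v, hu, hv, huv⟩ := exists_two hnd hn c
  have hu0 : Q u ≠ 0 := by rw [hu]; exact hc
  have hv0 : Q v ≠ 0 := by rw [hv]; exact hc
  have hsing : ∃ u : V, u ≠ 0 ∧ Q u = 0 := exists_sing hnd (by omega)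
  have hEG := eg_eq_comm hnd hn hsing
  have hm11 : (-1 : F) ≠ 1 := by
    intro h
    apply h2
    linear_combination -h
  -- the centre is trivial
  have hneg : ogNeg Q ∉ EG Q := by
    rw [hEG]
    intro h
    have h3 := odet_comm h
    have h4 : odet Q (ogNeg Q) = (-1) ^ Module.finrank F V := by
      show LinearMap.det (((LinearEquiv.neg F : V ≃ₗ[F] V)) : V →ₗ[F] V) = _
      have h5 : (((LinearEquiv.neg F : V ≃ₗ[F] V)) : V →ₗ[F] V) = (-1 : F) • LinearMap.id := by
        apply LinearMap.ext
        intro x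
        simp
      rw [h5, LinearMap.det_smul, LinearMap.det_id, mul_one]
    rw [h4, hodd.neg_one_pow] at h3
    exact hm11 h3
  have hcen := card_center_one hnd hn (Or.inr hneg)
  have hcb : Subgroup.center (EG Q) = ⊥ := Subgroup.card_eq_one.1 hcen
  haveI hsimple := eg_simple hnd hn
  -- Ω ≤ Rc
  have hle : commutator (OG Q) ≤ Rc Q c := by
    rw [← hEG]
    haveI hMn : ((Rc Q c).subgroupOf (EG Q)).Normal := inferInstance
    have h3 : (((Rc Q c).subgroupOf (EG Q)).map (QuotientGroup.mk' (Subgroup.center (EG Q)))).Normal :=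
      hMn.map _ (QuotientGroup.mk'_surjective _)
    rcases h3.eq_bot_or_eq_top with h4 | h4
    · exfalso
      have h5 : (Rc Q c).subgroupOf (EG Q) = ⊥ := by
        rw [Subgroup.map_eq_bot_iff, QuotientGroup.ker_mk', hcb] at h4
        exact le_bot_iff.1 h4
      have h6 : refl hu0 * refl hv0 ∈ commutator (OG Q) := OrthSyl.refl_mul_mem hnd hu0 hv0 ⟨c, by rw [hu, hv]⟩
      rw [← hEG] at h6
      have h7 : (⟨refl hu0 * refl hv0, h6⟩ : EG Q) ∈ (Rc Q c).subgroupOf (EG Q) := by
        rw [mem_subgroupOf]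
        exact mul_mem (Subgroup.subset_closure ⟨u, hu0, hu, rfl⟩) (Subgroup.subset_closure ⟨v, hv0, hv, rfl⟩)
      rw [h5, mem_bot] at h7
      have h8 : refl hu0 * refl hv0 = 1 := congrArg Subtype.val h7
      have h9 : refl hu0 (refl hv0 u) = u := by
        rw [← og_mul, h8, og_one]
      have h10 : refl hv0 u = u := by
        rw [refl_apply, pB_symm Q v u, huv, mul_zero, zero_smul, sub_zero]
      rw [h10, refl_self] at h9
      have h11 : (2 : F) • u = 0 := by
        have : (2 : F) • u = u - (-u) := by module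
        rw [this, h9, sub_self]
      rcases smul_eq_zero.1 h11 with h12 | h12
      · exact h2 h12
      · exact hu0 (by rw [h12, map_zero])
    · have h5 : (Rc Q c).subgroupOf (EG Q) = ⊤ := by
        rw [eq_top_iff]
        intro x _
        have h6 : QuotientGroup.mk' (Subgroup.center (EG Q)) x ∈ ((Rc Q c).subgroupOf (EG Q)).map (QuotientGroup.mk' (Subgroup.center (EG Q))) := by
          rw [h4]; exact mem_top _
        obtain ⟨y, hy, hyx⟩ := h6
        have h7 : y⁻¹ * x ∈ Subgroup.center (EG Q) := QuotientGroup.eq.1 hyx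
        rw [hcb, mem_bot, inv_mul_eq_one] at h7
        rw [← h7]; exact hy
      rwa [subgroupOf_eq_top] at h5
  -- relative index
  have hrΩ : refl hu0 ∉ commutator (OG Q) := by
    intro h
    have h3 := odet_comm h
    rw [odet_refl] at h3
    exact hm11 h3
  have hur : refl hu0 ∈ Rc Q c := Subgroup.subset_closure ⟨u, hu0, hu, rfl⟩
  have key : ∀ b ∈ Rc Q c, b ∈ commutator (OG Q) ∨ b * refl hu0 ∈ commutator (OG Q) := by
    have hN : (commutator (OG Q)).Normal := inferInstance
    have hsq : refl hu0 * refl hu0 = 1 := refl_mul_self hu0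
    -- work in the abelianization
    have h3 : ∀ b ∈ Rc Q c, Abelianization.of b = 1 ∨ Abelianization.of b = Abelianization.of (refl hu0) := by
      have hsq' : Abelianization.of (refl hu0) * Abelianization.of (refl hu0) = 1 := by
        rw [← map_mul, hsq, map_one]
      intro b hb
      induction hb using closure_induction with
      | mem x hx =>
        obtain ⟨w, hw, hwc, rfl⟩ := hx
        right
        have h4 : refl hw * refl hu0 ∈ commutator (OG Q) := OrthSyl.refl_mul_mem hnd hw hu0 ⟨c, by rw [hwc, hu]⟩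
        rw [← Abelianization.ker_of, MonoidHom.mem_ker, map_mul] at h4
        rw [← hsq'] at h4
        exact mul_right_cancel h4
      | one => left; exact map_one _
      | mul x y _ _ hx hy =>
        rw [map_mul]
        rcases hx with hx | hx <;> rcases hy with hy | hy <;> rw [hx, hy]
        · left; rw [one_mul]
        · right; rw [one_mul]
        · right; rw [mul_one]
        · left; exact hsq'
      | inv x _ hx =>
        rw [map_inv]
        rcases hx with hx | hx <;> rw [hx]
        · left; rw [inv_one]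
        · right; exact inv_eq_of_mul_eq_one_right hsq'
    intro b hb
    rcases h3 b hb with h4 | h4
    · left
      rwa [← Abelianization.ker_of, MonoidHom.mem_ker]
    · right
      rw [← Abelianization.ker_of, MonoidHom.mem_ker, map_mul, h4, ← map_mul, hsq, map_one]
  have hrel : (commutator (OG Q)).relIndex (Rc Q c) = 2 := by
    rw [relIndex, index_eq_two_iff]
    refine ⟨⟨refl hu0, hur⟩, fun b => ?_⟩
    rw [mem_subgroupOf, mem_subgroupOf]
    show Xor' ((b : OG Q) * refl hu0 ∈ commutator (OG Q)) ((b : OG Q) ∈ commutator (OG Q))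
    rcases key b b.2 with h | h
    · right
      refine ⟨h, fun h3 => hrΩ ?_⟩
      have := mul_mem (inv_mem h) h3
      rwa [inv_mul_cancel_left] at this
    · left
      refine ⟨h, fun h3 => hrΩ ?_⟩
      have := mul_mem (inv_mem h3) h
      rwa [inv_mul_cancel_left] at this
  have h4 : (commutator (OG Q)).index = 4 := by
    have h5 := card_eg hnd hn
    have h6 := card_eg_odd hnd hn h2
    rw [← h6] at h5
    exact Nat.eq_of_mul_eq_mul_left Nat.card_pos h5
  have h5 := relIndex_mul_index hle
  rw [hrel, h4] at h5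
  omega

theorem result {n : ℕ} (hn : 5 ≤ n) (hodd : Odd n) (Q : QuadraticForm (ZMod 3) (Fin n → ZMod 3))
    (hQ : (QuadraticMap.polarBilin Q).Nondegenerate) {c : ZMod 3} (hc : c ≠ 0) : (Cfsg.reflectionSubgroup (⇑Q) c).index = 2 := by
  haveI : Fact (Nat.Prime 3) := ⟨Nat.prime_three⟩
  have hnd : ND Q := fun x hx => hQ.1 x (fun y => hx y)
  have hfr : Module.finrank (ZMod 3) (Fin n → ZMod 3) = n := by
    rw [Module.finrank_fintype_fun_eq_card, Fintype.card_fin]
  have h1 := index_Rc hnd (by rw [hfr]; exact hn) (by rw [hfr]; exact hodd) (by decide) hc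
  have h2 : Rc Q c = (Cfsg.reflectionSubgroup (⇑Q) c).map (ogEquiv Q).toMonoidHom := by
    unfold Rc Cfsg.reflectionSubgroup
    rw [MonoidHom.map_closure]
    congr 1
    ext g
    constructor
    · rintro ⟨v, hv, hvc, rfl⟩
      exact ⟨(ogEquiv Q).symm (refl hv), ⟨v, hvc, (ogEquiv_eq_refl hv _).1 ((ogEquiv Q).apply_symm_apply _)⟩,
        (ogEquiv Q).apply_symm_apply _⟩
    · rintro ⟨x, ⟨v, hv, hx⟩, rfl⟩
      have hv0 : Q v ≠ 0 := by rw [hv]; exact hc
      exact ⟨v, hv0, hv, (ogEquiv_eq_refl hv0 _).2 hx⟩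
  rw [h2] at h1
  rw [← h1]
  exact (Subgroup.index_map_equiv _ (ogEquiv Q)).symm

end Cfsg.Agent.H7.Refl3
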