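import Mathlib.FieldTheory.Finite.Basic
import Mathlib.FieldTheory.Finite.Trace
import Mathlib.RepresentationTheory.Basic
import Mathlib.LinearAlgebra.BilinearForm.Properties
import Mathlib.LinearAlgebra.FiniteDimensional.Lemmas
import Mathlib.RingTheory.IntegralDomain

set_option autoImplicit false
set_option linter.style.haveILetI false
set_option linter.unusedSectionVars false

/-! Irreducible abelian linear groups over finite fields and self-duality. -/

namespace Cfsg.Agent.SD

universe u v w

variable {F : Type u} [Field F] [Finite F] {H : Type w} [CommGroup H] {V : Type v} [AddCommGroup V]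
  [Module F V] [FiniteDimensional F V]

theorem exists_field [Nontrivial V] (ρ : Representation F H V)
    (hirr : ∀ U : Submodule F V, (∀ h : H, ∀ u ∈ U, ρ h u ∈ U) → U = ⊥ ∨ U = ⊤) :
    ∃ (K : Type v) (_ : Field K) (_ : Algebra F K) (_ : Module K V) (_ : IsScalarTower F K V)
      (_ : Finite K) (u : H →* K), (∀ h x, ρ h x = u h • x) ∧
      Algebra.adjoin F (Set.range u) = ⊤ ∧ ∀ v : V, v ≠ 0 → ∀ w, ∃ k : K, k • v = w := by
  let S : Subalgebra F (Module.End F V) := Algebra.adjoin F (Set.range ρ)
  have hcomm : ∀ a ∈ Set.range ρ, ∀ b ∈ Set.range ρ, a * b = b * a := by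
    rintro _ ⟨g, rfl⟩ _ ⟨h, rfl⟩
    rw [← map_mul, ← map_mul, mul_comm]
  have hS : ∀ s t : S, s * t = t * s := fun s t =>
    (Algebra.adjoinCommRingOfComm F hcomm).mul_comm s t
  have hρS : ∀ h, ρ h ∈ S := fun h => Algebra.subset_adjoin ⟨h, rfl⟩
  have hinj : ∀ s : S, s ≠ 0 → ∀ v : V, (s : Module.End F V) v = 0 → v = 0 := by
    intro s hs v hv
    have h1 : ∀ h : H, ∀ x ∈ LinearMap.ker (s : Module.End F V),
        ρ h x ∈ LinearMap.ker (s : Module.End F V) := by
      intro h x hx
      rw [LinearMap.mem_ker] at hx ⊢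
      have h2 := congrArg (fun f : S => (f : Module.End F V) x) (hS s ⟨ρ h, hρS h⟩)
      have h3 : (s : Module.End F V) (ρ h x) = ρ h ((s : Module.End F V) x) := h2
      rw [h3, hx, map_zero]
    rcases hirr _ h1 with h | h
    · have : v ∈ LinearMap.ker (s : Module.End F V) := hv
      rw [h] at this
      exact this
    · exfalso
      apply hs
      apply Subtype.ext
      exact LinearMap.ker_eq_top.1 h
  have hsurj : ∀ v : V, v ≠ 0 → ∀ w, ∃ k : S, (k : Module.End F V) v = w := by
    intro v hv w
    let T : Submodule F V :=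
      { carrier := {a | ∃ s : S, (s : Module.End F V) v = a}
        zero_mem' := ⟨0, rfl⟩
        add_mem' := by
          rintro _ _ ⟨s, rfl⟩ ⟨t, rfl⟩
          exact ⟨s + t, rfl⟩
        smul_mem' := by
          rintro c _ ⟨s, rfl⟩
          exact ⟨c • s, rfl⟩ }
    have h1 : ∀ h : H, ∀ x ∈ T, ρ h x ∈ T := by
      rintro h _ ⟨s, rfl⟩
      exact ⟨⟨ρ h, hρS h⟩ * s, rfl⟩
    have h2 : v ∈ T := ⟨1, rfl⟩
    rcases hirr T h1 with h | h
    · rw [h] at h2
      exact absurd h2 hv
    · have : w ∈ T := by rw [h]; trivial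
      exact this
  have hfield : IsField S := by
    obtain ⟨v, hv⟩ := exists_ne (0 : V)
    refine ⟨⟨0, 1, ?_⟩, hS, ?_⟩
    · intro h
      apply hv
      exact (congrArg (fun f : S => (f : Module.End F V) v) h).symm
    · intro s hs
      have hsv : (s : Module.End F V) v ≠ 0 := fun h => hv (hinj s hs v h)
      obtain ⟨t, ht⟩ := hsurj _ hsv v
      refine ⟨t, ?_⟩
      rw [hS]
      by_contra h
      refine hv (hinj (t * s - 1) (sub_ne_zero.2 h) v ?_)
      show (t : Module.End F V) ((s : Module.End F V) v) - v = 0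
      rw [ht, sub_self]
  haveI : Finite V := Module.finite_of_finite F
  haveI : Finite (Module.End F V) := Finite.of_injective (fun f : Module.End F V => (f : V → V))
    DFunLike.coe_injective
  haveI hfin : Finite S := Subtype.finite
  refine ⟨S, hfield.toField, inferInstance, inferInstance, inferInstance, hfin,
    { toFun := fun h => ⟨ρ h, hρS h⟩
      map_one' := Subtype.ext (map_one ρ)
      map_mul' := fun g h => Subtype.ext (map_mul ρ g h) }, fun h x => rfl, ?_, hsurj⟩
  have h1 : (Algebra.adjoin F (Set.range fun h : H => (⟨ρ h, hρS h⟩ : S))) = ⊤ := by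
    have h2 := Algebra.adjoin_adjoin_coe_preimage (R := F) (s := Set.range ρ)
    rw [← h2]
    congr 1
    ext x
    constructor
    · rintro ⟨h, rfl⟩
      exact ⟨h, rfl⟩
    · rintro ⟨h, hh⟩
      exact ⟨h, Subtype.ext hh⟩
  exact h1

end Cfsg.Agent.SD
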