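import Cfsg.Agent.H7.SD1
import Mathlib.RingTheory.Trace.Basic
import Mathlib.LinearAlgebra.Matrix.BilinearForm
import Mathlib.FieldTheory.Perfect

set_option autoImplicit false
set_option linter.style.haveILetI false
set_option linter.unusedSectionVars false

/-! Self-duality of irreducible abelian linear groups over finite fields. -/

namespace Cfsg.Agent.SD

universe u v w

section adj

variable {F : Type u} [Field F] {H : Type w} [CommGroup H] {V : Type v} [AddCommGroup V]
  [Module F V] [Nontrivial V] {K : Type v} [Field K] [Algebra F K] [Module K V]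
  [IsScalarTower F K V]

theorem adj_unique (B : LinearMap.BilinForm F V) (hB : B.Nondegenerate) {a b : K}
    (h : ∀ x y, B x (a • y) = B x (b • y)) : a = b := by
  obtain ⟨y, hy⟩ := exists_ne (0 : V)
  have h1 : (a - b) • y = 0 := by
    apply hB.2
    intro x
    rw [sub_smul, map_sub, h, sub_self]
  rcases smul_eq_zero.1 h1 with h2 | h2
  · exact sub_eq_zero.1 h2
  · exact absurd h2 hy

theorem exists_adj (B : LinearMap.BilinForm F V) (hB : B.Nondegenerate) (u : H →* K)
    (hu : Algebra.adjoin F (Set.range u) = ⊤)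
    (hinv : ∀ h x y, B (u h • x) (u h • y) = B x y) :
    ∃ σ : K →ₐ[F] K, (∀ (k : K) x y, B (k • x) y = B x (σ k • y)) ∧ (∀ h, σ (u h) * u h = 1) ∧
      ∀ k, σ (σ k) = k := by
  have hex : ∀ k : K, ∃ k' : K, ∀ x y, B (k • x) y = B x (k' • y) := by
    intro k
    have hk : k ∈ Algebra.adjoin F (Set.range u) := by rw [hu]; trivial
    induction hk using Algebra.adjoin_induction with
    | mem x hx =>
      obtain ⟨h, rfl⟩ := hx
      refine ⟨u h⁻¹, fun x y => ?_⟩
      rw [← hinv h x (u h⁻¹ • y), smul_smul, ← map_mul, mul_inv_cancel, map_one, one_smul]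
    | algebraMap r =>
      refine ⟨algebraMap F K r, fun x y => ?_⟩
      rw [algebraMap_smul, algebraMap_smul, map_smul, map_smul, LinearMap.smul_apply]
    | add a b _ _ ha hb =>
      obtain ⟨a', ha'⟩ := ha
      obtain ⟨b', hb'⟩ := hb
      refine ⟨a' + b', fun x y => ?_⟩
      rw [add_smul, add_smul, map_add, map_add, LinearMap.add_apply, ha', hb']
    | mul a b _ _ ha hb =>
      obtain ⟨a', ha'⟩ := ha
      obtain ⟨b', hb'⟩ := hb
      refine ⟨b' * a', fun x y => ?_⟩
      rw [mul_smul, mul_smul, ha', hb']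
  choose f hf using hex
  let σ : K →ₐ[F] K :=
    { toFun := f
      map_one' := adj_unique B hB fun x y => by rw [← hf, one_smul, one_smul]
      map_mul' := fun a b => adj_unique B hB fun x y => by
        rw [← hf, mul_comm a b, mul_smul, mul_smul, hf, hf]
      map_zero' := adj_unique B hB fun x y => by rw [← hf, zero_smul, zero_smul]; simp
      map_add' := fun a b => adj_unique B hB fun x y => by
        rw [← hf, add_smul, add_smul, map_add, map_add, LinearMap.add_apply, hf, hf]
      commutes' := fun r => adj_unique B hB fun x y => by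
        rw [← hf, algebraMap_smul, algebraMap_smul, map_smul, map_smul, LinearMap.smul_apply] }
  have hσ : ∀ h, σ (u h) * u h = 1 := by
    intro h
    have h1 : σ (u h) = u h⁻¹ := adj_unique B hB fun x y => by
      show B x (f (u h) • y) = _
      rw [← hf, ← hinv h x (u h⁻¹ • y), smul_smul, ← map_mul, mul_inv_cancel, map_one, one_smul]
    rw [h1, ← map_mul, inv_mul_cancel, map_one]
  refine ⟨σ, hf, hσ, ?_⟩
  have h2 : σ.comp σ = AlgHom.id F K := by
    apply AlgHom.ext_of_adjoin_eq_top hu
    rintro _ ⟨h, rfl⟩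
    show σ (σ (u h)) = u h
    have h3 := congrArg σ (hσ h)
    rw [map_mul, map_one] at h3
    have h4 := hσ h
    have h5 : σ (u h) ≠ 0 := by
      rintro h0
      rw [h0, zero_mul] at h4
      exact zero_ne_one h4
    apply mul_right_cancel₀ h5
    rw [h3, mul_comm, h4]
  exact fun k => DFunLike.congr_fun h2 k

end adj

section main

variable {F : Type u} [Field F] [Fintype F] {H : Type w} [CommGroup H] [Finite H] {V : Type v}
  [AddCommGroup V] [Module F V] [FiniteDimensional F V] [Nontrivial V]

theorem selfdual_imp (ρ : Representation F H V) (hfaith : Function.Injective ρ)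
    (hirr : ∀ U : Submodule F V, (∀ h : H, ∀ u ∈ U, ρ h u ∈ U) → U = ⊥ ∨ U = ⊤)
    (B : LinearMap.BilinForm F V) (hB : B.Nondegenerate)
    (hinv : ∀ h : H, ∀ x y : V, B (ρ h x) (ρ h y) = B x y) :
    (Module.finrank F V = 1 ∧ Nat.card H ≤ 2) ∨
      (Even (Module.finrank F V) ∧ Nat.card H ∣ Fintype.card F ^ (Module.finrank F V / 2) + 1) := by
  classical
  obtain ⟨K, _, _, _, _, _, u, hu1, hu2, hu3⟩ := exists_field ρ hirr
  have huinj : Function.Injective u := by
    intro g h hgh
    apply hfaith
    ext x
    rw [hu1, hu1, hgh]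
  obtain ⟨v0, hv0⟩ := exists_ne (0 : V)
  -- dimension
  have hlin : ∀ (v : V), v ≠ 0 → Function.Bijective
      (LinearMap.toSpanSingleton K V v : K →ₗ[K] V) := by
    intro v hv
    constructor
    · intro a b hab
      have h1 : (a - b) • v = 0 := by
        rw [sub_smul, sub_eq_zero]; exact hab
      rcases smul_eq_zero.1 h1 with h2 | h2
      · exact sub_eq_zero.1 h2
      · exact absurd h2 hv
    · intro w
      obtain ⟨k, hk⟩ := hu3 v hv w
      exact ⟨k, hk⟩
  have hdim : Module.finrank F K = Module.finrank F V :=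
    LinearEquiv.finrank_eq ((LinearEquiv.ofBijective _ (hlin v0 hv0)).restrictScalars F)
  haveI : FiniteDimensional F K := Module.Finite.of_finite
  obtain ⟨σ, hσ1, hσ2, hσ3⟩ := exists_adj B hB u hu2 (fun h x y => by
    rw [← hu1, ← hu1]; exact hinv h x y)
  obtain ⟨i, hi⟩ := (FiniteField.bijective_frobeniusAlgHom_pow F K).2 σ
  have hi' : FiniteField.frobeniusAlgHom F K ^ (i : ℕ) = σ := hi
  have hsq : FiniteField.frobeniusAlgHom F K ^ (2 * (i : ℕ)) = 1 := by
    rw [mul_comm, pow_mul, hi', sq]
    ext k
    exact hσ3 k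
  have hdvd := orderOf_dvd_of_pow_eq_one hsq
  have hlt : (i : ℕ) < Module.finrank F V := by rw [← hdim]; exact i.2
  generalize (i : ℕ) = i at *
  rw [FiniteField.orderOf_frobeniusAlgHom, hdim] at hdvd
  rcases Nat.eq_zero_or_pos (i : ℕ) with h0 | h0
  · left
    rw [h0, pow_zero] at hi'
    have h1 : ∀ h, u h = 1 ∨ u h = -1 := by
      intro h
      have := hσ2 h
      rw [← hi'] at this
      exact mul_self_eq_one_iff.1 this
    constructor
    · have h2 : ∀ h : H, ∀ x ∈ F ∙ v0, ρ h x ∈ F ∙ v0 := by
        intro h x hx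
        rw [hu1]
        rcases h1 h with h | h
        · rw [h, one_smul]; exact hx
        · rw [h, neg_smul, one_smul]; exact neg_mem hx
      rcases hirr _ h2 with h3 | h3
      · exact absurd (Submodule.span_singleton_eq_bot.1 h3) hv0
      · have h4 := finrank_span_singleton (K := F) hv0
        rw [h3, finrank_top] at h4
        exact h4
    · have h2 : Function.Injective (fun h => (if u h = 1 then 0 else 1 : Fin 2)) := by
        intro g h hgh
        apply huinj
        by_cases hg : u g = 1
        · by_cases hh : u h = 1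
          · rw [hg, hh]
          · simp [hg, hh] at hgh
        · by_cases hh : u h = 1
          · simp [hg, hh] at hgh
          · rw [(h1 g).resolve_left hg, (h1 h).resolve_left hh]
      have h3 := Nat.card_le_card_of_injective _ h2
      rwa [Nat.card_eq_fintype_card (α := Fin 2), Fintype.card_fin] at h3
  · right
    have h2 : 2 * (i : ℕ) = Module.finrank F V := by
      obtain ⟨c, hc⟩ := hdvd
      have hc1 : c < 2 := by
        by_contra hcon
        push Not at hcon
        have : Module.finrank F V * 2 ≤ Module.finrank F V * c := Nat.mul_le_mul_left _ hcon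
        omega
      have hc0 : c ≠ 0 := by rintro rfl; omega
      have : c = 1 := by omega
      rw [this, mul_one] at hc
      exact hc
    have h3 : Module.finrank F V / 2 = i := by omega
    refine ⟨⟨i, by omega⟩, ?_⟩
    rw [h3]
    have h4 : ∀ h : H, h ^ (Fintype.card F ^ (i : ℕ) + 1) = 1 := by
      intro h
      apply huinj
      rw [map_pow, map_one, pow_succ]
      have h5 : σ (u h) = u h ^ (Fintype.card F ^ (i : ℕ)) := by
        rw [← hi', AlgHom.coe_pow, FiniteField.coe_frobeniusAlgHom, pow_iterate]
      rw [← h5]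
      exact hσ2 h
    haveI : IsCyclic H := isCyclic_of_subgroup_isDomain u huinj
    rw [← IsCyclic.exponent_eq_card]
    exact Monoid.exponent_dvd_of_forall_pow_eq_one h4

theorem selfdual_of (ρ : Representation F H V)
    (hirr : ∀ U : Submodule F V, (∀ h : H, ∀ u ∈ U, ρ h u ∈ U) → U = ⊥ ∨ U = ⊤)
    (hev : Even (Module.finrank F V))
    (hdvd : Nat.card H ∣ Fintype.card F ^ (Module.finrank F V / 2) + 1) :
    ∃ B : LinearMap.BilinForm F V, B.Nondegenerate ∧
      ∀ h : H, ∀ x y : V, B (ρ h x) (ρ h y) = B x y := by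
  obtain ⟨K, _, _, _, _, _, u, hu1, hu2, hu3⟩ := exists_field ρ hirr
  obtain ⟨v0, hv0⟩ := exists_ne (0 : V)
  have hlin : Function.Bijective (LinearMap.toSpanSingleton K V v0 : K →ₗ[K] V) := by
    constructor
    · intro a b hab
      have h1 : (a - b) • v0 = 0 := by
        rw [sub_smul, sub_eq_zero]; exact hab
      rcases smul_eq_zero.1 h1 with h2 | h2
      · exact sub_eq_zero.1 h2
      · exact absurd h2 hv0
    · intro w
      obtain ⟨k, hk⟩ := hu3 v0 hv0 w
      exact ⟨k, hk⟩
  let e : K ≃ₗ[K] V := LinearEquiv.ofBijective _ hlin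
  haveI : FiniteDimensional F K := Module.Finite.of_finite
  set i := Module.finrank F V / 2 with hi
  let σ : K →ₐ[F] K := FiniteField.frobeniusAlgHom F K ^ i
  have hσ : ∀ k, σ k = k ^ (Fintype.card F ^ i) := by
    intro k
    show (FiniteField.frobeniusAlgHom F K ^ i) k = _
    rw [AlgHom.coe_pow, FiniteField.coe_frobeniusAlgHom, pow_iterate]
  let f : V →ₗ[F] K := (e.symm.restrictScalars F).toLinearMap
  let B : LinearMap.BilinForm F V :=
    (Algebra.traceForm F K).compl₁₂ f (σ.toLinearMap ∘ₗ f)
  have hBdef : ∀ x y, B x y = Algebra.trace F K (e.symm x * σ (e.symm y)) := fun x y => rfl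
  refine ⟨B, ?_, ?_⟩
  · have hleft : B.SeparatingLeft := by
      intro x hx
      by_contra hx0
      have h1 : e.symm x ≠ 0 := fun h => hx0 ((LinearEquiv.map_eq_zero_iff e.symm).1 h)
      refine h1 ((traceForm_nondegenerate F K).1 _ fun z => ?_)
      obtain ⟨t, rfl⟩ := (Finite.injective_iff_surjective.1 σ.toRingHom.injective) z
      have h2 := hx (e t)
      rw [hBdef, e.symm_apply_apply] at h2
      exact h2
    exact LinearMap.BilinForm.Nondegenerate.ofSeparatingLeft hleft
  · intro h x y
    rw [hBdef, hBdef, hu1, hu1, map_smul, map_smul, smul_eq_mul, smul_eq_mul, map_mul σ]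
    have h1 : u h * σ (u h) = 1 := by
      rw [hσ, mul_comm, ← pow_succ, ← map_pow]
      obtain ⟨c, hc⟩ := hdvd
      rw [hc, pow_mul, pow_card_eq_one', one_pow, map_one]
    congr 1
    calc u h * e.symm x * (σ (u h) * σ (e.symm y)) = (u h * σ (u h)) * (e.symm x * σ (e.symm y)) := by
          ring
      _ = _ := by rw [h1, one_mul]

end main

end Cfsg.Agent.SD
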