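import Cfsg.Agent.H3.Equivalence
import Mathlib.LinearAlgebra.Matrix.BilinearForm
import Mathlib.LinearAlgebra.BilinearForm.Orthogonal

set_option autoImplicit false
set_option linter.style.haveILetI false
set_option linter.unusedSectionVars false

/-! Splitting a self-dual coprime module into a symplectic and an orthogonal part. -/

namespace Cfsg.Agent.SD

universe u v w

variable {F : Type u} [Field F] {G : Type w} [Group G] {V : Type v} [AddCommGroup V]
  [Module F V] [FiniteDimensional F V]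

theorem exists_prj (P Q : Submodule F V) (h : Disjoint P Q) :
    ∃ π : V →ₗ[F] V, (∀ x, π x ∈ P) ∧ (∀ x ∈ P, π x = x) ∧ ∀ x ∈ Q, π x = 0 := by
  obtain ⟨C, hQC, hC⟩ := h.symm.exists_isCompl
  refine ⟨P.subtype ∘ₗ P.projectionOnto C hC.symm, ?_, ?_, ?_⟩
  · intro x
    exact (P.projectionOnto C hC.symm x).2
  · intro x hx
    show ((P.projectionOnto C hC.symm x : P) : V) = x
    rw [Submodule.projectionOnto_apply_left hC.symm ⟨x, hx⟩]
  · intro x hx
    show ((P.projectionOnto C hC.symm x : P) : V) = 0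
    rw [Submodule.projectionOnto_apply_right hC.symm ⟨x, hQC hx⟩]
    rfl

/-- nondegeneracy on a subspace -/
def NdOn (B : LinearMap.BilinForm F V) (M : Submodule F V) : Prop :=
  (∀ x ∈ M, (∀ y ∈ M, B x y = 0) → x = 0) ∧ ∀ y ∈ M, (∀ x ∈ M, B x y = 0) → y = 0

theorem restrict_nd {B : LinearMap.BilinForm F V} {M : Submodule F V}
    (h : ∀ x ∈ M, (∀ y ∈ M, B x y = 0) → x = 0) : (B.restrict M).Nondegenerate := by
  apply LinearMap.BilinForm.Nondegenerate.ofSeparatingLeft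
  intro x hx
  exact Subtype.ext (h x x.2 fun y hy => hx ⟨y, hy⟩)

theorem NdOn.of_left {B : LinearMap.BilinForm F V} {M : Submodule F V}
    (h : ∀ x ∈ M, (∀ y ∈ M, B x y = 0) → x = 0) : NdOn B M := by
  refine ⟨h, fun y hy hx => ?_⟩
  exact congrArg Subtype.val ((restrict_nd h).2 ⟨y, hy⟩ fun x => hx x x.2)

theorem NdOn.of_right {B : LinearMap.BilinForm F V} {M : Submodule F V}
    (h : ∀ y ∈ M, (∀ x ∈ M, B x y = 0) → y = 0) : NdOn B M := by
  have := NdOn.of_left (B := B.flip) (M := M) h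
  exact ⟨this.2, this.1⟩

theorem NdOn.riesz {B : LinearMap.BilinForm F V} {M : Submodule F V} (h : NdOn B M)
    (f : V →ₗ[F] F) : ∃ m ∈ M, ∀ x ∈ M, B x m = f x := by
  have h1 := restrict_nd (B := B.flip) (M := M) h.2
  obtain ⟨m, hm⟩ := ((B.flip.restrict M).toDual h1).surjective (f.comp M.subtype)
  refine ⟨m, m.2, fun x hx => ?_⟩
  have := LinearMap.congr_fun hm ⟨x, hx⟩
  exact this

/-- the orthogonal space inside `M` -/
def perpIn (B : LinearMap.BilinForm F V) (M H : Submodule F V) : Submodule F V where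
  carrier := {y | y ∈ M ∧ ∀ h ∈ H, B h y = 0}
  zero_mem' := ⟨M.zero_mem, fun h _ => map_zero _⟩
  add_mem' := fun {a b} ha hb => ⟨M.add_mem ha.1 hb.1, fun h hh => by
    rw [map_add, ha.2 h hh, hb.2 h hh, add_zero]⟩
  smul_mem' := fun c {a} ha => ⟨M.smul_mem c ha.1, fun h hh => by
    rw [map_smul, ha.2 h hh, smul_zero]⟩

theorem perp_le {B : LinearMap.BilinForm F V} {M H : Submodule F V} : perpIn B M H ≤ M :=
  fun _ hx => hx.1

theorem perp_disj {B : LinearMap.BilinForm F V} {M H : Submodule F V} (h : NdOn B H) :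
    Disjoint H (perpIn B M H) := by
  rw [Submodule.disjoint_def]
  intro x hx hx'
  exact h.2 x hx fun y hy => hx'.2 y hy

theorem perp_sup {B : LinearMap.BilinForm F V} {M H : Submodule F V} (hHM : H ≤ M)
    (h : NdOn B H) : H ⊔ perpIn B M H = M := by
  apply le_antisymm (sup_le hHM perp_le)
  intro x hx
  obtain ⟨m, hm, hm'⟩ := h.riesz (B.flip x)
  have : x = m + (x - m) := by abel
  rw [this]
  refine Submodule.add_mem_sup hm ⟨M.sub_mem hx (hHM hm), fun y hy => ?_⟩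
  rw [map_sub, hm' y hy]
  exact sub_self _

theorem perp_nd {B : LinearMap.BilinForm F V} {M H : Submodule F V} (hHM : H ≤ M)
    (hM : NdOn B M) (h : NdOn B H) : NdOn B (perpIn B M H) := by
  apply NdOn.of_right
  intro y hy hy'
  apply hM.2 y hy.1
  intro x hx
  rw [← perp_sup hHM h] at hx
  obtain ⟨a, ha, b, hb, rfl⟩ := Submodule.mem_sup.1 hx
  rw [map_add, LinearMap.add_apply, hy.2 a ha, hy' b hb, add_zero]

def Inv (ρ : Representation F G V) (M : Submodule F V) : Prop := ∀ g : G, ∀ x ∈ M, ρ g x ∈ M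

def InvOn (ρ : Representation F G V) (B : LinearMap.BilinForm F V) (M : Submodule F V) : Prop :=
  ∀ g : G, ∀ x ∈ M, ∀ y ∈ M, B (ρ g x) (ρ g y) = B x y

theorem InvOn.mono {ρ : Representation F G V} {B : LinearMap.BilinForm F V} {M N : Submodule F V}
    (h : InvOn ρ B M) (hN : N ≤ M) : InvOn ρ B N := fun g x hx y hy => h g x (hN hx) y (hN hy)

theorem inv_inv_apply (ρ : Representation F G V) (g : G) (x : V) : ρ g (ρ g⁻¹ x) = x := by
  rw [← Module.End.mul_apply, ← map_mul, mul_inv_cancel, map_one, Module.End.one_apply]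

theorem inv_perp {ρ : Representation F G V} {B : LinearMap.BilinForm F V} {M H : Submodule F V}
    (hM : Inv ρ M) (hB : InvOn ρ B M) (hHM : H ≤ M) (hH : Inv ρ H) : Inv ρ (perpIn B M H) := by
  intro g x hx
  refine ⟨hM g x hx.1, fun h hh => ?_⟩
  have h1 := hB g (ρ g⁻¹ h) (hM _ _ (hHM hh)) x hx.1
  rw [inv_inv_apply] at h1
  rw [h1]
  exact hx.2 _ (hH _ _ hh)

theorem inv_sup {ρ : Representation F G V} {M N : Submodule F V} (hM : Inv ρ M) (hN : Inv ρ N) :
    Inv ρ (M ⊔ N) := by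
  intro g x hx
  obtain ⟨a, ha, b, hb, rfl⟩ := Submodule.mem_sup.1 hx
  rw [map_add]
  exact Submodule.add_mem_sup (hM g a ha) (hN g b hb)

theorem inv_compl [Finite G] [NeZero (Nat.card G : F)] (ρ : Representation F G V)
    {M N : Submodule F V} (hM : Inv ρ M) (hN : Inv ρ N) (hNM : N ≤ M) :
    ∃ T ≤ M, Inv ρ T ∧ Disjoint N T ∧ N ⊔ T = M := by
  obtain ⟨W, hW⟩ := H3.exists_isCompl_subrep ρ ⟨N, fun g x hx => hN g x hx⟩
  refine ⟨W.toSubmodule ⊓ M, inf_le_right, ?_, ?_, ?_⟩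
  · intro g x hx
    exact ⟨W.apply_mem_toSubmodule g hx.1, hM g x hx.2⟩
  · exact hW.disjoint.mono_right inf_le_left
  · have h1 : N ⊔ W.toSubmodule = ⊤ := hW.sup_eq_top
    rw [← sup_inf_assoc_of_le _ hNM, h1, top_inf_eq]

def AltOn (ρ : Representation F G V) (U : Submodule F V) : Prop :=
  ∃ A : LinearMap.BilinForm F V, (∀ x : V, A x x = 0) ∧ InvOn ρ A U ∧
    ∀ x ∈ U, (∀ y ∈ U, A x y = 0) → x = 0

def SymOn (ρ : Representation F G V) (U : Submodule F V) : Prop :=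
  ∃ A : LinearMap.BilinForm F V, (∀ x y : V, A x y = A y x) ∧ InvOn ρ A U ∧
    ∀ x ∈ U, (∀ y ∈ U, A x y = 0) → x = 0

theorem comb_left {ρ : Representation F G V} {U U' : Submodule F V} (hU : Inv ρ U)
    (hU' : Inv ρ U') (hd : Disjoint U U') :
    ∃ π π' : V →ₗ[F] V, (∀ x, π x ∈ U) ∧ (∀ x, π' x ∈ U') ∧
      (∀ x ∈ U, π x = x) ∧ (∀ x ∈ U', π x = 0) ∧ (∀ x ∈ U', π' x = x) ∧ (∀ x ∈ U, π' x = 0) ∧
      (∀ g, ∀ x ∈ U ⊔ U', π (ρ g x) = ρ g (π x) ∧ π' (ρ g x) = ρ g (π' x)) := by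
  obtain ⟨π, h1, h2, h3⟩ := exists_prj U U' hd
  obtain ⟨π', h1', h2', h3'⟩ := exists_prj U' U hd.symm
  refine ⟨π, π', h1, h1', h2, h3, h2', h3', ?_⟩
  intro g x hx
  obtain ⟨a, ha, b, hb, rfl⟩ := Submodule.mem_sup.1 hx
  simp only [map_add]
  rw [h2 _ (hU g a ha), h3 _ (hU' g b hb), h2 a ha, h3 b hb, h2' _ (hU' g b hb),
    h3' _ (hU g a ha), h2' b hb, h3' a ha, LinearMap.map_zero]
  exact ⟨rfl, rfl⟩

/-- the orthogonal sum of two forms -/
noncomputable def osum (A A' : LinearMap.BilinForm F V) (π π' : V →ₗ[F] V) :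
    LinearMap.BilinForm F V := A.compl₁₂ π π + A'.compl₁₂ π' π'

theorem osum_apply (A A' : LinearMap.BilinForm F V) (π π' : V →ₗ[F] V) (x y : V) :
    osum A A' π π' x y = A (π x) (π y) + A' (π' x) (π' y) := rfl

theorem osum_prop {ρ : Representation F G V} {U U' : Submodule F V} (hU : Inv ρ U)
    (hU' : Inv ρ U') {A A' : LinearMap.BilinForm F V} {π π' : V →ₗ[F] V}
    (h1 : ∀ x, π x ∈ U) (h2 : ∀ x, π' x ∈ U') (h3 : ∀ x ∈ U, π x = x) (h4 : ∀ x ∈ U', π x = 0)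
    (h5 : ∀ x ∈ U', π' x = x) (h6 : ∀ x ∈ U, π' x = 0)
    (h7 : ∀ g, ∀ x ∈ U ⊔ U', π (ρ g x) = ρ g (π x) ∧ π' (ρ g x) = ρ g (π' x))
    (hA : InvOn ρ A U) (hA' : InvOn ρ A' U')
    (hn : ∀ x ∈ U, (∀ y ∈ U, A x y = 0) → x = 0) (hn' : ∀ x ∈ U', (∀ y ∈ U', A' x y = 0) → x = 0) :
    InvOn ρ (osum A A' π π') (U ⊔ U') ∧
      ∀ x ∈ U ⊔ U', (∀ y ∈ U ⊔ U', osum A A' π π' x y = 0) → x = 0 := by
  constructor
  · intro g x hx y hy
    rw [osum_apply, osum_apply, (h7 g x hx).1, (h7 g x hx).2, (h7 g y hy).1, (h7 g y hy).2,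
      hA g _ (h1 x) _ (h1 y), hA' g _ (h2 x) _ (h2 y)]
  · intro x hx h
    obtain ⟨a, ha, b, hb, rfl⟩ := Submodule.mem_sup.1 hx
    have e1 : π (a + b) = a := by rw [map_add, h3 a ha, h4 b hb, add_zero]
    have e2 : π' (a + b) = b := by rw [map_add, h6 a ha, h5 b hb, zero_add]
    have ha0 : a = 0 := by
      apply hn a ha
      intro y hy
      have := h y (Submodule.mem_sup_left hy)
      rw [osum_apply, e1, e2, h3 y hy, h6 y hy, map_zero, add_zero] at this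
      exact this
    have hb0 : b = 0 := by
      apply hn' b hb
      intro y hy
      have := h y (Submodule.mem_sup_right hy)
      rw [osum_apply, e1, e2, h5 y hy, h4 y hy, map_zero, zero_add] at this
      exact this
    rw [ha0, hb0, add_zero]

theorem AltOn.sup {ρ : Representation F G V} {U U' : Submodule F V} (hU : Inv ρ U)
    (hU' : Inv ρ U') (hd : Disjoint U U') (h : AltOn ρ U) (h' : AltOn ρ U') : AltOn ρ (U ⊔ U') := by
  obtain ⟨A, hA1, hA2, hA3⟩ := h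
  obtain ⟨A', hA1', hA2', hA3'⟩ := h'
  obtain ⟨π, π', h1, h2, h3, h4, h5, h6, h7⟩ := comb_left hU hU' hd
  refine ⟨osum A A' π π', fun x => ?_, osum_prop hU hU' h1 h2 h3 h4 h5 h6 h7 hA2 hA2' hA3 hA3'⟩
  rw [osum_apply, hA1, hA1', add_zero]

theorem SymOn.sup {ρ : Representation F G V} {U U' : Submodule F V} (hU : Inv ρ U)
    (hU' : Inv ρ U') (hd : Disjoint U U') (h : SymOn ρ U) (h' : SymOn ρ U') : SymOn ρ (U ⊔ U') := by
  obtain ⟨A, hA1, hA2, hA3⟩ := h
  obtain ⟨A', hA1', hA2', hA3'⟩ := h'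
  obtain ⟨π, π', h1, h2, h3, h4, h5, h6, h7⟩ := comb_left hU hU' hd
  refine ⟨osum A A' π π', fun x y => ?_, osum_prop hU hU' h1 h2 h3 h4 h5 h6 h7 hA2 hA2' hA3 hA3'⟩
  rw [osum_apply, osum_apply, hA1, hA1']

theorem SymOn.bot (ρ : Representation F G V) : SymOn ρ ⊥ := by
  refine ⟨0, fun _ _ => rfl, fun _ _ _ _ _ => rfl, fun x hx _ => ?_⟩
  exact (Submodule.mem_bot F).1 hx

theorem AltOn.bot (ρ : Representation F G V) : AltOn ρ ⊥ := by
  refine ⟨0, fun _ => rfl, fun _ _ _ _ _ => rfl, fun x hx _ => ?_⟩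
  exact (Submodule.mem_bot F).1 hx

/-- a form symmetric on `U` gives a symmetric form -/
theorem SymOn.mk' {ρ : Representation F G V} {U : Submodule F V} (hU : Inv ρ U)
    {B : LinearMap.BilinForm F V} (hs : ∀ x ∈ U, ∀ y ∈ U, B x y = B y x) (hB : InvOn ρ B U)
    (hn : ∀ x ∈ U, (∀ y ∈ U, B x y = 0) → x = 0) : SymOn ρ U := by
  obtain ⟨π, h1, h2, -⟩ := exists_prj U ⊥ disjoint_bot_right
  refine ⟨B.compl₁₂ π π, fun x y => hs _ (h1 x) _ (h1 y), ?_, ?_⟩
  · intro g x hx y hy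
    show B (π (ρ g x)) (π (ρ g y)) = B (π x) (π y)
    rw [h2 _ (hU g x hx), h2 _ (hU g y hy), h2 x hx, h2 y hy]
    exact hB g x hx y hy
  · intro x hx h
    apply hn x hx
    intro y hy
    have : B (π x) (π y) = 0 := h y hy
    rwa [h2 x hx, h2 y hy] at this

theorem AltOn.mk' {ρ : Representation F G V} {U : Submodule F V} (hU : Inv ρ U)
    {B : LinearMap.BilinForm F V} (hs : ∀ x ∈ U, B x x = 0) (hB : InvOn ρ B U)
    (hn : ∀ x ∈ U, (∀ y ∈ U, B x y = 0) → x = 0) : AltOn ρ U := by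
  obtain ⟨π, h1, h2, -⟩ := exists_prj U ⊥ disjoint_bot_right
  refine ⟨B.compl₁₂ π π, fun x => hs _ (h1 x), ?_, ?_⟩
  · intro g x hx y hy
    show B (π (ρ g x)) (π (ρ g y)) = B (π x) (π y)
    rw [h2 _ (hU g x hx), h2 _ (hU g y hy), h2 x hx, h2 y hy]
    exact hB g x hx y hy
  · intro x hx h
    apply hn x hx
    intro y hy
    have : B (π x) (π y) = 0 := h y hy
    rwa [h2 x hx, h2 y hy] at this

end Cfsg.Agent.SD
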