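import Cfsg.Agent.H7.SD3

set_option autoImplicit false
set_option linter.style.haveILetI false
set_option linter.unusedSectionVars false

/-! Splitting a self-dual coprime module into a symplectic and an orthogonal part: induction. -/

namespace Cfsg.Agent.SD

universe u v w

variable {F : Type u} [Field F] {G : Type w} [Group G] {V : Type v} [AddCommGroup V]
  [Module F V] [FiniteDimensional F V]

/-- a symmetric invariant form in characteristic two is alternating without trivial constituents -/
theorem alt_of_sym [Finite G] [NeZero (Nat.card G : F)] [CharP F 2] {ρ : Representation F G V}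
    {K : Submodule F V} (hK : Inv ρ K) {B : LinearMap.BilinForm F V} (hB : InvOn ρ B K)
    (hs : ∀ x ∈ K, ∀ y ∈ K, B x y = B y x) (hfix : ∀ x ∈ K, (∀ g, ρ g x = x) → x = 0) :
    ∀ x ∈ K, B x x = 0 := by
  have h2 : (2 : F) = 0 := CharTwo.two_eq_zero
  have hadd : ∀ x ∈ K, ∀ y ∈ K, B (x + y) (x + y) = B x x + B y y := by
    intro x hx y hy
    rw [map_add, map_add, LinearMap.add_apply, LinearMap.add_apply, hs y hy x hx]
    have : B x x + B x y + (B x y + B y y) = B x x + B y y + 2 * B x y := by ring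
    rw [this, h2, zero_mul, add_zero]
  let Q : Submodule F V :=
    { carrier := {x | x ∈ K ∧ B x x = 0}
      zero_mem' := ⟨K.zero_mem, map_zero _⟩
      add_mem' := fun {a b} ha hb => ⟨K.add_mem ha.1 hb.1, by
        rw [hadd a ha.1 b hb.1, ha.2, hb.2, add_zero]⟩
      smul_mem' := fun c {a} ha => ⟨K.smul_mem c ha.1, by
        rw [map_smul, map_smul, LinearMap.smul_apply, ha.2, smul_zero, smul_zero]⟩ }
  have hQK : Q ≤ K := fun x hx => hx.1
  have hQ : Inv ρ Q := fun g x hx => ⟨hK g x hx.1, by rw [hB g x hx.1 x hx.1]; exact hx.2⟩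
  obtain ⟨T, hTK, hT, hd, hsup⟩ := inv_compl ρ hK hQ hQK
  have hT0 : ∀ x ∈ T, x = 0 := by
    intro x hx
    apply hfix x (hTK hx)
    intro g
    have h3 : ρ g x - x ∈ Q := by
      refine ⟨K.sub_mem (hK g x (hTK hx)) (hTK hx), ?_⟩
      rw [sub_eq_add_neg, hadd _ (hK g x (hTK hx)) _ (K.neg_mem (hTK hx)),
        hB g x (hTK hx) x (hTK hx)]
      simp only [map_neg, LinearMap.neg_apply, neg_neg]
      rw [← two_mul, h2, zero_mul]
    have h4 : ρ g x - x ∈ T := T.sub_mem (hT g x hx) hx
    have := Submodule.disjoint_def.1 hd _ h3 h4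
    exact sub_eq_zero.1 this
  have hTbot : T = ⊥ := (Submodule.eq_bot_iff T).2 hT0
  intro x hx
  rw [← hsup, hTbot, sup_bot_eq] at hx
  exact hx.2

theorem split_main [Finite G] [NeZero (Nat.card G : F)] (ρ : Representation F G V) (n : ℕ) :
    ∀ (M : Submodule F V) (B : LinearMap.BilinForm F V), Module.finrank F M = n → Inv ρ M →
      InvOn ρ B M → NdOn B M →
      ∃ U W : Submodule F V, Disjoint U W ∧ U ⊔ W = M ∧ Inv ρ U ∧ Inv ρ W ∧ AltOn ρ U ∧
        SymOn ρ W ∧ (CharP F 2 → (∀ x ∈ M, (∀ g, ρ g x = x) → x = 0) → W = ⊥) := by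
  classical
  induction n using Nat.strong_induction_on with
  | _ n ih =>
    intro M B hMn hM hB hnd
    -- the part on which `B` is symmetric
    let K : Submodule F V :=
      { carrier := {x | x ∈ M ∧ ∀ v ∈ M, B x v = B v x}
        zero_mem' := ⟨M.zero_mem, fun v _ => by simp⟩
        add_mem' := fun {a b} ha hb => ⟨M.add_mem ha.1 hb.1, fun v hv => by
          rw [map_add, map_add, LinearMap.add_apply, ha.2 v hv, hb.2 v hv]⟩
        smul_mem' := fun c {a} ha => ⟨M.smul_mem c ha.1, fun v hv => by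
          rw [map_smul, map_smul, LinearMap.smul_apply, ha.2 v hv]⟩ }
    have hKM : K ≤ M := fun x hx => hx.1
    have hKsym : ∀ x ∈ K, ∀ v ∈ M, B x v = B v x := fun x hx => hx.2
    have hinvB : ∀ g, ∀ x ∈ M, ∀ y ∈ M, B (ρ g x) y = B x (ρ g⁻¹ y) := by
      intro g x hx y hy
      have := hB g x hx (ρ g⁻¹ y) (hM _ _ hy)
      rwa [inv_inv_apply] at this
    have hinvB' : ∀ g, ∀ x ∈ M, ∀ y ∈ M, B y (ρ g x) = B (ρ g⁻¹ y) x := by
      intro g x hx y hy
      have := hB g (ρ g⁻¹ y) (hM _ _ hy) x hx
      rwa [inv_inv_apply] at this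
    have hK : Inv ρ K := by
      intro g x hx
      refine ⟨hM g x hx.1, fun v hv => ?_⟩
      rw [hinvB g x hx.1 v hv, hinvB' g x hx.1 v hv]
      exact hx.2 _ (hM _ _ hv)
    -- splitting off a nondegenerate subspace
    have hsplit : ∀ H : Submodule F V, H ≤ M → H ≠ ⊥ → Inv ρ H → NdOn B H →
        ∃ U W : Submodule F V, Disjoint U W ∧ U ⊔ W = perpIn B M H ∧ Inv ρ U ∧ Inv ρ W ∧
          AltOn ρ U ∧ SymOn ρ W ∧
          (CharP F 2 → (∀ x ∈ perpIn B M H, (∀ g, ρ g x = x) → x = 0) → W = ⊥) := by
      intro H hHM hH0 hH hHn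
      have hlt : Module.finrank F (perpIn B M H) < n := by
        have h1 := Submodule.finrank_sup_add_finrank_inf_eq H (perpIn B M H)
        rw [perp_sup hHM hHn, (perp_disj (M := M) hHn).eq_bot, finrank_bot, hMn] at h1
        have h2 : 0 < Module.finrank F H := by
          rw [Module.finrank_pos_iff, Submodule.nontrivial_iff_ne_bot]
          exact hH0
        omega
      exact ih _ hlt _ B rfl (inv_perp hM hB hHM hH) (hB.mono perp_le) (perp_nd hHM hnd hHn)
    -- disjointness helper
    have hdisj3 : ∀ H U W : Submodule F V, NdOn B H → Disjoint U W → U ⊔ W = perpIn B M H →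
        H ≤ M → (Disjoint (H ⊔ U) W ∧ Disjoint U (H ⊔ W) ∧ Disjoint H U ∧ Disjoint H W) := by
      intro H U W hHn hUW hsup hHM
      have h1 : Disjoint H (U ⊔ W) := by rw [hsup]; exact perp_disj hHn
      refine ⟨?_, ?_, h1.mono_right le_sup_left, h1.mono_right le_sup_right⟩
      · exact (Disjoint.disjoint_sup_left_of_disjoint_sup_right hUW h1)
      · have := (Disjoint.disjoint_sup_left_of_disjoint_sup_right (c := U) hUW.symm
          (by rw [sup_comm]; exact h1))
        exact this.symm
    by_cases hK0 : K = ⊥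
    · -- the form `B - Bᵗ` is nondegenerate
      refine ⟨M, ⊥, disjoint_bot_right, sup_bot_eq M, hM, fun g x hx => ?_,
        ⟨B - B.flip, fun x => ?_, ?_, ?_⟩, SymOn.bot ρ, fun _ _ => rfl⟩
      · rw [Submodule.mem_bot] at hx ⊢
        rw [hx, map_zero]
      · exact sub_self _
      · intro g x hx y hy
        show B _ _ - B _ _ = B _ _ - B _ _
        rw [hB g x hx y hy, hB g y hy x hx]
      · intro x hx h
        have h1 : x ∈ K := ⟨hx, fun v hv => sub_eq_zero.1 (h v hv)⟩
        rw [hK0] at h1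
        exact h1
    · -- the radical of `B` on `K`
      let R : Submodule F V :=
        { carrier := {x | x ∈ K ∧ ∀ v ∈ K, B x v = 0}
          zero_mem' := ⟨K.zero_mem, fun v _ => by simp⟩
          add_mem' := fun {a b} ha hb => ⟨K.add_mem ha.1 hb.1, fun v hv => by
            rw [map_add, LinearMap.add_apply, ha.2 v hv, hb.2 v hv, add_zero]⟩
          smul_mem' := fun c {a} ha => ⟨K.smul_mem c ha.1, fun v hv => by
            rw [map_smul, LinearMap.smul_apply, ha.2 v hv, smul_zero]⟩ }
      have hRK : R ≤ K := fun x hx => hx.1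
      have hR : Inv ρ R := by
        intro g x hx
        refine ⟨hK g x hx.1, fun v hv => ?_⟩
        rw [hinvB g x (hKM hx.1) v (hKM hv)]
        exact hx.2 _ (hK _ _ hv)
      by_cases hR0 : R = ⊥
      · have hKn : NdOn B K := NdOn.of_left fun x hx h => by
          have : x ∈ R := ⟨hx, h⟩
          rw [hR0] at this
          exact this
        obtain ⟨U, W, h1, h2, h3, h4, h5, h6, h7⟩ := hsplit K hKM hK0 hK hKn
        obtain ⟨d1, d2, d3, d4⟩ := hdisj3 K U W hKn h1 h2 hKM
        by_cases hcase : CharP F 2 ∧ (∀ x ∈ M, (∀ g, ρ g x = x) → x = 0)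
        · haveI := hcase.1
          have hW : W = ⊥ := h7 hcase.1 fun x hx => hcase.2 x hx.1
          refine ⟨K ⊔ U, W, d1, ?_, inv_sup hK h3, h4, ?_, h6, fun _ _ => hW⟩
          · rw [sup_assoc, h2, perp_sup hKM hKn]
          · refine AltOn.sup hK h3 d3 (AltOn.mk' hK ?_ (hB.mono hKM) hKn.1) h5
            exact alt_of_sym hK (hB.mono hKM) (fun x hx y hy => hKsym x hx y (hKM hy))
              fun x hx => hcase.2 x (hKM hx)
        · refine ⟨U, K ⊔ W, d2, ?_, h3, inv_sup hK h4, h5,
            SymOn.sup hK h4 d4 (SymOn.mk' hK (fun x hx y hy => hKsym x hx y (hKM hy))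
              (hB.mono hKM) hKn.1) h6, fun hc hf => absurd ⟨hc, hf⟩ hcase⟩
          rw [sup_left_comm, h2, perp_sup hKM hKn]
      · -- hyperbolic part
        have hRM : R ≤ M := hRK.trans hKM
        have hRR : R ≤ perpIn B M R := fun x hx => ⟨hRM hx, fun h hh => hh.2 x (hRK hx)⟩
        obtain ⟨T, hTM, hT, hTd, hTs⟩ := inv_compl ρ hM (inv_perp hM hB hRM hR) perp_le
        have hRTd : Disjoint R T := hTd.mono_left hRR
        have hp1 : ∀ s ∈ R, (∀ t ∈ T, B s t = 0) → s = 0 := by
          intro s hs h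
          apply hnd.1 s (hRM hs)
          intro y hy
          rw [← hTs] at hy
          obtain ⟨a, ha, b, hb, rfl⟩ := Submodule.mem_sup.1 hy
          rw [map_add, ha.2 s hs, h b hb, add_zero]
        have hp2 : ∀ t ∈ T, (∀ s ∈ R, B s t = 0) → t = 0 := by
          intro t ht h
          exact Submodule.disjoint_def.1 hTd t ⟨hTM ht, h⟩ ht
        have hRsym : ∀ s ∈ R, ∀ v ∈ M, B v s = B s v := fun s hs v hv => (hKsym s (hRK hs) v hv).symm
        have hR00 : ∀ s ∈ R, ∀ s' ∈ R, B s s' = 0 := fun s hs s' hs' => hs.2 s' (hRK hs')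
        have hHM : R ⊔ T ≤ M := sup_le hRM hTM
        have hH : Inv ρ (R ⊔ T) := inv_sup hR hT
        have hHn : NdOn B (R ⊔ T) := NdOn.of_left fun x hx h => by
          obtain ⟨s, hs, t, ht, rfl⟩ := Submodule.mem_sup.1 hx
          have ht0 : t = 0 := by
            apply hp2 t ht
            intro s' hs'
            have := h s' (Submodule.mem_sup_left hs')
            rw [map_add, LinearMap.add_apply, hR00 s hs s' hs', zero_add,
              hRsym s' hs' t (hTM ht)] at this
            exact this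
          subst ht0
          rw [add_zero] at h ⊢
          exact hp1 s hs fun t ht => h t (Submodule.mem_sup_right ht)
        have hH0 : R ⊔ T ≠ ⊥ := fun h => hR0 (le_bot_iff.1 (h ▸ le_sup_left))
        obtain ⟨U, W, h1, h2, h3, h4, h5, h6, h7⟩ := hsplit (R ⊔ T) hHM hH0 hH hHn
        obtain ⟨d1, d2, d3, d4⟩ := hdisj3 (R ⊔ T) U W hHn h1 h2 hHM
        refine ⟨(R ⊔ T) ⊔ U, W, d1, ?_, inv_sup hH h3, h4, AltOn.sup hH h3 d3 ?_ h5, h6,
          fun hc hf => h7 hc fun x hx => hf x hx.1⟩
        · rw [sup_assoc, h2, perp_sup hHM hHn]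
        · obtain ⟨π, τ, e1, e2, e3, e4, e5, e6, e7⟩ := comb_left hR hT hRTd
          refine ⟨B.compl₁₂ π τ - (B.compl₁₂ π τ).flip, fun x => sub_self _, ?_, ?_⟩
          · intro g x hx y hy
            show B (π _) (τ _) - B (π _) (τ _) = B (π _) (τ _) - B (π _) (τ _)
            rw [(e7 g x hx).1, (e7 g x hx).2, (e7 g y hy).1, (e7 g y hy).2,
              hB g _ (hRM (e1 x)) _ (hTM (e2 y)), hB g _ (hRM (e1 y)) _ (hTM (e2 x))]
          · intro x hx h
            obtain ⟨s, hs, t, ht, rfl⟩ := Submodule.mem_sup.1 hx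
            have f1 : π (s + t) = s := by rw [map_add, e3 s hs, e4 t ht, add_zero]
            have f2 : τ (s + t) = t := by rw [map_add, e6 s hs, e5 t ht, zero_add]
            have hs0 : s = 0 := by
              apply hp1 s hs
              intro y hy
              have : B (π (s + t)) (τ y) - B (π y) (τ (s + t)) = 0 :=
                h y (Submodule.mem_sup_right hy)
              rw [f1, e5 y hy, e4 y hy, map_zero, LinearMap.zero_apply, sub_zero] at this
              exact this
            have ht0 : t = 0 := by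
              apply hp2 t ht
              intro y hy
              have : B (π (s + t)) (τ y) - B (π y) (τ (s + t)) = 0 :=
                h y (Submodule.mem_sup_left hy)
              rw [f2, e6 y hy, e3 y hy, map_zero, zero_sub, neg_eq_zero] at this
              exact this
            rw [hs0, ht0, add_zero]

end Cfsg.Agent.SD
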