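import Cfsg.Agent.H7.SD4

set_option autoImplicit false
set_option linter.style.haveILetI false
set_option linter.unusedSectionVars false

/-! Splitting a self-dual coprime module into a symplectic and an orthogonal part: conclusion. -/

namespace Cfsg.Agent.SD

universe u v w

variable {F : Type u} [Field F] {G : Type w} [Group G] {V : Type v} [AddCommGroup V]
  [Module F V] [FiniteDimensional F V]

theorem sym_of_fixed (ρ : Representation F G V) {W : Submodule F V}
    (hW : ∀ x ∈ W, ∀ g, ρ g x = x) : SymOn ρ W := by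
  obtain ⟨π, h1, h2, -⟩ := exists_prj W ⊥ disjoint_bot_right
  let b := Module.finBasis F W
  let e : V →ₗ[F] (Fin (Module.finrank F W) → F) :=
    b.equivFun.toLinearMap ∘ₗ (LinearMap.codRestrict W π h1)
  have he : ∀ x (hx : x ∈ W), e x = b.equivFun ⟨x, hx⟩ := by
    intro x hx
    show b.equivFun _ = _
    congr 1
    exact Subtype.ext (h2 x hx)
  refine ⟨(Matrix.toBilin' (1 : Matrix (Fin (Module.finrank F W)) (Fin (Module.finrank F W)) F)).compl₁₂ e e, ?_, ?_, ?_⟩
  · intro x y
    show Matrix.toBilin' 1 (e x) (e y) = Matrix.toBilin' 1 (e y) (e x)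
    rw [Matrix.toBilin'_apply', Matrix.toBilin'_apply', Matrix.one_mulVec, Matrix.one_mulVec,
      dotProduct_comm]
  · intro g x hx y hy
    rw [hW x hx, hW y hy]
  · intro x hx h
    have h3 : e x = 0 := by
      apply dotProduct_eq_zero
      intro w
      obtain ⟨z, hz⟩ := b.equivFun.surjective w
      have h4 : Matrix.toBilin' 1 (e x) (e z) = 0 := h z z.2
      rw [Matrix.toBilin'_apply', Matrix.one_mulVec, he z z.2, hz] at h4
      exact h4
    rw [he x hx] at h3
    have h5 := (LinearEquiv.map_eq_zero_iff b.equivFun).1 h3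
    exact congrArg Subtype.val h5

theorem split_two [Finite G] [NeZero (Nat.card G : F)] [CharP F 2] (ρ : Representation F G V)
    (B : LinearMap.BilinForm F V) (hB : InvOn ρ B ⊤) (hnd : NdOn B ⊤) :
    ∃ U W : Submodule F V, Disjoint U W ∧ U ⊔ W = ⊤ ∧ Inv ρ U ∧ Inv ρ W ∧ AltOn ρ U ∧
        SymOn ρ W ∧ ∀ x ∈ W, ∀ g, ρ g x = x := by
  classical
  haveI := Fintype.ofFinite G
  let W : Submodule F V :=
    { carrier := {x | ∀ g, ρ g x = x}
      zero_mem' := fun g => map_zero _
      add_mem' := fun {a b} ha hb g => by rw [map_add, ha, hb]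
      smul_mem' := fun c {a} ha g => by rw [map_smul, ha] }
  have hWfix : ∀ x ∈ W, ∀ g, ρ g x = x := fun x hx => hx
  have hW : Inv ρ W := fun g x hx => by rw [hWfix x hx]; exact hx
  have hTop : Inv ρ ⊤ := fun _ _ _ => trivial
  have hWn : NdOn B W := NdOn.of_left fun w hw h => by
    apply hnd.1 w trivial
    intro v _
    have h1 : (∑ g : G, ρ g v) ∈ W := by
      intro k
      rw [map_sum]
      have : ∀ g, ρ k (ρ g v) = ρ (k * g) v := fun g => by rw [map_mul]; rfl
      simp only [this]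
      exact Fintype.sum_equiv (Equiv.mulLeft k) _ _ fun g => rfl
    have h2 := h _ h1
    rw [map_sum] at h2
    have h3 : ∀ g : G, B w (ρ g v) = B w v := by
      intro g
      have := hB g w trivial v trivial
      rwa [hWfix w hw] at this
    simp only [h3, Finset.sum_const, Finset.card_univ, nsmul_eq_mul] at h2
    rw [← Nat.card_eq_fintype_card] at h2
    exact (mul_eq_zero.1 h2).resolve_left (NeZero.ne _)
  have hP : Inv ρ (perpIn B ⊤ W) := inv_perp hTop hB le_top hW
  obtain ⟨U, W', h1, h2, h3, h4, h5, h6, h7⟩ := split_main ρ _ (perpIn B ⊤ W) B rfl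
    hP (hB.mono le_top) (perp_nd le_top hnd hWn)
  have hW' : W' = ⊥ := h7 inferInstance fun x hx hfix =>
    Submodule.disjoint_def.1 (perp_disj (M := ⊤) hWn) x hfix hx
  rw [hW', sup_bot_eq] at h2
  subst h2
  refine ⟨_, W, (perp_disj hWn).symm, ?_, h3, hW, h5, sym_of_fixed ρ hWfix, hWfix⟩
  rw [sup_comm, perp_sup le_top hWn]

theorem split_all (p : ℕ) [CharP F p] [Finite G] [NeZero (Nat.card G : F)]
    (ρ : Representation F G V) (B : LinearMap.BilinForm F V) (hBn : B.Nondegenerate)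
    (hB : ∀ g : G, ∀ x y : V, B (ρ g x) (ρ g y) = B x y) :
    ∃ U W : Submodule F V, IsCompl U W ∧ Inv ρ U ∧ Inv ρ W ∧ AltOn ρ U ∧
        SymOn ρ W ∧ (p = 2 → ∀ g, ∀ x ∈ W, ρ g x = x) := by
  have hnd : NdOn B ⊤ := ⟨fun x _ h => hBn.1 x fun y => h y trivial,
    fun y _ h => hBn.2 y fun x => h x trivial⟩
  have hinv : InvOn ρ B ⊤ := fun g x _ y _ => hB g x y
  by_cases hp : p = 2
  · subst hp
    obtain ⟨U, W, h1, h2, h3, h4, h5, h6, h7⟩ := split_two ρ B hinv hnd
    exact ⟨U, W, ⟨h1, codisjoint_iff.2 h2⟩, h3, h4, h5, h6, fun _ g x hx => h7 x hx g⟩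
  · obtain ⟨U, W, h1, h2, h3, h4, h5, h6, -⟩ := split_main ρ _ ⊤ B rfl
      (fun _ _ _ => trivial) hinv hnd
    exact ⟨U, W, ⟨h1, codisjoint_iff.2 h2⟩, h3, h4, h5, h6, fun h => absurd h hp⟩

end Cfsg.Agent.SD
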