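import Cfsg.Agent.H27.PMod
import Cfsg.Agent.H27.Galois
import Cfsg.Agent.H27.Util
import Cfsg.Agent.H11.Defect4
import Mathlib.NumberTheory.Padics.PadicVal.Basic

set_option autoImplicit false
set_option linter.style.haveILetI false
set_option linter.unusedSectionVars false

/-! Schur's bound for rational linear `p`-groups. -/

namespace Cfsg.Agent.H7.Schur

open Subgroup Cfsg Cfsg.Agent.H3 Cfsg.Agent.H27 Cfsg.Agent.H11
open scoped ComplexConjugate

universe u

section
variable {P : Type u} [Group P] [Fintype P] {p : ℕ} {χ : P → ℂ}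

theorem isGen_prod {ι : Type*} (s : Finset ι) (f : ι → P → ℂ)
    (h : ∀ i ∈ s, IsGeneralizedCharacter P (f i)) : IsGeneralizedCharacter P (∏ i ∈ s, f i) := by
  classical
  induction s using Finset.induction_on with
  | empty => rw [Finset.prod_empty]; exact isGen_one
  | insert a s ha ih =>
    rw [Finset.prod_insert ha]
    exact isGen_mul (h a (Finset.mem_insert_self _ _))
      (ih fun i hi => h i (Finset.mem_insert_of_mem hi))

theorem blichfeldt (hχ : IsCharacter P χ) {n m : ℕ} (h1 : χ 1 = n)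
    (h : ∀ x : P, x ≠ 1 → ∃ j : ℕ, 1 ≤ j ∧ j ≤ m ∧ χ x = (n : ℂ) - p * j) :
    Nat.card P ∣ p ^ m * m.factorial := by
  classical
  let F : P → ℂ := ∏ j ∈ Finset.Ico 1 (m + 1), (χ - (((n : ℤ) - p * j : ℤ) : ℂ) • (fun _ => (1 : ℂ)))
  have hF : IsGeneralizedCharacter P F := by
    apply isGen_prod
    intro j _
    exact isGen_sub (isGen_of_char hχ) (isGen_intCast_smul _ isGen_one)
  have hFx : ∀ x : P, F x = ∏ j ∈ Finset.Ico 1 (m + 1), (χ x - ((n : ℂ) - p * j)) := by
    intro x
    simp only [F, Finset.prod_apply]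
    refine Finset.prod_congr rfl fun j _ => ?_
    simp only [Pi.sub_apply, Pi.smul_apply, smul_eq_mul, mul_one]
    push_cast
    ring
  have h0 : ∀ x : P, x ≠ 1 → F x = 0 := by
    intro x hx
    obtain ⟨j, hj1, hj2, hj⟩ := h x hx
    rw [hFx]
    exact Finset.prod_eq_zero (Finset.mem_Ico.2 ⟨hj1, Nat.lt_succ_of_le hj2⟩) (by rw [hj, sub_self])
  have hF1 : F 1 = ((p ^ m * m.factorial : ℕ) : ℂ) := by
    rw [hFx, h1]
    have h2 : ∀ j ∈ Finset.Ico 1 (m + 1), ((n : ℂ) - ((n : ℂ) - p * j)) = (p : ℂ) * j := fun j _ => by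
      ring
    rw [Finset.prod_congr rfl h2, Finset.prod_mul_distrib, Finset.prod_const, Nat.card_Ico,
      Nat.add_sub_cancel]
    push_cast
    congr 1
    rw [← Finset.prod_Ico_id_eq_factorial]
    push_cast
    rfl
  obtain ⟨k, hk⟩ := classInner_gen_int hF (isGen_one (G := P))
  unfold classInner at hk
  rw [Finset.sum_eq_single 1 (fun x _ hx => by rw [h0 x hx, zero_mul])
    (fun h => absurd (Finset.mem_univ _) h), hF1, map_one, mul_one] at hk
  have hne : (Nat.card P : ℂ) ≠ 0 := card_ne_zeroC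
  have h2 : ((p ^ m * m.factorial : ℕ) : ℂ) = (Nat.card P : ℂ) * k := by
    rw [← hk]; field_simp
  have h3 : ((p ^ m * m.factorial : ℕ) : ℤ) = (Nat.card P : ℤ) * k := by exact_mod_cast h2
  have h4 : (Nat.card P : ℤ) ∣ ((p ^ m * m.factorial : ℕ) : ℤ) := Dvd.intro _ h3.symm
  exact_mod_cast h4

theorem sum_mult (hχ : IsCharacter P χ) (C : Subgroup P) [Fintype C] :
    ∃ c : ℕ, ∑ u : C, χ u = (Nat.card C : ℂ) * c := by
  obtain ⟨m, hm⟩ := classInner_char_nat (isChar_restrict C hχ) (isChar_one (G := C))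
  refine ⟨m, ?_⟩
  unfold classInner at hm
  have hne : (Nat.card C : ℂ) ≠ 0 := card_ne_zeroC
  rw [← hm]
  field_simp
  simp

variable [hp : Fact p.Prime]

theorem value (hχ : IsCharacter P χ) {n : ℕ} (h1 : χ 1 = n) {g : P} (hg : g ≠ 1) {k : ℕ}
    (hk : orderOf g = p ^ k) (hrat : ∀ i : ℕ, Nat.Coprime i p → χ (g ^ i) = χ g)
    (hfaith : χ g ≠ χ 1) {M : Ideal AlgInt} (hM : IsPModular p M) :
    ∃ j : ℕ, 1 ≤ j ∧ j ≤ n / (p - 1) ∧ χ g = (n : ℂ) - p * j := by
  classical
  haveI hpr := hM.2.1.isPrime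
  have hp2 := hp.out.two_le
  obtain ⟨l, rfl⟩ : ∃ l, k = l + 1 := by
    rcases Nat.eq_zero_or_pos k with rfl | h
    · rw [pow_zero, orderOf_eq_one_iff] at hk
      exact absurd hk hg
    · exact ⟨k - 1, by omega⟩
  haveI := Fintype.ofFinite (zpowers g)
  haveI := Fintype.ofFinite (zpowers (g ^ p))
  obtain ⟨c0, hc0⟩ := sum_mult hχ (zpowers g)
  obtain ⟨c', hc'⟩ := sum_mult hχ (zpowers (g ^ p))
  have hC : Nat.card (zpowers g) = p ^ (l + 1) := by rw [Nat.card_zpowers, hk]
  have hH : Nat.card (zpowers (g ^ p)) = p ^ l := by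
    rw [Nat.card_zpowers, orderOf_pow, hk, pow_succ, Nat.gcd_mul_left_left,
      Nat.mul_div_cancel _ hp.out.pos]
  have hle : zpowers (g ^ p) ≤ zpowers g := by
    rw [zpowers_le]; exact pow_mem (mem_zpowers g) p
  -- elements outside `⟨g ^ p⟩`
  have hout : ∀ x ∈ zpowers g, x ∉ zpowers (g ^ p) → χ x = χ g := by
    intro x hx hx2
    obtain ⟨i, hi⟩ := (mem_zpowers_iff_mem_range_orderOf).1 hx |> Finset.mem_image.1
    obtain ⟨hi1, rfl⟩ := hi
    apply hrat
    rw [Nat.coprime_comm, Nat.Prime.coprime_iff_not_dvd hp.out]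
    rintro ⟨t, rfl⟩
    apply hx2
    rw [pow_mul]
    exact pow_mem (mem_zpowers _) t
  have hsum : ∀ H : Subgroup P, ∀ [Fintype H], ∑ u : H, χ u =
      ∑ x ∈ Finset.univ.filter (fun x => x ∈ H), χ x := by
    intro H _
    exact (Finset.sum_subtype (Finset.univ.filter fun x : P => x ∈ H) (fun x => by simp) χ).symm
  have hcard : ∀ H : Subgroup P, (Finset.univ.filter (fun x => x ∈ H)).card = Nat.card H := by
    intro H
    rw [Nat.card_eq_fintype_card, Fintype.card_subtype]
  have hsplit : Finset.univ.filter (fun x => x ∈ zpowers g) =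
      Finset.univ.filter (fun x => x ∈ zpowers (g ^ p)) ∪
        (Finset.univ.filter (fun x => x ∈ zpowers g) \
          Finset.univ.filter (fun x => x ∈ zpowers (g ^ p))) := by
    rw [Finset.union_sdiff_of_subset]
    intro x hx
    rw [Finset.mem_filter] at hx ⊢
    exact ⟨hx.1, hle hx.2⟩
  have h2 : ∑ x ∈ (Finset.univ.filter (fun x => x ∈ zpowers g) \
      Finset.univ.filter (fun x => x ∈ zpowers (g ^ p))), χ x =
      ((p : ℂ) ^ (l + 1) - (p : ℂ) ^ l) * χ g := by
    rw [Finset.sum_congr rfl (g := fun _ => χ g) (fun x hx => by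
      rw [Finset.mem_sdiff, Finset.mem_filter, Finset.mem_filter] at hx
      exact hout x hx.1.2 fun h => hx.2 ⟨Finset.mem_univ _, h⟩), Finset.sum_const, nsmul_eq_mul,
      Finset.card_sdiff_of_subset (by
        intro x hx
        rw [Finset.mem_filter] at hx ⊢
        exact ⟨hx.1, hle hx.2⟩), hcard, hcard, hC, hH,
      Nat.cast_sub (Nat.pow_le_pow_right hp.out.pos (Nat.le_succ l))]
    push_cast
    rfl
  have h3 : (p : ℂ) ^ (l + 1) * c0 = (p : ℂ) ^ l * c' + ((p : ℂ) ^ (l + 1) - (p : ℂ) ^ l) * χ g := by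
    rw [hsum, hsplit, Finset.sum_union Finset.disjoint_sdiff, h2, ← hsum, hc', hC, hH] at hc0
    push_cast at hc0
    exact hc0.symm
  have hpl : (p : ℂ) ^ l ≠ 0 := pow_ne_zero _ (by exact_mod_cast hp.out.ne_zero)
  have h4 : ((p : ℂ) - 1) * χ g = (p : ℂ) * c0 - c' := by
    apply mul_left_cancel₀ hpl
    linear_combination -h3
  -- `c' ≤ n`
  have hn : charDegree χ = n := by
    have : (charDegree χ : ℂ) = n := by rw [charDegree_cast hχ, h1]
    exact_mod_cast this
  have h5 : c' ≤ n := by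
    have h6 : ‖∑ u : zpowers (g ^ p), χ u‖ ≤ ∑ u : zpowers (g ^ p), (n : ℝ) :=
      (norm_sum_le _ _).trans (Finset.sum_le_sum fun u _ => by
        have := norm_char_le hχ (u : P)
        rwa [hn] at this)
    rw [hc', Finset.sum_const, Finset.card_univ, nsmul_eq_mul, ← Nat.card_eq_fintype_card,
      norm_mul, Complex.norm_natCast, Complex.norm_natCast] at h6
    have h7 : (0 : ℝ) < Nat.card (zpowers (g ^ p)) := by exact_mod_cast Nat.card_pos
    have h8 := le_of_mul_le_mul_left h6 h7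
    exact_mod_cast h8
  -- `χ g` is an integer
  have hp1 : ((p : ℂ) - 1) ≠ 0 := by
    intro h
    have h9 : (p : ℂ) = ((1 : ℕ) : ℂ) := by rw [Nat.cast_one]; linear_combination h
    have h10 : p = 1 := by exact_mod_cast h9
    omega
  obtain ⟨z, hz⟩ : ∃ z : ℤ, χ g = z := by
    have h6 : χ g = (((p : ℚ) * c0 - c') / (p - 1) : ℚ) := by
      push_cast
      rw [eq_div_iff hp1, ← h4]; ring
    have h7 := char_isIntegral hχ g
    rw [h6] at h7
    have h8 : IsIntegral ℤ (((p : ℚ) * c0 - c') / (p - 1) : ℚ) := by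
      have h9 : (algebraMap ℚ ℂ) (((p : ℚ) * c0 - c') / (p - 1)) =
          ((((p : ℚ) * c0 - c') / (p - 1) : ℚ) : ℂ) := by simp
      rw [← h9] at h7
      exact (isIntegral_algebraMap_iff (algebraMap ℚ ℂ).injective).1 h7
    obtain ⟨z, hz⟩ := IsIntegrallyClosed.isIntegral_iff.1 h8
    refine ⟨z, ?_⟩
    rw [h6, ← hz]
    simp
  have h6 : ((p : ℤ) - 1) * z = (p : ℤ) * c0 - c' := by
    rw [hz] at h4
    exact_mod_cast h4
  -- congruence
  have h7 : (p : ℤ) ∣ z - n := by
    have h8 := li_char_mul_sub hM hχ (x := g) (y := 1) (Commute.one_right g) ⟨l + 1, hk⟩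
    rw [mul_one, hz, h1] at h8
    have h9 : ((z : ℂ) - (n : ℂ)) = (((z - n : ℤ)) : ℂ) := by push_cast; ring
    rw [h9, li_intCast_iff hM] at h8
    exact h8
  -- `z < n`
  have h8 : z < n := by
    have h9 : z ≤ n := by
      have h10 := norm_char_le hχ g
      rw [hz, hn, Complex.norm_intCast] at h10
      have h11 : (|z| : ℝ) ≤ (n : ℝ) := by exact_mod_cast h10
      have h12 : |z| ≤ (n : ℤ) := by exact_mod_cast h11
      exact (le_abs_self z).trans h12
    rcases h9.lt_or_eq with h | h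
    · exact h
    · exfalso
      apply hfaith
      rw [hz, h1, h]; push_cast; rfl
  obtain ⟨t, ht⟩ := h7
  have htneg : t < 0 := by
    by_contra hc
    push Not at hc
    have : 0 ≤ (p : ℤ) * t := mul_nonneg (by positivity) hc
    omega
  refine ⟨(-t).toNat, ?_, ?_, ?_⟩
  · omega
  · rw [Nat.le_div_iff_mul_le (by omega)]
    have h10 : (((-t).toNat : ℕ) : ℤ) = -t := Int.toNat_of_nonneg (by omega)
    have h11 : ((((-t).toNat * (p - 1) : ℕ)) : ℤ) ≤ n := by
      rw [Nat.cast_mul, h10, Nat.cast_sub (by omega)]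
      have h12 : (p : ℤ) * ((-t) * ((p : ℤ) - 1)) ≤ (p : ℤ) * n := by
        have h13 : z = n + p * t := by omega
        rw [h13] at h6
        have h14 : (p : ℤ) * ((-t) * ((p : ℤ) - 1)) = ((p : ℤ) - 1) * n - p * c0 + c' := by
          linear_combination (-1 : ℤ) * h6
        rw [h14]
        have h15 : (0 : ℤ) ≤ (p : ℤ) * c0 := by positivity
        have h16 : (c' : ℤ) ≤ n := by exact_mod_cast h5
        linarith
      have h13 : (0 : ℤ) < p := by exact_mod_cast hp.out.pos
      have h14 := le_of_mul_le_mul_left h12 h13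
      push_cast
      exact h14
    exact_mod_cast h11
  · have h10 : (((-t).toNat : ℕ) : ℤ) = -t := Int.toNat_of_nonneg (by omega)
    have h11 : z = (n : ℤ) - p * ((-t).toNat : ℕ) := by rw [h10]; linarith
    rw [hz, h11]
    push_cast
    ring

end

theorem main {G : Type u} [Group G] [Finite G] (p : ℕ) (hp : p.Prime) (χ : G → ℂ)
    (hχ : IsCharacter G χ) (hfaith : ∀ g : G, χ g = χ 1 → g = 1)
    (hrat : (∃ r : ℕ, 0 < r ∧ ¬ p ∣ r ∧ ∀ g : G, χ g ∈ IntermediateField.adjoin ℚ
      ({Complex.exp (2 * Real.pi * Complex.I / r)} : Set ℂ))) (n : ℕ) (hn : charDegree χ = n) :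
    (Nat.card G).factorization p ≤ ∑ i ∈ Finset.range (n + 1), n / ((p - 1) * p ^ i) := by
  classical
  haveI : Fact p.Prime := ⟨hp⟩
  obtain ⟨r, hr0, hpr, hr⟩ := hrat
  obtain ⟨M, hM⟩ := exists_isPModular hp
  obtain ⟨P⟩ : Nonempty (Sylow p G) := inferInstance
  haveI := Fintype.ofFinite (P : Subgroup G)
  -- rationality on `p`-elements
  have hgal : ∀ g : G, ∀ k : ℕ, orderOf g = p ^ k → ∀ i : ℕ, Nat.Coprime i p → χ (g ^ i) = χ g := by
    intro g k hk i hi
    have hcop : Nat.Coprime (p ^ k) r := Nat.Coprime.pow_left k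
      ((Nat.Prime.coprime_iff_not_dvd hp).2 hpr)
    obtain ⟨m, hm1, hm2⟩ := Nat.chineseRemainder hcop i 1
    have hmc : m.Coprime (p ^ k * r) := by
      apply Nat.Coprime.mul_right
      · have h1 : Nat.gcd (p ^ k) m = Nat.gcd (p ^ k) i := by
          rw [Nat.gcd_comm, Nat.ModEq.gcd_eq hm1, Nat.gcd_comm]
        have h2 : Nat.Coprime (p ^ k) m := by
          rw [Nat.coprime_iff_gcd_eq_one, h1]
          exact (Nat.Coprime.pow_right k hi).symm
        exact h2.symm
      · have h1 := Nat.ModEq.gcd_eq hm2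
        rw [Nat.coprime_iff_gcd_eq_one, h1, Nat.gcd_one_left]
    have hN : p ^ k * r ≠ 0 := mul_ne_zero (pow_ne_zero _ hp.ne_zero) hr0.ne'
    obtain ⟨σ, hσ⟩ := exists_ringEquiv_pow hN hmc
    -- `σ` fixes the field of values
    have hζ : σ (Complex.exp (2 * Real.pi * Complex.I / r)) =
        Complex.exp (2 * Real.pi * Complex.I / r) := by
      have h1 : Complex.exp (2 * Real.pi * Complex.I / r) ^ r = 1 := by
        rw [← Complex.exp_nat_mul, mul_div_cancel₀ _ (by exact_mod_cast hr0.ne')]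
        exact Complex.exp_two_pi_mul_I
      rw [hσ _ (by rw [mul_comm (p ^ k) r, pow_mul, h1, one_pow])]
      have h2 : Complex.exp (2 * Real.pi * Complex.I / r) ^ m =
          Complex.exp (2 * Real.pi * Complex.I / r) ^ 1 := by
        have h3 : m % r = 1 % r := hm2
        rw [pow_eq_pow_mod m h1, h3, ← pow_eq_pow_mod 1 h1]
      rw [h2, pow_one]
    have hfix : ∀ x ∈ IntermediateField.adjoin ℚ
        ({Complex.exp (2 * Real.pi * Complex.I / r)} : Set ℂ), σ x = x := by
      intro x hx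
      induction hx using IntermediateField.adjoin_induction with
      | mem x hx =>
        rw [Set.mem_singleton_iff.1 hx]; exact hζ
      | algebraMap x => simp
      | add x y _ _ h1 h2 => rw [map_add, h1, h2]
      | inv x _ h1 => rw [map_inv₀, h1]
      | mul x y _ _ h1 h2 => rw [map_mul, h1, h2]
    have h1 : σ (χ g) = χ (g ^ m) := char_galois_apply hχ (σ : ℂ →+* ℂ) hN hσ (by
      rw [pow_mul, ← hk, pow_orderOf_eq_one, one_pow])
    have h2 : g ^ m = g ^ i := by
      rw [pow_eq_pow_iff_modEq, hk]; exact hm1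
    rw [← h2, ← h1]
    exact hfix _ (hr g)
  have hn1 : χ 1 = n := by rw [← hn, charDegree_cast hχ]
  have h1 := blichfeldt (P := (P : Subgroup G)) (p := p) (n := n) (m := n / (p - 1))
    (isChar_restrict (P : Subgroup G) hχ) hn1 (by
      intro x hx
      obtain ⟨k, hk⟩ := (IsPGroup.iff_orderOf.1 P.2) x
      apply value (P := (P : Subgroup G)) (χ := fun y : (P : Subgroup G) => χ y)
        (isChar_restrict (P : Subgroup G) hχ) hn1 hx hk
      · intro i hi
        have h2 := hgal (x : G) k (by rw [Subgroup.orderOf_coe, hk]) i hi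
        exact h2
      · intro h2
        apply hx
        exact Subtype.ext (hfaith x h2)
      · exact hM)
  rw [P.card_eq_multiplicity] at h1
  have h2 : (Nat.card G).factorization p ≤ n / (p - 1) +
      (n / (p - 1)).factorial.factorization p := by
    have h3 := (hp.pow_dvd_iff_le_factorization (mul_ne_zero (pow_ne_zero _ hp.ne_zero)
      (Nat.factorial_ne_zero _))).1 h1
    rw [Nat.factorization_mul (pow_ne_zero _ hp.ne_zero) (Nat.factorial_ne_zero _),
      hp.factorization_pow, Finsupp.add_apply, Finsupp.single_eq_same] at h3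
    exact h3
  refine h2.trans ?_
  have h3 : (n / (p - 1)).factorial.factorization p =
      ∑ i ∈ Finset.Ico 1 (n + 1), (n / (p - 1)) / p ^ i := by
    rw [Nat.factorization_def _ hp]
    apply padicValNat_factorial
    have := Nat.log_le_self p (n / (p - 1))
    have := Nat.div_le_self n (p - 1)
    omega
  rw [h3, Finset.range_eq_Ico, Finset.sum_eq_sum_Ico_succ_bot (Nat.succ_pos n)]
  simp only [pow_zero, mul_one, zero_add]
  refine Nat.add_le_add_left (le_of_eq ?_) _
  refine Finset.sum_congr rfl fun i _ => ?_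
  rw [Nat.div_div_eq_div_mul]

end Cfsg.Agent.H7.Schur
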