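import Cfsg.Agent.H5.Sp
import Cfsg.Prelude.Def_SporadicB

set_option autoImplicit false

/-! Symplectic transvections over the field with two elements form a class of 3-transpositions. -/

namespace Cfsg.Agent.H7.SpT

open Matrix Cfsg Cfsg.Agent.H5

variable {n : ℕ}

local notation "V" => Fin n ⊕ Fin n → ZMod 2
local notation "Sp" => Matrix.symplecticGroup (Fin n) (ZMod 2)
local notation "M" => Matrix (Fin n ⊕ Fin n) (Fin n ⊕ Fin n) (ZMod 2)

theorem ext' {g h : Sp} (e : ∀ x : V, (g : M).mulVec x = (h : M).mulVec x) : g = h :=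
  Subtype.ext (Matrix.mulVec_injective (funext e))

theorem coe_mul (g h : Sp) : ((g * h : Sp) : M) = (g : M) * (h : M) := rfl

theorem t_apply (w : V) (x : V) :
    ((spT w 1 : Sp) : M).mulVec x = x + sympB n (ZMod 2) x w • w := by
  have := sympTransvection_mulVec (F := ZMod 2) w 1 x
  rw [one_mul] at this
  exact this

theorem B_self (x : V) : sympB n (ZMod 2) x x = 0 := sympB_isAlt x

theorem B_symm (x y : V) : sympB n (ZMod 2) x y = sympB n (ZMod 2) y x := by
  rw [sympB_neg]
  exact CharTwo.neg_eq _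

theorem add_self' (x : V) : x + x = 0 := by
  funext i
  exact CharTwo.add_self_eq_zero _

theorem zmod_cases (a : ZMod 2) : a = 0 ∨ a = 1 := by
  revert a; decide

theorem t_sq (w : V) : (spT w 1 : Sp) * spT w 1 = 1 := by
  apply ext'
  intro x
  rw [coe_mul, ← mulVec_mulVec, t_apply, t_apply, map_add, LinearMap.add_apply, map_smul,
    LinearMap.smul_apply, B_self, smul_zero, add_zero, add_assoc, ← add_smul,
    CharTwo.add_self_eq_zero, zero_smul, add_zero]
  change x = (1 : M).mulVec x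
  rw [one_mulVec]

theorem t_conj (g : Sp) (w : V) : g * spT w 1 * g⁻¹ = spT ((g : M).mulVec w) 1 := by
  have h : g * spT w 1 = spT ((g : M).mulVec w) 1 * g := by
    apply ext'
    intro x
    rw [coe_mul, coe_mul, ← mulVec_mulVec, ← mulVec_mulVec, t_apply, t_apply, mulVec_add,
      mulVec_smul, mem_Sp_iff.1 g.2]
  rw [h, mul_inv_cancel_right]

theorem t_ne_one {w : V} (hw : w ≠ 0) : (spT w 1 : Sp) ≠ 1 := by
  intro h
  obtain ⟨x, hx⟩ : ∃ x, sympB n (ZMod 2) x w ≠ 0 := by
    by_contra hcon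
    push Not at hcon
    apply hw
    refine (sympB_nondegenerate (m := n) (F := ZMod 2)).2 w hcon
  have h1 := congrArg (fun g : Sp => (g : M).mulVec x) h
  simp only [t_apply] at h1
  have h2 : ((1 : Sp) : M).mulVec x = x := one_mulVec x
  rw [h2, (zmod_cases _).resolve_left hx, one_smul] at h1
  exact hw (by simpa using h1)

theorem t_rank {w : V} (hw : w ≠ 0) : (((spT w 1 : Sp) : M) - 1).rank = 1 := by
  have h1 : ((spT w 1 : Sp) : M) - 1 = Matrix.vecMulVec w (Matrix.J (Fin n) (ZMod 2) *ᵥ w) := by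
    change sympTransvection n w 1 - 1 = _
    rw [sympTransvection, one_smul, add_sub_cancel_left]
  apply le_antisymm
  · rw [h1]
    exact Matrix.rank_vecMulVec_le _ _
  · by_contra hcon
    have h2 : (((spT w 1 : Sp) : M) - 1).rank = 0 := by omega
    have h3 : LinearMap.range (((spT w 1 : Sp) : M) - 1).mulVecLin = ⊥ :=
      Submodule.finrank_eq_zero.1 h2
    rw [LinearMap.range_eq_bot] at h3
    apply t_ne_one hw
    apply ext'
    intro x
    have h4 : (((spT w 1 : Sp) : M) - 1).mulVec x = 0 := LinearMap.congr_fun h3 x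
    rw [sub_mulVec, sub_eq_zero] at h4
    exact h4

theorem exists_w {g : Sp} (hg : ((g : M) - 1).rank = 1) : ∃ w : V, w ≠ 0 ∧ g = spT w 1 := by
  -- the image is spanned by `w`
  have h1 : Module.finrank (ZMod 2) (LinearMap.range ((g : M) - 1).mulVecLin) = 1 := hg
  obtain ⟨⟨w, hw⟩, hw0, hspan⟩ := finrank_eq_one_iff'.1 h1
  have hw0' : w ≠ 0 := fun e => hw0 (Subtype.ext e)
  have h2 : ∀ x : V, ∃ c : ZMod 2, ((g : M) - 1).mulVec x = c • w := by
    intro x
    obtain ⟨c, hc⟩ := hspan ⟨((g : M) - 1).mulVecLin x, LinearMap.mem_range_self _ x⟩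
    exact ⟨c, (congrArg Subtype.val hc).symm⟩
  choose f hf using h2
  have hgx : ∀ x : V, (g : M).mulVec x = x + f x • w := by
    intro x
    rw [← hf x, sub_mulVec, one_mulVec, add_sub_cancel]
  obtain ⟨x₀, hx₀⟩ := hw
  have hfx₀ : f x₀ = 1 := by
    have h3 : ((g : M) - 1).mulVec x₀ = w := hx₀
    rw [hf] at h3
    rcases zmod_cases (f x₀) with h | h
    · rw [h, zero_smul] at h3
      exact absurd h3.symm hw0'
    · exact h
  have key : ∀ x y : V, f x * sympB n (ZMod 2) w y + f y * sympB n (ZMod 2) x w = 0 := by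
    intro x y
    have h3 := mem_Sp_iff.1 g.2 x y
    rw [hgx, hgx] at h3
    simp only [map_add, LinearMap.add_apply, map_smul, LinearMap.smul_apply, B_self, smul_eq_mul,
      mul_zero, add_zero] at h3
    linear_combination h3
  refine ⟨w, hw0', ?_⟩
  apply ext'
  intro x
  rw [hgx, t_apply]
  congr 1
  -- `f x = B(x,w)`
  have h4 : ∀ x, sympB n (ZMod 2) x w = f x * sympB n (ZMod 2) w x₀ := by
    intro x
    have h5 := key x x₀
    rw [hfx₀, one_mul, add_comm] at h5
    exact CharTwo.add_eq_zero.1 h5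
  obtain ⟨z, hz⟩ : ∃ x, sympB n (ZMod 2) x w ≠ 0 := by
    by_contra hcon
    push Not at hcon
    apply hw0'
    exact (sympB_nondegenerate (m := n) (F := ZMod 2)).2 w hcon
  have h6 : sympB n (ZMod 2) w x₀ = 1 := by
    rcases zmod_cases (sympB n (ZMod 2) w x₀) with h | h
    · exfalso
      apply hz
      rw [h4, h, mul_zero]
    · exact h
  rw [h4 x, h6, mul_one]

theorem t_comm {v w : V} (h : sympB n (ZMod 2) v w = 0) :
    (spT v 1 : Sp) * spT w 1 = spT w 1 * spT v 1 := by
  have h1 := t_conj (spT v 1 : Sp) w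
  rw [t_apply, B_symm, h, zero_smul, add_zero] at h1
  exact mul_inv_eq_iff_eq_mul.1 h1

theorem t_inv (w : V) : (spT w 1 : Sp)⁻¹ = spT w 1 := inv_eq_of_mul_eq_one_left (t_sq w)

theorem t_braid {v w : V} (h : sympB n (ZMod 2) v w = 1) :
    (spT v 1 : Sp) * spT w 1 * spT v 1 = spT w 1 * spT v 1 * spT w 1 := by
  have h1 := t_conj (spT v 1 : Sp) w
  have h2 := t_conj (spT w 1 : Sp) v
  rw [t_inv, t_apply] at h1 h2
  rw [h1, h2, h, B_symm w v, h, one_smul, one_smul, add_comm]

theorem main (hn : 1 ≤ n) :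
    Cfsg.IsThreeTranspositionClass {g : Sp | ((g : M) - 1).rank = 1} := by
  have hD : {g : Sp | ((g : M) - 1).rank = 1} = {g | ∃ w : V, w ≠ 0 ∧ g = spT w 1} := by
    ext g
    exact ⟨exists_w, by rintro ⟨w, hw, rfl⟩; exact t_rank hw⟩
  rw [hD]
  refine ⟨⟨?_, ?_⟩, ?_, ?_⟩
  · rintro d ⟨w, hw, rfl⟩
    apply orderOf_eq_prime
    · rw [sq, t_sq]
    · exact t_ne_one hw
  · rintro d ⟨v, hv, rfl⟩ e ⟨w, hw, rfl⟩
    rcases zmod_cases (sympB n (ZMod 2) v w) with h | h
    · left
      calc ((spT v 1 : Sp) * spT w 1) ^ 2 = spT v 1 * (spT w 1 * spT v 1) * spT w 1 := by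
            rw [sq]; group
        _ = spT v 1 * (spT v 1 * spT w 1) * spT w 1 := by rw [← t_comm h]
        _ = (spT v 1 * spT v 1) * (spT w 1 * spT w 1) := by group
        _ = 1 := by rw [t_sq, t_sq, mul_one]
    · right
      have h1 := t_braid h
      calc ((spT v 1 : Sp) * spT w 1) ^ 3 =
          (spT v 1 * spT w 1 * spT v 1) * (spT w 1 * spT v 1 * spT w 1) := by
            rw [pow_succ, sq]; simp only [mul_assoc]
        _ = (spT v 1 * spT w 1 * spT v 1) * (spT v 1 * spT w 1 * spT v 1) := by rw [← h1]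
        _ = spT v 1 * spT w 1 * (spT v 1 * spT v 1) * spT w 1 * spT v 1 := by
            simp only [mul_assoc]
        _ = spT v 1 * (spT w 1 * spT w 1) * spT v 1 := by
            rw [t_sq, mul_one, mul_assoc (spT v 1) (spT w 1)]
        _ = 1 := by rw [t_sq, mul_one, t_sq]
  · let w₀ : V := fun _ => 1
    have hw₀ : w₀ ≠ 0 := by
      intro h
      have := congrFun h (Sum.inl ⟨0, hn⟩)
      exact one_ne_zero this
    refine ⟨spT w₀ 1, ⟨w₀, hw₀, rfl⟩, ?_⟩
    ext g
    change _ ↔ IsConj _ _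
    rw [isConj_iff]
    constructor
    · rintro ⟨w, hw, rfl⟩
      obtain ⟨t, -, ht, -⟩ := sp_move (m := n) (F := ZMod 2) ⊥ w w₀ (by
        intro h hh
        rw [Submodule.mem_bot] at hh
        rw [hh]; simp) (by simpa using hw) (by simpa using hw₀)
      exact ⟨t, by rw [t_conj, ht]⟩
    · rintro ⟨c, rfl⟩
      refine ⟨(c : M).mulVec w₀, ?_, t_conj c w₀⟩
      intro h0
      apply hw₀
      have h1 : ((c⁻¹ * c : Sp) : M).mulVec w₀ = 0 := by
        rw [coe_mul, ← mulVec_mulVec, h0, mulVec_zero]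
      rw [inv_mul_cancel] at h1
      rwa [show ((1 : Sp) : M) = 1 from rfl, one_mulVec] at h1
  · rw [eq_top_iff, ← spTgroup_eq_top, spTgroup, Subgroup.closure_le]
    rintro A ⟨w, c, hA⟩
    rcases zmod_cases c with rfl | rfl
    · have : A = 1 := by
        apply Subtype.ext
        rw [hA, sympTransvection, zero_smul, add_zero]
        rfl
      rw [this]
      exact one_mem _
    · by_cases hw : w = 0
      · subst hw
        have : A = 1 := by
          apply ext'
          intro x
          rw [hA, sympTransvection_mulVec, smul_zero, add_zero]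
          exact (one_mulVec x).symm
        rw [this]
        exact one_mem _
      · exact Subgroup.subset_closure ⟨w, hw, Subtype.ext hA⟩

end Cfsg.Agent.H7.SpT
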