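import Cfsg.Agent.H8.Fi22U6
import Cfsg.Agent.H8.Fi22O7
import Cfsg.Agent.H7.SporA

set_option autoImplicit false
set_option linter.all false
set_option maxRecDepth 100000

/-! The 3-transposition class of the presented Fischer group `Fi₂₂`. -/

namespace Cfsg.Agent.H7.SporFi22

open Cfsg Cfsg.Spor Cfsg.Agent.H5 Cfsg.Agent.H8 Cfsg.Agent.H8.Fi22P

theorem not_mem_one : s 1 ∉ wordGroup s Fi22bt.clG := by
  rw [index_stab.2]
  intro h
  have h0 : ρ₂ (s 1) ⟨0, by decide⟩ = ⟨0, by decide⟩ := h
  have h1 := hρ₂ 1 (by decide)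
  rw [h1] at h0
  have h2 := permL_apply Fi22bt.tok 1 (by decide) ⟨0, by decide⟩
  rw [h0] at h2
  revert h2
  decide +kernel

theorem ne_two : s 2 ≠ s 0 := by
  intro h
  have h1 := hρ₂ 0 (by decide)
  have h2 := hρ₂ 2 (by decide)
  rw [h, h1] at h2
  have h3 := permL_apply Fi22bt.tok 0 (by decide) ⟨1, by decide⟩
  have h4 := permL_apply Fi22bt.tok 2 (by decide) ⟨1, by decide⟩
  rw [← h2, h3] at h4
  revert h4
  decide +kernel

theorem cent_iff (g : Fi22) : g ∈ wordGroup s Fi22bt.clG ↔ g * s 0 = s 0 * g := by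
  have hle : wordGroup s Fi22bt.clG ≤ Subgroup.centralizer ({s 0} : Set Fi22) := fun g hg =>
    Subgroup.mem_centralizer_singleton_iff.2 (a_central g hg)
  constructor
  · exact a_central g
  · intro h
    have hco : IsCoatom (wordGroup s Fi22bt.clG) := by rw [index_stab.2]; exact coatom
    by_contra hg
    have hlt : wordGroup s Fi22bt.clG < Subgroup.centralizer ({s 0} : Set Fi22) :=
      lt_of_le_of_ne hle fun he => hg (by rw [he]; exact Subgroup.mem_centralizer_singleton_iff.2 h)
    have htop := hco.2 _ hlt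
    apply s0_ne
    apply center_trivial
    intro x
    have : x ∈ Subgroup.centralizer ({s 0} : Set Fi22) := by rw [htop]; trivial
    exact Subgroup.mem_centralizer_singleton_iff.1 this

theorem main : IsThreeTranspositionClass (conjugatesOf (s 0)) ∧
    Nat.card (conjugatesOf (s 0)) = 3510 := by
  haveI := simple
  haveI := finite_and_card_le.1
  obtain ⟨q₁, h₁⟩ := orbit_len 2 693 ⟨6, by decide⟩ (by decide +kernel) (Fi22bt.cl_size 2)
  obtain ⟨q₂, h₂⟩ := orbit_len 1 2816 ⟨1, by decide⟩ (by decide +kernel) (Fi22bt.cl_size 1)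
  have r01 : (s 0 * s 1) ^ 3 = 1 := by
    have := base ([0, 1], 3) (by decide)
    simpa using this
  have c01 : IsConj (s 0) (s 1) := isConj_iff.2 ⟨_, Fi22O.braid_s 0 1 (by decide)⟩
  have c12 : IsConj (s 1) (s 2) := isConj_iff.2 ⟨_, Fi22O.braid_s 1 2 (by decide)⟩
  have hord : orderOf (s 0) = 2 := by
    rw [orderOf_eq_prime_iff]
    exact ⟨by rw [pow_two]; exact s_sq 0, s0_ne⟩
  have := SporA.three_trans (wordGroup s Fi22bt.clG) (s 0) (s 1) (s 2) hord cent_iff c01
    (c01.trans c12) ne_two (comm_of_rel 2 (by decide)) r01 (fun h => not_mem_one ((cent_iff _).2 h))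
    q₁ q₂ h₁ h₂ (by rw [index_stab.1]) (by decide) (by decide) (by decide)
  rw [index_stab.1] at this
  exact this

theorem cover (d : Fi22) (hd : d ∈ conjugatesOf (s 0)) :
    IsNonsplitDoubleCover (Subgroup.centralizer ({d} : Set Fi22)) (PSU 6 F4 2) := by
  obtain ⟨g, rfl⟩ := isConj_iff.1 hd
  have e : wordGroup s Fi22bt.clG ≃* Subgroup.centralizer ({s 0} : Set Fi22) :=
    MulEquiv.subgroupCongr (by
      ext x
      rw [cent_iff, Subgroup.mem_centralizer_singleton_iff])
  exact SporA.nonsplit_congr (e.trans (SporA.centConj (s 0) g)) double_cover_U6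

end Cfsg.Agent.H7.SporFi22
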