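import Mathlib
import Cfsg.Prelude.Def_Sporadic_a
import Cfsg.Agent.H7.SteinerGraph
import Cfsg.Agent.H7.SteinerUnique2

/-!
Strongly regular graphs with parameters (100,22,0,6) come from S(3,6,22).
-/
set_option autoImplicit false

namespace Cfsg.Agent.H7
open Cfsg Cfsg.Agent.H29

/-- isomorphic systems give isomorphic graphs -/
theorem pb_iso {α β : Type*} [DecidableEq α] [DecidableEq β] {B : Set (Finset α)}
    {B' : Set (Finset β)} (h : SetSystemIso B B') :
    Nonempty (pointBlockGraph B ≃g pointBlockGraph B') := by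
  obtain ⟨e, he⟩ := h
  have hmem : ∀ b : B, (b : Finset α).image e ∈ B' := by
    intro b; rw [← he]; exact ⟨b, b.2, rfl⟩
  let f : B → B' := fun b => ⟨(b : Finset α).image e, hmem b⟩
  have hf : Function.Bijective f := by
    constructor
    · intro b c hbc
      apply Subtype.ext
      exact Finset.image_injective e.injective (congrArg Subtype.val hbc)
    · rintro ⟨b', hb'⟩
      rw [← he] at hb'
      obtain ⟨b, hb, hbe⟩ := hb'
      exact ⟨⟨b, hb⟩, Subtype.ext hbe⟩
  let F : Option (α ⊕ B) ≃ Option (β ⊕ B') :=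
    Equiv.optionCongr (Equiv.sumCongr e (Equiv.ofBijective f hf))
  have hrel : ∀ x y, pointBlockRel B' (F x) (F y) ↔ pointBlockRel B x y := by
    intro x y
    rcases x with _ | (a | b) <;> rcases y with _ | (a' | b')
    · exact Iff.rfl
    · exact Iff.rfl
    · exact Iff.rfl
    · exact Iff.rfl
    · exact Iff.rfl
    · show e a ∈ (b' : Finset α).image e ↔ a ∈ (b' : Finset α)
      rw [Finset.mem_image]
      constructor
      · rintro ⟨x, hx, hxa⟩; rwa [← e.injective hxa]
      · intro h; exact ⟨a, h, rfl⟩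
    · exact Iff.rfl
    · exact Iff.rfl
    · show Disjoint ((b : Finset α).image e) ((b' : Finset α).image e) ↔
        Disjoint (b : Finset α) (b' : Finset α)
      exact Finset.disjoint_image e.injective
  refine ⟨⟨F, ?_⟩⟩
  intro x y
  show (pointBlockGraph B').Adj (F x) (F y) ↔ (pointBlockGraph B).Adj x y
  unfold pointBlockGraph
  rw [SimpleGraph.fromRel_adj, SimpleGraph.fromRel_adj, hrel, hrel, F.injective.ne_iff]

section
variable {V : Type*} [Fintype V] {G : SimpleGraph V} [DecidableRel G.Adj]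

theorem srg_common (hG : G.IsSRGWith 100 22 0 6) {v w : V} (hne : v ≠ w) (h : ¬ G.Adj v w) :
    (G.commonNeighbors v w).ncard = 6 := by
  classical
  rw [← fcard_eq_ncard]; exact hG.of_not_adj hne h

theorem srg_tri (hG : G.IsSRGWith 100 22 0 6) {u v w : V} (h1 : G.Adj u v) (h2 : G.Adj u w)
    (h3 : G.Adj v w) : False := by
  classical
  have h := hG.of_adj v w h3
  rw [fcard_eq_ncard, Set.ncard_eq_zero (Set.toFinite _)] at h
  have : u ∈ G.commonNeighbors v w := by
    rw [SimpleGraph.mem_commonNeighbors]; exact ⟨h1.symm, h2.symm⟩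
  rw [h] at this
  exact this

theorem srg_deg (hG : G.IsSRGWith 100 22 0 6) (v : V) : (G.neighborSet v).ncard = 22 := by
  classical
  rw [← degree_eq_ncard]; exact hG.regular v

variable (G) in
/-- the block of a vertex -/
def sblk (v0 : V) (w : V) : Finset {v // G.Adj v0 v} := Finset.univ.filter fun a => G.Adj w a

theorem mem_sblk {v0 w : V} {a : {v // G.Adj v0 v}} : a ∈ sblk G v0 w ↔ G.Adj w a := by
  unfold sblk; simp

variable (G) in
/-- vertices at distance two -/
def sW [DecidableEq V] (v0 : V) : Finset V := Finset.univ.filter fun w => w ≠ v0 ∧ ¬ G.Adj v0 w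

theorem mem_sW [DecidableEq V] {v0 w : V} : w ∈ sW G v0 ↔ w ≠ v0 ∧ ¬ G.Adj v0 w := by
  unfold sW; simp

variable [DecidableEq V]

theorem card_nbr (hG : G.IsSRGWith 100 22 0 6) (v0 : V) :
    Fintype.card {v // G.Adj v0 v} = 22 := by
  have h := srg_deg hG v0
  rw [← Nat.card_eq_fintype_card]
  exact h

theorem card_sW (hG : G.IsSRGWith 100 22 0 6) (v0 : V) : (sW G v0).card = 77 := by
  have h1 : (Finset.univ.filter fun w => G.Adj v0 w).card = 22 := by
    have h := srg_deg hG v0
    rw [← h, ← Set.ncard_coe_finset]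
    congr 1
    ext w; simp
  have h2 : sW G v0 = Finset.univ \ (insert v0 (Finset.univ.filter fun w => G.Adj v0 w)) := by
    ext w
    rw [mem_sW]
    simp [not_or]
  rw [h2, Finset.card_sdiff_of_subset (Finset.subset_univ _), Finset.card_univ, hG.card,
    Finset.card_insert_of_notMem (by simp), h1]

/-- sizes of blocks -/
theorem card_sblk (hG : G.IsSRGWith 100 22 0 6) {v0 w : V} (hw : w ∈ sW G v0) :
    (sblk G v0 w).card = 6 := by
  rw [mem_sW] at hw
  have h := srg_common hG hw.1.symm hw.2
  rw [← h, ← Finset.card_image_of_injective _ (Subtype.val_injective), ← Set.ncard_coe_finset]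
  congr 1
  ext x
  rw [SimpleGraph.mem_commonNeighbors, Finset.coe_image]
  simp only [Set.mem_image, Finset.mem_coe, mem_sblk]
  constructor
  · rintro ⟨a, h1, rfl⟩; exact ⟨a.2, h1⟩
  · rintro ⟨h1, h2⟩; exact ⟨⟨x, h1⟩, h2, rfl⟩

/-- number of blocks through one point -/
theorem count_one (hG : G.IsSRGWith 100 22 0 6) {v0 : V} (a : {v // G.Adj v0 v}) :
    ((sW G v0).filter fun w => a ∈ sblk G v0 w).card = 21 := by
  have h := srg_deg hG (a : V)
  have h2 : G.neighborSet (a : V) = ((insert v0 ((sW G v0).filter fun w => a ∈ sblk G v0 w) :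
      Finset V) : Set V) := by
    ext x
    rw [SimpleGraph.mem_neighborSet]
    simp only [Finset.coe_insert, Set.mem_insert_iff, Finset.mem_coe, Finset.mem_filter, mem_sW,
      mem_sblk]
    constructor
    · intro hx
      by_cases hx0 : x = v0
      · exact Or.inl hx0
      · exact Or.inr ⟨⟨hx0, fun h => srg_tri hG a.2 h hx⟩, hx.symm⟩
    · rintro (rfl | ⟨_, hx⟩)
      · exact a.2.symm
      · exact hx.symm
  rw [h2, Set.ncard_coe_finset, Finset.card_insert_of_notMem] at h
  · omega
  · rw [Finset.mem_filter, mem_sW]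
    rintro ⟨⟨h, _⟩, _⟩
    exact h rfl

/-- number of blocks through two points -/
theorem count_two (hG : G.IsSRGWith 100 22 0 6) {v0 : V} {a a' : {v // G.Adj v0 v}}
    (hne : a ≠ a') :
    ((sW G v0).filter fun w => a ∈ sblk G v0 w ∧ a' ∈ sblk G v0 w).card = 5 := by
  have hnadj : ¬ G.Adj (a : V) a' := fun h => srg_tri hG a.2 a'.2 h
  have h := srg_common hG (fun h => hne (Subtype.ext h)) hnadj
  have h2 : G.commonNeighbors (a : V) a' = ((insert v0 ((sW G v0).filter fun w =>
      a ∈ sblk G v0 w ∧ a' ∈ sblk G v0 w) : Finset V) : Set V) := by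
    ext x
    rw [SimpleGraph.mem_commonNeighbors]
    simp only [Finset.coe_insert, Set.mem_insert_iff, Finset.mem_coe, Finset.mem_filter, mem_sW,
      mem_sblk]
    constructor
    · rintro ⟨hx, hx'⟩
      by_cases hx0 : x = v0
      · exact Or.inl hx0
      · exact Or.inr ⟨⟨hx0, fun h => srg_tri hG a.2 h hx⟩, hx.symm, hx'.symm⟩
    · rintro (rfl | ⟨_, hx, hx'⟩)
      · exact ⟨a.2.symm, a'.2.symm⟩
      · exact ⟨hx.symm, hx'.symm⟩
  rw [h2, Set.ncard_coe_finset, Finset.card_insert_of_notMem] at h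
  · omega
  · rw [Finset.mem_filter, mem_sW]
    rintro ⟨⟨h, _⟩, _⟩
    exact h rfl

/-- number of vertices at distance two adjacent to a given one -/
theorem count_adj (hG : G.IsSRGWith 100 22 0 6) {v0 w : V} (hw : w ∈ sW G v0) :
    ((sW G v0).filter fun w' => G.Adj w w').card = 16 := by
  have h := srg_deg hG w
  have h6 := card_sblk hG hw
  have hw' := mem_sW.mp hw
  have h2 : G.neighborSet w = (((sblk G v0 w).image Subtype.val ∪
      (sW G v0).filter fun w' => G.Adj w w' : Finset V) : Set V) := by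
    ext x
    rw [SimpleGraph.mem_neighborSet]
    simp only [Finset.coe_union, Set.mem_union, Finset.mem_coe, Finset.mem_filter, mem_sW,
      Finset.mem_image, mem_sblk]
    constructor
    · intro hx
      by_cases hx0 : G.Adj v0 x
      · exact Or.inl ⟨⟨x, hx0⟩, hx, rfl⟩
      · refine Or.inr ⟨⟨?_, hx0⟩, hx⟩
        rintro rfl
        exact hw'.2 hx.symm
    · rintro (⟨a, ha, rfl⟩ | ⟨_, hx⟩)
      · exact ha
      · exact hx
  rw [h2, Set.ncard_coe_finset, Finset.card_union_of_disjoint,
    Finset.card_image_of_injective _ Subtype.val_injective, h6] at h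
  · omega
  · rw [Finset.disjoint_left]
    intro x hx hx'
    rw [Finset.mem_image] at hx
    obtain ⟨a, _, rfl⟩ := hx
    rw [Finset.mem_filter, mem_sW] at hx'
    exact hx'.1.2 a.2

/-- intersections of blocks -/
theorem sblk_inter (hG : G.IsSRGWith 100 22 0 6) {v0 w w' : V} (hw : w ∈ sW G v0)
    (hw' : w' ∈ sW G v0) (hne : w' ≠ w) :
    (G.Adj w w' ∧ (sblk G v0 w' ∩ sblk G v0 w).card = 0) ∨
    (¬ G.Adj w w' ∧ (sblk G v0 w' ∩ sblk G v0 w).card = 2) := by
  have h6 := card_sblk hG hw
  have hadj0 : ∀ x, G.Adj w x → (sblk G v0 x ∩ sblk G v0 w).card = 0 := by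
    intro x hx
    rw [Finset.card_eq_zero, Finset.eq_empty_iff_forall_notMem]
    intro a ha
    rw [Finset.mem_inter, mem_sblk, mem_sblk] at ha
    exact srg_tri hG ha.1.symm ha.2.symm hx.symm
  by_cases hadj : G.Adj w w'
  · exact Or.inl ⟨hadj, hadj0 w' hadj⟩
  right
  refine ⟨hadj, ?_⟩
  -- the sum of squares
  set i : V → ℤ := fun x => ((sblk G v0 x ∩ sblk G v0 w).card : ℤ) with hi
  have hival : ∀ x, i x = ∑ a ∈ sblk G v0 w, if a ∈ sblk G v0 x then 1 else 0 := fun x =>
    inter_card_sum _ _
  have s1 : ∑ x ∈ sW G v0, i x = 126 := by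
    rw [Finset.sum_congr rfl (fun x _ => hival x), Finset.sum_comm]
    rw [Finset.sum_congr rfl (fun a _ => by
      rw [Finset.sum_boole, count_one hG a]), Finset.sum_const, h6]
    norm_num
  have s2 : ∑ x ∈ sW G v0, i x * i x = 276 := by
    have h1 : ∀ x ∈ sW G v0, i x * i x = ∑ a ∈ sblk G v0 w, ∑ a' ∈ sblk G v0 w,
        if a ∈ sblk G v0 x ∧ a' ∈ sblk G v0 x then 1 else 0 := by
      intro x _
      rw [hival, Finset.sum_mul_sum]
      apply Finset.sum_congr rfl
      intro a _
      apply Finset.sum_congr rfl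
      intro a' _
      by_cases h1 : a ∈ sblk G v0 x <;> by_cases h2 : a' ∈ sblk G v0 x <;> simp [h1, h2]
    rw [Finset.sum_congr rfl h1, Finset.sum_comm]
    have h2 : ∀ a ∈ sblk G v0 w, ∑ x ∈ sW G v0, ∑ a' ∈ sblk G v0 w,
        (if a ∈ sblk G v0 x ∧ a' ∈ sblk G v0 x then (1 : ℤ) else 0) = 46 := by
      intro a ha
      rw [Finset.sum_comm]
      have h3 : ∀ a' ∈ sblk G v0 w, ∑ x ∈ sW G v0,
          (if a ∈ sblk G v0 x ∧ a' ∈ sblk G v0 x then (1 : ℤ) else 0) =
            5 + 16 * (if a = a' then 1 else 0) := by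
        intro a' _
        rw [Finset.sum_boole]
        by_cases haa : a = a'
        · subst haa
          rw [if_pos rfl]
          simp only [and_self]
          rw [count_one hG a]; norm_num
        · rw [if_neg haa, count_two hG haa]; norm_num
      rw [Finset.sum_congr rfl h3, Finset.sum_add_distrib, ← Finset.mul_sum, Finset.sum_const, h6,
        Finset.sum_ite_eq, if_pos ha]
      norm_num
    rw [Finset.sum_congr rfl h2, Finset.sum_const, h6]
    norm_num
  have s3 : ∑ x ∈ sW G v0, (i x - 2) ^ 2 = 80 := by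
    have h1 : ∀ x ∈ sW G v0, (i x - 2) ^ 2 = i x * i x - 4 * i x + 4 := by
      intro x _; ring
    rw [Finset.sum_congr rfl h1, Finset.sum_add_distrib, Finset.sum_sub_distrib, s2,
      ← Finset.mul_sum, s1, Finset.sum_const, card_sW hG]
    norm_num
  -- compare with the contribution of `w` and its neighbours
  set T := insert w ((sW G v0).filter fun x => G.Adj w x) with hT
  have hTsub : T ⊆ sW G v0 := by
    intro x hx
    rw [hT, Finset.mem_insert, Finset.mem_filter] at hx
    rcases hx with rfl | hx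
    · exact hw
    · exact hx.1
  have s4 : ∑ x ∈ T, (i x - 2) ^ 2 = 80 := by
    rw [hT, Finset.sum_insert]
    · have h1 : ∀ x ∈ (sW G v0).filter (fun x => G.Adj w x), (i x - 2) ^ 2 = 4 := by
        intro x hx
        rw [Finset.mem_filter] at hx
        have h2 : i x = 0 := by
          show (((sblk G v0 x ∩ sblk G v0 w).card : ℕ) : ℤ) = 0
          exact_mod_cast hadj0 x hx.2
        rw [h2]; norm_num
      rw [Finset.sum_congr rfl h1, Finset.sum_const, count_adj hG hw]
      have h2 : i w = 6 := by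
        show (((sblk G v0 w ∩ sblk G v0 w).card : ℕ) : ℤ) = 6
        rw [Finset.inter_self, h6]; norm_num
      rw [h2]; norm_num
    · rw [Finset.mem_filter]
      rintro ⟨_, h⟩
      exact h.ne rfl
  have s5 : ∑ x ∈ sW G v0 \ T, (i x - 2) ^ 2 = 0 := by
    have := Finset.sum_sdiff hTsub (f := fun x => (i x - 2) ^ 2)
    rw [s4, s3] at this
    linarith
  have h7 := (Finset.sum_eq_zero_iff_of_nonneg (fun x _ => sq_nonneg (i x - 2))).mp s5 w' (by
    rw [Finset.mem_sdiff, hT, Finset.mem_insert, Finset.mem_filter]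
    refine ⟨hw', ?_⟩
    rintro (h | h)
    · exact hne h
    · exact hadj h.2)
  have h8 : i w' - 2 = 0 := by
    exact pow_eq_zero_iff (two_ne_zero) |>.mp h7
  have h9 : ((sblk G v0 w' ∩ sblk G v0 w).card : ℤ) = 2 := by
    show i w' = 2
    linarith
  exact_mod_cast h9

theorem sblk_injOn (hG : G.IsSRGWith 100 22 0 6) (v0 : V) :
    Set.InjOn (sblk G v0) (sW G v0 : Set V) := by
  intro w hw w' hw' h
  by_contra hne
  have h1 := sblk_inter hG hw hw' (Ne.symm hne)
  rw [← h, Finset.inter_self, card_sblk hG hw] at h1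
  omega

variable (G) in
/-- the block system -/
def sB (v0 : V) : Set (Finset {v // G.Adj v0 v}) := sblk G v0 '' (sW G v0 : Set V)

theorem sB_steiner (hG : G.IsSRGWith 100 22 0 6) (v0 : V) : IsSteinerSystem 3 6 (sB G v0) := by
  classical
  have hle : ∀ w ∈ sW G v0, ∀ w' ∈ sW G v0, ∀ s : Finset {v // G.Adj v0 v}, s.card = 3 →
      s ⊆ sblk G v0 w → s ⊆ sblk G v0 w' → w = w' := by
    intro w hw w' hw' s hs h1 h2
    by_contra hne
    have h3 := sblk_inter hG hw hw' (Ne.symm hne)
    have h4 := Finset.card_le_card (Finset.subset_inter h2 h1)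
    omega
  refine ⟨?_, ?_⟩
  · rintro _ ⟨w, hw, rfl⟩
    exact card_sblk hG hw
  · -- counting
    have hcount : (sW G v0).biUnion (fun w => (sblk G v0 w).powersetCard 3) =
        (Finset.univ : Finset {v // G.Adj v0 v}).powersetCard 3 := by
      apply Finset.eq_of_subset_of_card_le
      · intro s hs
        rw [Finset.mem_biUnion] at hs
        obtain ⟨w, _, hs⟩ := hs
        rw [Finset.mem_powersetCard] at hs ⊢
        exact ⟨Finset.subset_univ _, hs.2⟩
      · rw [Finset.card_powersetCard, Finset.card_univ, card_nbr hG, Finset.card_biUnion]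
        · rw [Finset.sum_congr rfl (fun w hw => by
            rw [Finset.card_powersetCard, card_sblk hG hw]), Finset.sum_const, card_sW hG]
          decide
        · intro w hw w' hw' hne
          rw [Function.onFun, Finset.disjoint_left]
          intro s h1 h2
          rw [Finset.mem_powersetCard] at h1 h2
          exact hne (hle w hw w' hw' s h1.2 h1.1 h2.1)
    intro s hs
    have h1 : s ∈ (sW G v0).biUnion (fun w => (sblk G v0 w).powersetCard 3) := by
      rw [hcount, Finset.mem_powersetCard]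
      exact ⟨Finset.subset_univ _, hs⟩
    rw [Finset.mem_biUnion] at h1
    obtain ⟨w, hw, h2⟩ := h1
    rw [Finset.mem_powersetCard] at h2
    refine ⟨sblk G v0 w, ⟨⟨w, hw, rfl⟩, h2.1⟩, ?_⟩
    rintro _ ⟨⟨w', hw', rfl⟩, h3⟩
    rw [hle w hw w' hw' s hs h2.1 h3]

/-- the graph is the point-block graph -/
theorem srg_iso (hG : G.IsSRGWith 100 22 0 6) (v0 : V) :
    Nonempty (pointBlockGraph (sB G v0) ≃g G) := by
  classical
  have hex : ∀ b : sB G v0, ∃ w, w ∈ sW G v0 ∧ sblk G v0 w = b := by
    rintro ⟨b, w, hw, rfl⟩; exact ⟨w, hw, rfl⟩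
  choose f hf1 hf2 using hex
  let F : Option ({v // G.Adj v0 v} ⊕ sB G v0) → V := fun x =>
    match x with
    | none => v0
    | some (Sum.inl a) => a
    | some (Sum.inr b) => f b
  have hF : Function.Bijective F := by
    constructor
    · rintro (_ | (a | b)) (_ | (a' | b')) h
      · rfl
      · have h1 : v0 = (a' : V) := h
        exact absurd h1 a'.2.ne
      · exact absurd h.symm (mem_sW.mp (hf1 b')).1
      · have h1 : (a : V) = v0 := h
        exact absurd h1.symm a.2.ne
      · have : a = a' := Subtype.ext h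
        rw [this]
      · have h1 : (a : V) = f b' := h
        exact absurd (h1 ▸ a.2) (mem_sW.mp (hf1 b')).2
      · exact absurd h (mem_sW.mp (hf1 b)).1
      · have h1 : f b = (a' : V) := h
        exact absurd (h1 ▸ a'.2) (mem_sW.mp (hf1 b)).2
      · have h1 : f b = f b' := h
        have : b = b' := by
          apply Subtype.ext
          rw [← hf2 b, ← hf2 b', h1]
        rw [this]
    · intro v
      by_cases h0 : v = v0
      · exact ⟨none, h0.symm⟩
      · by_cases h1 : G.Adj v0 v
        · exact ⟨some (Sum.inl ⟨v, h1⟩), rfl⟩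
        · have hv : v ∈ sW G v0 := mem_sW.mpr ⟨h0, h1⟩
          refine ⟨some (Sum.inr ⟨sblk G v0 v, v, hv, rfl⟩), ?_⟩
          exact sblk_injOn hG v0 (hf1 _) hv (hf2 _)
  have h6 : ∀ b ∈ sB G v0, b.card = 6 := (sB_steiner hG v0).1
  refine ⟨⟨Equiv.ofBijective F hF, ?_⟩⟩
  intro x y
  show G.Adj (F x) (F y) ↔ (pointBlockGraph (sB G v0)).Adj x y
  have k1 : ∀ a : {v // G.Adj v0 v}, G.Adj v0 a := fun a => a.2
  have k2 : ∀ b, ¬ G.Adj v0 (f b) := fun b => (mem_sW.mp (hf1 b)).2
  have k3 : ∀ a a' : {v // G.Adj v0 v}, ¬ G.Adj (a : V) a' := fun a a' h =>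
    srg_tri hG a.2 a'.2 h
  have k4 : ∀ (a : {v // G.Adj v0 v}) b, G.Adj (a : V) (f b) ↔ a ∈ (b : Finset _) := by
    intro a b
    rw [← hf2 b, mem_sblk, SimpleGraph.adj_comm]
  have k5 : ∀ b c, G.Adj (f b) (f c) ↔ ((c : Finset {v // G.Adj v0 v}) ∩ b).card = 0 := by
    intro b c
    by_cases hbc : b = c
    · subst hbc
      rw [Finset.inter_self, h6 b b.2]
      constructor
      · intro h; exact absurd rfl h.ne
      · intro h; norm_num at h
    · have hne : f c ≠ f b := by
        intro h
        apply hbc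
        apply Subtype.ext
        rw [← hf2 b, ← hf2 c, h]
      have h1 := sblk_inter hG (hf1 b) (hf1 c) hne
      rw [hf2 b, hf2 c] at h1
      constructor
      · intro h
        rcases h1 with h1 | h1
        · exact h1.2
        · exact absurd h h1.1
      · intro h
        rcases h1 with h1 | h1
        · exact h1.1
        · rw [h] at h1; exact absurd h1.2 (by norm_num)
  rcases x with _ | (a | b) <;> rcases y with _ | (a' | b')
  · exact iff_of_false (fun h => h.ne rfl) (fun h => h.ne rfl)
  · exact iff_of_true (k1 a') (pb_none_inl a')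
  · exact iff_of_false (k2 b') (pb_none_inr b')
  · exact iff_of_true (k1 a).symm (pb_none_inl a).symm
  · exact iff_of_false (k3 a a') (pb_inl_inl a a')
  · exact (k4 a b').trans (pb_inl_inr a b').symm
  · exact iff_of_false (fun h => k2 b h.symm) (fun h => pb_none_inr b h.symm)
  · show G.Adj (f b) (a' : V) ↔ _
    rw [SimpleGraph.adj_comm, SimpleGraph.adj_comm (pointBlockGraph (sB G v0))]
    exact (k4 a' b).trans (pb_inl_inr a' b).symm
  · exact (k5 b b').trans (pb_inr_inr h6 b b').symm

end

theorem srg100_unique {V W : Type*} [Fintype V] [Fintype W] {G : SimpleGraph V}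
    {H : SimpleGraph W} [DecidableRel G.Adj] [DecidableRel H.Adj]
    (hG : G.IsSRGWith 100 22 0 6) (hH : H.IsSRGWith 100 22 0 6) : Nonempty (G ≃g H) := by
  classical
  have hV : Nonempty V := by rw [← Fintype.card_pos_iff, hG.card]; norm_num
  have hW : Nonempty W := by rw [← Fintype.card_pos_iff, hH.card]; norm_num
  obtain ⟨v0⟩ := hV
  obtain ⟨w0⟩ := hW
  obtain ⟨e1⟩ := srg_iso hG v0
  obtain ⟨e2⟩ := srg_iso hH w0
  obtain ⟨e3⟩ := pb_iso (steiner3622_iso (card_nbr hG v0) (card_nbr hH w0) (sB_steiner hG v0)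
    (sB_steiner hH w0))
  exact ⟨e1.symm.trans (e3.trans e2)⟩

end Cfsg.Agent.H7
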